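import Cfsg.Agent.H35.TCMain
import Cfsg.Prelude.Def_Spor_Suz

/-!
# The presentation of Suz as word lists (helper35; generated)
-/

set_option autoImplicit false
set_option linter.unusedSimpArgs false

namespace Cfsg.Agent.H35

open Cfsg.Spor

noncomputable def suz_gi : Suz.Gen → ℕ := fun x => Suz.Gen.rec (motive := fun _ => ℕ) 0 1 2 3 4 5 6 x
def suz_gens : List Suz.Gen := [.a, .b, .c, .d, .e, .f, .g]
def suz_xs : List (List Suz.Gen × List Suz.Gen) := [([.a, .d, .c, .d, .c], [.c, .d, .c, .d]), ([.a, .g, .f], [.f, .g])]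
def suz_prels : List (List Suz.Gen × ℕ × ℕ) := [
  ([.a, .b, .c, .f], 5, 9),
  ([.b, .f, .g], 5, 10),
  ([.b, .c, .d, .c, .d, .b, .c, .d, .c, .d, .b, .c, .d, .c, .d, .b, .c, .d, .c, .d, .b, .c, .d, .c, .d, .e], 3, 11)]
def suz_rws : List (List Suz.Gen × List Suz.Gen) := [
  ([.a], [.a]),
  ([.a, .b, .a, .b, .a], [.b, .a, .b, .a, .b]),
  ([.a, .c], [.c, .a]),
  ([.a, .d], [.d, .a]),
  ([.a, .e], [.e, .a]),
  ([.a, .f], [.f, .a]),
  ([.a, .g], [.g, .a]),
  ([.b, .a, .b, .a, .b], [.a, .b, .a, .b, .a]),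
  ([.b], [.b]),
  ([.b, .c, .b], [.c, .b, .c]),
  ([.b, .d], [.d, .b]),
  ([.b, .e], [.e, .b]),
  ([.b, .f, .b], [.f, .b, .f]),
  ([.b, .g, .b], [.g, .b, .g]),
  ([.c, .a], [.a, .c]),
  ([.c, .b, .c], [.b, .c, .b]),
  ([.c], [.c]),
  ([.c, .d, .c, .d, .c, .d, .c, .d], [.d, .c, .d, .c, .d, .c, .d, .c]),
  ([.c, .e], [.e, .c]),
  ([.c, .f], [.f, .c]),
  ([.c, .g], [.g, .c]),
  ([.d, .a], [.a, .d]),
  ([.d, .b], [.b, .d]),
  ([.d, .c, .d, .c, .d, .c, .d, .c], [.c, .d, .c, .d, .c, .d, .c, .d]),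
  ([.d], [.d]),
  ([.d, .e, .d], [.e, .d, .e]),
  ([.d, .f], [.f, .d]),
  ([.d, .g], [.g, .d]),
  ([.e, .a], [.a, .e]),
  ([.e, .b], [.b, .e]),
  ([.e, .c], [.c, .e]),
  ([.e, .d, .e], [.d, .e, .d]),
  ([.e], [.e]),
  ([.e, .f], [.f, .e]),
  ([.e, .g], [.g, .e]),
  ([.f, .a], [.a, .f]),
  ([.f, .b, .f], [.b, .f, .b]),
  ([.f, .c], [.c, .f]),
  ([.f, .d], [.d, .f]),
  ([.f, .e], [.e, .f]),
  ([.f], [.f]),
  ([.f, .g, .f, .g], [.g, .f, .g, .f]),
  ([.g, .a], [.a, .g]),
  ([.g, .b, .g], [.b, .g, .b]),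
  ([.g, .c], [.c, .g]),
  ([.g, .d], [.d, .g]),
  ([.g, .e], [.e, .g]),
  ([.g, .f, .g, .f], [.f, .g, .f, .g]),
  ([.g], [.g]),
  ([.a, .d, .c, .d, .c], [.c, .d, .c, .d]),
  ([.a, .g, .f], [.f, .g])]

theorem suz_rws_eq : suz_rws = coxSplits suz_gens (coxLabel Suz.edges) ++ suz_xs := by
  decide

/-- generator of a field index -/
def suz_gof : ℕ → Suz.Gen := fun i => suz_gens.getD i .a

theorem suz_gof_gi (x : Suz.Gen) : suz_gof (suz_gi x) = x := by cases x <;> rfl

theorem suz_gens_all (x : Suz.Gen) : x ∈ suz_gens := by cases x <;> decide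

theorem suz_nodes_all (x : Suz.Gen) : x ∈ coxNodes Suz.edges := by cases x <;> decide

/-- the generators of the presented group -/
def suz_gen (x : Suz.Gen) : Suz := PresentedGroup.of x

theorem suz_gen_eq (x : Suz.Gen) :
    suz_gen x = PresentedGroup.mk (coxRelators Suz.edges ∪ {r | r ∈ Suz.extra}) (FreeGroup.of x) := rfl

theorem suz_sat_of_list {K : Type*} [Group K] (f : Suz.Gen → K) (hf : ∀ x, f x * f x = 1)
    (h1 : ∀ r ∈ suz_rws, uw f (r.1 ++ r.2.reverse) = 1)
    (h2 : ∀ r ∈ suz_prels, uw f r.1 ^ r.2.1 = 1) : CoxSat Suz.edges Suz.extra f := by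
  rw [suz_rws_eq] at h1
  have hi : ∀ x, (f x)⁻¹ = f x := fun x => inv_of_sq (hf x)
  constructor
  · intro x y
    exact cox_of_splits f suz_gens _ (fun r hr => h1 r (List.mem_append_left _ hr)) x y
      (suz_gens_all x) (suz_gens_all y)
  · intro r hr
    delta Suz.extra at hr
    simp only [List.mem_cons, List.not_mem_nil, or_false] at hr
    have hx : ∀ r ∈ suz_xs, uw f (r.1 ++ r.2.reverse) = 1 :=
      fun r hr => h1 r (List.mem_append_right _ hr)
    simp only [suz_xs, List.forall_mem_cons, List.not_mem_nil, false_imp_iff, implies_true, and_true, uw_eq, List.reverse_cons, List.reverse_nil, List.nil_append, List.cons_append, List.append_nil, List.map, List.prod_cons, List.prod_nil, mul_one, mul_assoc] at hx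
    obtain ⟨x0, x1⟩ := hx
    simp only [suz_prels, List.forall_mem_cons, List.not_mem_nil, false_imp_iff, implies_true, and_true, uw_eq, List.map, List.prod_cons, List.prod_nil, mul_one] at h2
    obtain ⟨p0, p1, p2⟩ := h2
    rcases hr with rfl | rfl | rfl | rfl | rfl
    · simpa only [map_mul, map_inv, map_pow, FreeGroup.lift_apply_of, mul_inv_rev, hi, pow_succ, pow_zero, one_mul, mul_assoc] using x0
    · simpa only [map_mul, map_inv, map_pow, FreeGroup.lift_apply_of, mul_inv_rev, hi, pow_succ, pow_zero, one_mul, mul_assoc] using x1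
    · simpa only [map_mul, map_pow, FreeGroup.lift_apply_of, mul_assoc] using p0
    · simpa only [map_mul, map_pow, FreeGroup.lift_apply_of, mul_assoc] using p1
    · simpa only [map_mul, map_inv, map_pow, FreeGroup.lift_apply_of, mul_inv_rev, hi, pow_succ, pow_zero, one_mul, mul_assoc] using p2

theorem suz_list_of_sat {K : Type*} [Group K] (f : Suz.Gen → K)
    (h : CoxSat Suz.edges Suz.extra f) :
    (∀ r ∈ suz_rws, uw f (r.1 ++ r.2.reverse) = 1) ∧
      (∀ r ∈ suz_prels, uw f r.1 ^ r.2.1 = 1) := by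
  have hi : ∀ x, (f x)⁻¹ = f x := fun x => inv_of_sq (coxSat_inv _ _ f h x)
  obtain ⟨hc, hx⟩ := h
  delta Suz.extra at hx
  simp only [List.forall_mem_cons, List.not_mem_nil, false_imp_iff, implies_true, and_true, map_mul, map_inv, map_pow, FreeGroup.lift_apply_of] at hx
  obtain ⟨e0, e1, e2, e3, e4⟩ := hx
  constructor
  · rw [suz_rws_eq]
    intro r hr
    rw [List.mem_append] at hr
    rcases hr with hr | hr
    · exact splits_of_cox f suz_gens _ hc r hr
    · revert r
      simp only [suz_xs, List.forall_mem_cons, List.not_mem_nil, false_imp_iff, implies_true, and_true, uw_eq, List.reverse_cons, List.reverse_nil, List.nil_append, List.cons_append, List.append_nil, List.map, List.prod_cons, List.prod_nil, mul_one, mul_assoc]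
      refine ⟨?_, ?_⟩
      · simpa only [map_mul, map_inv, map_pow, FreeGroup.lift_apply_of, mul_inv_rev, hi, pow_succ, pow_zero, one_mul, mul_assoc] using e0
      · simpa only [map_mul, map_inv, map_pow, FreeGroup.lift_apply_of, mul_inv_rev, hi, pow_succ, pow_zero, one_mul, mul_assoc] using e1
  · simp only [suz_prels, List.forall_mem_cons, List.not_mem_nil, false_imp_iff, implies_true, and_true, uw_eq, List.map, List.prod_cons, List.prod_nil, mul_one]
    refine ⟨?_, ?_, ?_⟩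
    · simpa only [map_mul, map_pow, FreeGroup.lift_apply_of, mul_assoc] using e2
    · simpa only [map_mul, map_pow, FreeGroup.lift_apply_of, mul_assoc] using e3
    · simpa only [map_mul, map_inv, map_pow, FreeGroup.lift_apply_of, mul_inv_rev, hi, pow_succ, pow_zero, one_mul, mul_assoc] using e4

theorem suz_sat : CoxSat Suz.edges Suz.extra suz_gen := cox_relG _ _ suz_nodes_all

theorem suz_inv (x : Suz.Gen) : suz_gen x * suz_gen x = 1 := coxSat_inv _ _ _ suz_sat x

theorem suz_full_one : ∀ w ∈ fullW suz_rws suz_prels, uw suz_gen w = 1 :=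
  fullW_one _ _ _ (suz_list_of_sat _ suz_sat).1 (suz_list_of_sat _ suz_sat).2

theorem suz_UP {K : Type*} [Group K] (f : Suz.Gen → K) (hf : ∀ x, f x * f x = 1)
    (h1 : ∀ r ∈ suz_rws, uw f (r.1 ++ r.2.reverse) = 1)
    (h2 : ∀ r ∈ suz_prels, uw f r.1 ^ r.2.1 = 1) :
    ∃ φ : Suz →* K, ∀ x, φ (suz_gen x) = f x :=
  cox_UP _ _ f (suz_sat_of_list f hf h1 h2)

theorem suz_closure : Subgroup.closure (Set.range suz_gen) = ⊤ :=
  PresentedGroup.closure_range_of _

end Cfsg.Agent.H35
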