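import Mathlib
import Cfsg.Agent.H52.SpDefs
import Cfsg.Agent.H59.SoConj

/-!
# SP-PART2 (S2944 team project, helper52/helper66): the second assertion of S2944

helper35.  `J(T^g) ≤ N = N_G(W_K)` lies in a Sylow 2-subgroup `S₀^m` of `N` (`m ∈ N`, `J(T) ≤ S₀`,
`J(S₀) = J(T)`); a conjugate of `J(S₀)` inside `S₀` is `J(S₀)`, so `J(T^g) = J(T)^m`; as
`m ∈ N ≤ N_G(K)`, `K = K^m` is a `J(T^m)`-component, and `J(T^m) = J(T^g)`.
-/

set_option autoImplicit false

universe u

namespace Cfsg.Agent.H35.Sp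

open Cfsg Cfsg.Agent.H52.Sn Cfsg.Agent.H59.So
open scoped commutatorElement

section
variable {G : Type u} [Group G]

/-- `[K, J]` is normalized by `J` -/
theorem comm_map_conj_le (K J : Subgroup G) (a : G) (ha : a ∈ J) :
    (⁅K, J⁆).map (MulAut.conj a).toMonoidHom ≤ ⁅K, J⁆ := by
  rw [Subgroup.commutator_def, MonoidHom.map_closure, Subgroup.closure_le]
  rintro _ ⟨_, ⟨k, hk, b, hb, rfl⟩, rfl⟩
  have h1 : (MulAut.conj a).toMonoidHom ⁅k, b⁆ = ⁅k, a⁆⁻¹ * ⁅k, a * b⁆ := by
    simp only [MulEquiv.toMonoidHom_eq_coe, MonoidHom.coe_coe, MulAut.conj_apply,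
      commutatorElement_def]
    group
  rw [h1, ← Subgroup.commutator_def]
  exact Subgroup.mul_mem _ (Subgroup.inv_mem _ (Subgroup.commutator_mem_commutator hk ha))
    (Subgroup.commutator_mem_commutator hk (J.mul_mem ha hb))

theorem le_normalizer_of_comm_eq [Finite G] (K J : Subgroup G) (h : ⁅K, J⁆ = K) :
    J ≤ Subgroup.normalizer (K : Set G) := by
  intro a ha
  rw [Subgroup.mem_normalizer_iff_map_conj_eq]
  have h1 := comm_map_conj_le K J a ha
  rw [h] at h1
  exact Subgroup.eq_of_le_of_card_ge h1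
    (by rw [Subgroup.card_map_of_injective (MulAut.conj a).injective])

/-- a Sylow 2-subgroup in helper51's sense is one in the sense of the Prelude -/
theorem isSylowTwoIn_of_isSylowIn [Finite G] {S N : Subgroup G}
    (h : Cfsg.Agent.H51.IsSylowIn 2 S N) : IsSylowTwoIn S N := by
  have : Fact (Nat.Prime 2) := ⟨Nat.prime_two⟩
  refine ⟨h.le, h.isPGroup, ?_⟩
  obtain ⟨P, rfl⟩ := h
  have h1 : ((P : Subgroup ↥N).map N.subtype).relIndex N = (P : Subgroup ↥N).index := by
    unfold Subgroup.relIndex Subgroup.subgroupOf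
    rw [Subgroup.comap_map_eq_self_of_injective N.subtype_injective]
  rw [h1]
  have h2 := P.not_dvd_index
  exact Nat.odd_iff.mpr (by omega)

/-- a conjugate of `J(S)` inside `S` is `J(S)` -/
theorem thompson_conj_le [Finite G] (S : Subgroup G) (h : G)
    (hle : (thompsonSubgroupOf 2 S).map (MulAut.conj h).toMonoidHom ≤ S) :
    (thompsonSubgroupOf 2 S).map (MulAut.conj h).toMonoidHom = thompsonSubgroupOf 2 S := by
  have hinj : Function.Injective ((MulAut.conj h).toMonoidHom : G →* G) :=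
    (MulAut.conj h).injective
  have hsub : (thompsonSubgroupOf 2 S).map (MulAut.conj h).toMonoidHom ≤
      thompsonSubgroupOf 2 S := by
    unfold thompsonSubgroupOf thompsonSubgroup
    rw [Subgroup.map_le_iff_le_comap, Subgroup.map_le_iff_le_comap]
    apply sSup_le
    intro A' hA'
    rw [← Subgroup.map_le_iff_le_comap, ← Subgroup.map_le_iff_le_comap]
    have hAJ : A'.map S.subtype ≤ thompsonSubgroupOf 2 S := Subgroup.map_mono (le_sSup hA')
    have hAS : (A'.map S.subtype).map (MulAut.conj h).toMonoidHom ≤ S :=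
      (Subgroup.map_mono hAJ).trans hle
    have hB : ((A'.map S.subtype).map (MulAut.conj h).toMonoidHom).subgroupOf S ∈
        maxElementaryAbelianSubgroups 2 ↥S := by
      refine ⟨Cfsg.Agent.H14.elemAb_comap'
        (Cfsg.Agent.H14.elemAb_map' (Cfsg.Agent.H14.elemAb_map' hA'.1 _) _) S.subtype
        S.subtype_injective, ?_⟩
      intro B hB
      rw [Nat.card_congr (Subgroup.subgroupOfEquivOfLe hAS).toEquiv,
        Subgroup.card_map_of_injective hinj, Subgroup.card_subtype]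
      exact hA'.2 B hB
    have h3 := Subgroup.map_mono (f := S.subtype) (le_sSup hB)
    rw [Subgroup.map_subgroupOf_eq_of_le hAS] at h3
    exact h3
  exact Subgroup.eq_of_le_of_card_ge hsub (by rw [Subgroup.card_map_of_injective hinj])

/-- conjugates of `J(T)`-components are `J(T^m)`-components -/
theorem isJComponent_map_conj (T K : Subgroup G) (m : G) (hK : IsJComponent T K) :
    IsJComponent (T.map (MulAut.conj m).toMonoidHom) (K.map (MulAut.conj m).toMonoidHom) := by
  obtain ⟨h1, h2, h3, h4, h5, h6⟩ := hK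
  have hinj : Function.Injective ((MulAut.conj m).toMonoidHom : G →* G) :=
    (MulAut.conj m).injective
  have hJ : (thompsonSubgroupOf 2 T).map (MulAut.conj m).toMonoidHom =
      thompsonSubgroupOf 2 (T.map (MulAut.conj m).toMonoidHom) :=
    Cfsg.Agent.H14.thompsonSubgroupOf_conj 2 m T
  have hW := wOf_map_conj m K
  refine ⟨?_, ?_, ?_, ?_, ?_, ?_⟩
  · have hs : ((MulAut.conj m).toMonoidHom '' {g : G | g ∈ K ∧ Odd (orderOf g)}) =
        {g : G | g ∈ K.map (MulAut.conj m).toMonoidHom ∧ Odd (orderOf g)} := by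
      ext x
      constructor
      · rintro ⟨y, ⟨hy, hyo⟩, rfl⟩
        refine ⟨⟨y, hy, rfl⟩, ?_⟩
        rw [orderOf_injective _ hinj y]; exact hyo
      · rintro ⟨⟨y, hy, rfl⟩, hxo⟩
        refine ⟨y, ⟨hy, ?_⟩, rfl⟩
        rw [← orderOf_injective _ hinj y]; exact hxo
    rw [← hs, ← MonoidHom.map_closure, h1]
  · have h := Subgroup.map_commutator K (thompsonSubgroupOf 2 T) (MulAut.conj m).toMonoidHom
    rw [hJ, h2] at h
    exact h.symm
  · rw [Cfsg.Agent.H51.pCoreOf_map 2 K (MulAut.conj m)]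
    rw [Subgroup.relIndex_map_map_of_injective _ _ hinj]
    exact h3
  · intro S hS hJS
    obtain ⟨hS1, hS2, hS3⟩ := hS
    have hsup : K.map (MulAut.conj m).toMonoidHom ⊔
        thompsonSubgroupOf 2 (T.map (MulAut.conj m).toMonoidHom) =
        (K ⊔ thompsonSubgroupOf 2 T).map (MulAut.conj m).toMonoidHom := by
      rw [Subgroup.map_sup, hJ]
    have hS' : IsSylowTwoIn (S.map (MulAut.conj m⁻¹).toMonoidHom)
        (K ⊔ thompsonSubgroupOf 2 T) := by
      refine ⟨?_, hS2.map _, ?_⟩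
      · have h7 := Subgroup.map_mono (f := (MulAut.conj m⁻¹).toMonoidHom) hS1
        rw [hsup, map_conj_conj_inv] at h7
        exact h7
      · rw [← Subgroup.relIndex_map_map_of_injective _ _ hinj, map_conj_inv_conj, ← hsup]
        exact hS3
    have hJS' : thompsonSubgroupOf 2 T ≤ S.map (MulAut.conj m⁻¹).toMonoidHom := by
      have h7 := Subgroup.map_mono (f := (MulAut.conj m⁻¹).toMonoidHom) hJS
      rw [← hJ, map_conj_conj_inv] at h7
      exact h7
    have h := h4 _ hS' hJS'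
    have h' := Cfsg.Agent.H14.thompsonSubgroupOf_conj 2 m (S.map (MulAut.conj m⁻¹).toMonoidHom)
    rw [map_conj_inv_conj, h, hJ] at h'
    exact h'.symm
  · rw [hW, Subgroup.card_map_of_injective hinj]
    exact h5
  · rw [hW]
    rintro _ ⟨w, hw, rfl⟩
    rw [← map_mul, h6 w hw, map_one]

theorem map_conj_mul (a b : G) (H : Subgroup G) :
    (H.map (MulAut.conj b).toMonoidHom).map (MulAut.conj a).toMonoidHom =
      H.map (MulAut.conj (a * b)).toMonoidHom := by
  rw [Subgroup.map_map]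
  congr 1
  ext x
  simp [mul_assoc]

end

theorem part2 : StPart2.{u} := by
  intro G _ _ T hT K hK hNK g hg
  obtain ⟨hJC, hZero⟩ := hK
  have : Fact (Nat.Prime 2) := ⟨Nat.prime_two⟩
  -- `J = J(T)` is a 2-subgroup of `N`
  have hJN : thompsonSubgroupOf 2 T ≤ Subgroup.normalizer (wOf K : Set G) := by
    intro a ha
    have h1 : K.map (MulAut.conj a).toMonoidHom = K :=
      Subgroup.mem_normalizer_iff_map_conj_eq.mp (le_normalizer_of_comm_eq K _ hJC.2.1 ha)
    have h2 := wOf_map_conj a K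
    rw [h1] at h2
    exact Subgroup.mem_normalizer_iff_map_conj_eq.mpr h2.symm
  have hJ2 : IsPGroup 2 ↥(thompsonSubgroupOf 2 T) :=
    hT.to_le (Cfsg.Agent.H14.thompsonSubgroupOf_le 2 T)
  obtain ⟨S₀, hS₀, hJS₀⟩ := Cfsg.Agent.H51.exists_isSylowIn_ge hJN hJ2
  have hJS : thompsonSubgroupOf 2 S₀ = thompsonSubgroupOf 2 T :=
    hZero S₀ hJS₀ (isSylowTwoIn_of_isSylowIn hS₀)
  -- `J(T^g) = J^g`
  have hJ' : (thompsonSubgroupOf 2 T).map (MulAut.conj g).toMonoidHom =
      thompsonSubgroupOf 2 (T.map (MulAut.conj g).toMonoidHom) :=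
    Cfsg.Agent.H14.thompsonSubgroupOf_conj 2 g T
  have hJ'2 : IsPGroup 2 ↥((thompsonSubgroupOf 2 T).map (MulAut.conj g).toMonoidHom) :=
    hJ2.map _
  have hJ'N : (thompsonSubgroupOf 2 T).map (MulAut.conj g).toMonoidHom ≤
      Subgroup.normalizer (wOf K : Set G) := hJ' ▸ hg
  obtain ⟨S₁, hS₁, hJS₁⟩ := Cfsg.Agent.H51.exists_isSylowIn_ge hJ'N hJ'2
  obtain ⟨m, hmN, hS₁m⟩ := hS₀.conj hS₁
  -- `J^(m⁻¹ g) ≤ S₀`
  have h1 : (thompsonSubgroupOf 2 T).map (MulAut.conj (m⁻¹ * g)).toMonoidHom ≤ S₀ := by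
    have h0 := Subgroup.map_mono (f := (MulAut.conj m⁻¹).toMonoidHom) hJS₁
    rw [hS₁m, map_conj_conj_inv, map_conj_mul] at h0
    exact h0
  have h3 : (thompsonSubgroupOf 2 T).map (MulAut.conj (m⁻¹ * g)).toMonoidHom =
      thompsonSubgroupOf 2 T := by
    have h0 := thompson_conj_le S₀ (m⁻¹ * g) (by rw [hJS]; exact h1)
    rwa [hJS] at h0
  -- `J^g = J^m`
  have h4 : (thompsonSubgroupOf 2 T).map (MulAut.conj g).toMonoidHom =
      (thompsonSubgroupOf 2 T).map (MulAut.conj m).toMonoidHom := by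
    have h0 := congrArg (Subgroup.map (MulAut.conj m).toMonoidHom) h3
    rw [map_conj_mul, mul_inv_cancel_left] at h0
    exact h0
  -- `m` normalizes `K`
  have hmK : K.map (MulAut.conj m).toMonoidHom = K :=
    Subgroup.mem_normalizer_iff_map_conj_eq.mp (hNK hmN)
  have h5 := isJComponent_map_conj T K m hJC
  rw [hmK] at h5
  have h6 : thompsonSubgroupOf 2 (T.map (MulAut.conj m).toMonoidHom) =
      thompsonSubgroupOf 2 (T.map (MulAut.conj g).toMonoidHom) := by
    rw [← Cfsg.Agent.H14.thompsonSubgroupOf_conj 2 m T, ← hJ', h4]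
  unfold IsJComponent at h5 ⊢
  rw [h6] at h5
  exact h5

end Cfsg.Agent.H35.Sp

namespace Cfsg.Agent.H35.SpPart2Check

example : Cfsg.Agent.H52.Sn.StPart2.{u} := Cfsg.Agent.H35.Sp.part2

end Cfsg.Agent.H35.SpPart2Check
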