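import Mathlib
import Cfsg.Agent.H52.SrDefs

/-!
# SR-CW (mini-project SR of JZ / S2951 + S2952, helper52): different components centralize each
other's commutator on `V`

helper35.  An odd-order `y ∈ K₂` normalizes `K₁ C`, hence `[V, K₁] = [V, K₁ C]`; if it moved some
`a ∈ [V, K₁]`, then `1 ≠ [a, y] ∈ [V, K₁] ∩ [V, K₂]` and `K₁ = K₂` by ABS.
-/

set_option autoImplicit false
open Cfsg
open scoped commutatorElement

universe u

namespace Cfsg.Agent.H35.Sr

open Cfsg.Agent.H52.Sr Cfsg.Agent.H52.Sn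

theorem comm_mul_cent {X : Type u} [Group X] (v k c : X) (h : c * v⁻¹ = v⁻¹ * c) :
    ⁅v, k * c⁆ = ⁅v, k⁆ := by
  simp only [commutatorElement_def, mul_inv_rev]
  calc v * (k * c) * v⁻¹ * (c⁻¹ * k⁻¹) = v * k * (c * v⁻¹) * c⁻¹ * k⁻¹ := by
        simp only [mul_assoc]
    _ = v * k * (v⁻¹ * c) * c⁻¹ * k⁻¹ := by rw [h]
    _ = v * k * v⁻¹ * k⁻¹ := by simp only [mul_assoc, mul_inv_cancel_left]

theorem conj_comm_elt {X : Type u} [Group X] (y v k : X) :
    y * ⁅v, k⁆ * y⁻¹ = ⁅y * v * y⁻¹, y * k * y⁻¹⁆ := by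
  simp only [commutatorElement_def]
  group

theorem cw (hAbs : Cfsg.Agent.H52.Sn.StAbs.{u}) : StCW.{u} := by
  intro X _ _ V T Q M J K₁ O₁ K₂ O₂ hVn hV hF1 hF2 h1 h2 hne
  have hK1M : K₁ ≤ M := by
    haveI := hF1.hM
    calc K₁ = ⁅K₁, J⁆ := hF1.hKJ.symm
      _ ≤ ⁅K₁, M⁆ := Subgroup.commutator_mono le_rfl hF1.hJM
      _ ≤ M := Subgroup.commutator_le_right K₁ M
  have hK2M : K₂ ≤ M := by
    haveI := hF2.hM
    calc K₂ = ⁅K₂, J⁆ := hF2.hKJ.symm
      _ ≤ ⁅K₂, M⁆ := Subgroup.commutator_mono le_rfl hF2.hJM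
      _ ≤ M := Subgroup.commutator_le_right K₂ M
  haveI hCn : (Subgroup.centralizer (V : Set X)).Normal := hF1.hC
  have key : ∀ y ∈ K₂, Odd (orderOf y) → ∀ a ∈ ⁅V, K₁⁆, y * a = a * y := by
    intro y hyK2 hyodd a ha
    have hyM := hK2M hyK2
    have hyK : ∀ k ∈ K₁, y * k * y⁻¹ ∈ K₁ ⊔ Subgroup.centralizer (V : Set X) := by
      intro k hk
      have hk' : k ∈ Subgroup.closure {g : X | g ∈ K₁ ∧ Odd (orderOf g)} := by
        rw [hF1.hKgen]; exact hk
      clear hk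
      induction hk' using Subgroup.closure_induction with
      | mem x hx =>
        obtain ⟨hxK, hxodd⟩ := hx
        have hxM : x ∈ M := hK1M hxK
        have hc1 : y * x * y⁻¹ * x⁻¹ ∈ Subgroup.centralizer (V : Set X) :=
          hF1.hcomm y hyM x hxM hyodd hxodd
        have e : y * x * y⁻¹ = (y * x * y⁻¹ * x⁻¹) * x := by group
        rw [e]
        exact Subgroup.mul_mem _ (Subgroup.mem_sup_right hc1) (Subgroup.mem_sup_left hxK)
      | one =>
        have e : y * 1 * y⁻¹ = 1 := by group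
        rw [e]; exact Subgroup.one_mem _
      | mul p q _ _ hp hq =>
        have e : y * (p * q) * y⁻¹ = (y * p * y⁻¹) * (y * q * y⁻¹) := by group
        rw [e]; exact Subgroup.mul_mem _ hp hq
      | inv p _ hp =>
        have e : y * p⁻¹ * y⁻¹ = (y * p * y⁻¹)⁻¹ := by group
        rw [e]; exact Subgroup.inv_mem _ hp
    have hnorm : ∀ w ∈ ⁅V, K₁⁆, y * w * y⁻¹ ∈ ⁅V, K₁⁆ := by
      intro w hw
      rw [Subgroup.commutator_def] at hw
      induction hw using Subgroup.closure_induction with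
      | mem g hg =>
        obtain ⟨v, hv, k, hk, rfl⟩ := hg
        obtain ⟨k', hk', c, hc, hkc⟩ := Subgroup.mem_sup_of_normal_right.mp (hyK k hk)
        have hv' : y * v * y⁻¹ ∈ V := hVn.conj_mem v hv y
        have hcv : c * (y * v * y⁻¹)⁻¹ = (y * v * y⁻¹)⁻¹ * c :=
          ((Subgroup.mem_centralizer_iff.mp hc) (y * v * y⁻¹)⁻¹ (V.inv_mem hv')).symm
        rw [conj_comm_elt, ← hkc, comm_mul_cent _ _ _ hcv]
        exact Subgroup.commutator_mem_commutator hv' hk'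
      | one =>
        have e : y * 1 * y⁻¹ = 1 := by group
        rw [e]; exact Subgroup.one_mem _
      | mul p q _ _ hp hq =>
        have e : y * (p * q) * y⁻¹ = (y * p * y⁻¹) * (y * q * y⁻¹) := by group
        rw [e]; exact Subgroup.mul_mem _ hp hq
      | inv p _ hp =>
        have e : y * p⁻¹ * y⁻¹ = (y * p * y⁻¹)⁻¹ := by group
        rw [e]; exact Subgroup.inv_mem _ hp
    by_contra hcon
    apply hne
    apply hAbs V T Q M J K₁ O₁ K₂ O₂ hV hF1 hF2 h1 h2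
    intro hbot
    have haV : a ∈ V := (Subgroup.commutator_le_left V K₁) ha
    have hc1 : ⁅a, y⁆ ∈ ⁅V, K₁⁆ := by
      have e : ⁅a, y⁆ = a * (y * a * y⁻¹)⁻¹ := by
        simp only [commutatorElement_def]; group
      rw [e]
      exact Subgroup.mul_mem _ ha (Subgroup.inv_mem _ (hnorm a ha))
    have hc2 : ⁅a, y⁆ ∈ ⁅V, K₂⁆ := Subgroup.commutator_mem_commutator haV hyK2
    have hc : ⁅a, y⁆ ∈ ⁅V, K₁⁆ ⊓ ⁅V, K₂⁆ := Subgroup.mem_inf.mpr ⟨hc1, hc2⟩
    rw [hbot, Subgroup.mem_bot] at hc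
    apply hcon
    exact (commutatorElement_eq_one_iff_commute.mp hc).eq.symm
  intro a ha
  rw [Subgroup.mem_centralizer_iff]
  intro k hk
  have hk' : k ∈ Subgroup.closure {g : X | g ∈ K₂ ∧ Odd (orderOf g)} := by
    rw [hF2.hKgen]; exact hk
  clear hk
  induction hk' using Subgroup.closure_induction with
  | mem y hy => exact key y hy.1 hy.2 a ha
  | one => rw [one_mul, mul_one]
  | mul p q _ _ hp hq => rw [mul_assoc, hq, ← mul_assoc, hp, mul_assoc]
  | inv p _ hp =>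
    calc p⁻¹ * a = p⁻¹ * (a * p) * p⁻¹ := by group
      _ = p⁻¹ * (p * a) * p⁻¹ := by rw [hp]
      _ = a * p⁻¹ := by group

end Cfsg.Agent.H35.Sr

namespace Cfsg.Agent.H35.SrCWCheck

open Cfsg.Agent.H52.Sr

example (hAbs : Cfsg.Agent.H52.Sn.StAbs.{u}) : StCW.{u} := Cfsg.Agent.H35.Sr.cw hAbs

end Cfsg.Agent.H35.SrCWCheck
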