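import Mathlib
import Cfsg.Agent.H52.SrDefs

/-!
# SR-SUP (mini-project SR of JZ / S2951 + S2952, helper52): simultaneous decomposition

helper35.  Finset induction: split off one subgroup at a time.
-/

set_option autoImplicit false
open Cfsg

universe u

namespace Cfsg.Agent.H35.Sr

open Cfsg.Agent.H52.Sr

theorem sup : StSup.{u} := by
  intro X _ V W s
  classical
  induction s using Finset.induction_on with
  | empty =>
    intro _ _ v hv
    refine ⟨v, hv, 1, Subgroup.one_mem _, (mul_one v).symm, ?_⟩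
    intro K hK
    exact absurd hK (Finset.notMem_empty K)
  | insert K₀ s' hK₀ ih =>
    intro hdec hcomm v hv
    obtain ⟨c, hcV, u, hu, hvcu, hcC⟩ := ih
      (fun K hK => hdec K (Finset.mem_insert_of_mem hK))
      (fun K₁ hK₁ K₂ hK₂ hne =>
        hcomm K₁ (Finset.mem_insert_of_mem hK₁) K₂ (Finset.mem_insert_of_mem hK₂) hne) v hv
    obtain ⟨c', hc'V, w, hw, hccw, hc'C⟩ := hdec K₀ (Finset.mem_insert_self K₀ s') c hcV
    refine ⟨c', hc'V, w * u, ?_, ?_, ?_⟩
    · apply Subgroup.mul_mem
      · exact (le_iSup₂ (f := fun K (_ : K ∈ insert K₀ s') => W K) K₀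
          (Finset.mem_insert_self K₀ s')) hw
      · have hle : (⨆ K ∈ s', W K) ≤ ⨆ K ∈ insert K₀ s', W K := by
          apply iSup₂_le
          intro K hK
          exact le_iSup₂ (f := fun K (_ : K ∈ insert K₀ s') => W K) K
            (Finset.mem_insert_of_mem hK)
        exact hle hu
    · rw [hvcu, hccw, mul_assoc]
    · intro K hK
      rcases Finset.mem_insert.mp hK with hKeq | hK'
      · rw [hKeq]; exact hc'C
      · have hne : K₀ ≠ K := fun h => hK₀ (h ▸ hK')
        have hwC : w ∈ Subgroup.centralizer (K : Set X) :=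
          hcomm K₀ (Finset.mem_insert_self K₀ s') K hK hne hw
        have hc' : c' = c * w⁻¹ := by rw [hccw]; group
        rw [hc']
        exact Subgroup.mul_mem _ (hcC K hK') (Subgroup.inv_mem _ hwC)

end Cfsg.Agent.H35.Sr

namespace Cfsg.Agent.H35.SrSUPCheck

open Cfsg.Agent.H52.Sr

example : StSup.{u} := Cfsg.Agent.H35.Sr.sup

end Cfsg.Agent.H35.SrSUPCheck
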