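import Mathlib
import Cfsg.Agent.H60.QuatSylow

set_option autoImplicit false
set_option linter.style.haveILetI false

/-!
# Piece P-E2 of S3361 (helper35, for helper13)

A finite solvable group `X` with `O(X) = 1` whose `O_2(X)` is generalized quaternion of order
at least `16` is a `2`-group.
-/

namespace Cfsg.Agent.H35.Reg

open Cfsg QuaternionGroup

theorem isPGroup_two_of_quat_pCore {X : Type*} [Group X] [Finite X] (hs : Group.IsSolvable X)
    (hO : Cfsg.pPrimeCore 2 X = ⊥) (n : ℕ) (hn : 2 ≤ n)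
    (hQ : Nonempty (Cfsg.pCore 2 X ≃* QuaternionGroup (2 ^ n))) : IsPGroup 2 X := by
  haveI : Fact (Nat.Prime 2) := ⟨Nat.prime_two⟩
  obtain ⟨e⟩ := hQ
  have hm4 : 4 ≤ 2 ^ n := by
    calc 4 = 2 ^ 2 := by norm_num
      _ ≤ 2 ^ n := Nat.pow_le_pow_right (by norm_num) hn
  haveI : NeZero (2 * 2 ^ n) := ⟨by positivity⟩
  obtain ⟨ψ, hψdef⟩ : ∃ ψ : QuaternionGroup (2 ^ n) →* X,
      ψ = (pCore 2 X).subtype.comp e.symm.toMonoidHom := ⟨_, rfl⟩
  have hψval : ∀ q, ψ q = ((e.symm q : pCore 2 X) : X) := by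
    intro q
    rw [hψdef]
    rfl
  have hψinj : Function.Injective ψ := by
    intro u v huv
    rw [hψval, hψval] at huv
    exact e.symm.injective (Subtype.ext huv)
  have hψQ : ∀ q, ψ q ∈ pCore 2 X := by
    intro q
    rw [hψval]
    exact (e.symm q).2
  have hψsurj : ∀ x ∈ pCore 2 X, ∃ q, ψ q = x := by
    intro x hx
    refine ⟨e ⟨x, hx⟩, ?_⟩
    rw [hψval, e.symm_apply_apply]
  have hQn : (pCore 2 X).Normal := inferInstance
  have hQ2 : IsPGroup 2 (pCore 2 X) := Cfsg.Agent.H60.isPGroup_pCore 2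
  have hpow : ∀ q : QuaternionGroup (2 ^ n), q ^ (4 * 2 ^ n) = 1 := by
    intro q
    have h := pow_card_eq_one' (G := QuaternionGroup (2 ^ n)) (x := q)
    rwa [Nat.card_eq_fintype_card, QuaternionGroup.card] at h
  have hAle : (Subgroup.zpowers (a 1 : QuaternionGroup (2 ^ n))).map ψ ≤ pCore 2 X := by
    rintro _ ⟨q, -, rfl⟩
    exact hψQ q
  have hAc : IsCyclic ((Subgroup.zpowers (a 1 : QuaternionGroup (2 ^ n))).map ψ) :=
    Cfsg.Agent.H60.isCyclic_map ψ inferInstance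
  have hA2 : IsPGroup 2 ((Subgroup.zpowers (a 1 : QuaternionGroup (2 ^ n))).map ψ) :=
    hQ2.to_le hAle
  have ha1 : ∀ g : X, g * ψ (a 1) * g⁻¹ ∈
      (Subgroup.zpowers (a 1 : QuaternionGroup (2 ^ n))).map ψ := by
    intro g
    obtain ⟨q, hq⟩ := hψsurj _ (hQn.conj_mem _ (hψQ (a 1)) g)
    rcases q with j | j
    · rw [← hq]
      exact Subgroup.mem_map_of_mem _ (Cfsg.Agent.H60.quat_a_mem_zpowers j)
    · exfalso
      have h1 : (g * ψ (a 1) * g⁻¹) ^ 4 = 1 := by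
        rw [← hq, ← map_pow, xa_pow_four, map_one]
      rw [conj_pow, ← map_pow] at h1
      have h2 : ψ ((a 1 : QuaternionGroup (2 ^ n)) ^ 4) = 1 := by
        have h := congrArg (fun t => g⁻¹ * t * g) h1
        simpa [mul_assoc] using h
      have h3 : (a 1 : QuaternionGroup (2 ^ n)) ^ 4 = 1 := hψinj (by rw [h2, map_one])
      rw [a_one_pow, one_def] at h3
      have h4 : ((4 : ℕ) : ZMod (2 * 2 ^ n)) = 0 := by
        injection h3
      have h5 := (ZMod.natCast_eq_zero_iff 4 (2 * 2 ^ n)).mp h4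
      have h6 := Nat.le_of_dvd (by norm_num) h5
      omega
  have hAn : ((Subgroup.zpowers (a 1 : QuaternionGroup (2 ^ n))).map ψ).Normal := by
    constructor
    intro y hy g
    obtain ⟨q, hq, rfl⟩ := hy
    obtain ⟨k, rfl⟩ := Subgroup.mem_zpowers_iff.1 hq
    rw [map_zpow, ← conj_zpow]
    exact Subgroup.zpow_mem _ (ha1 g) k
  intro g
  obtain ⟨k, hk⟩ := Cfsg.Agent.H60.exists_pow_mem_centralizer_of_cyclic_two
    ((Subgroup.zpowers (a 1 : QuaternionGroup (2 ^ n))).map ψ) hAc hA2 g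
  obtain ⟨y, hy⟩ : ∃ y : X, y = g ^ (2 ^ k) := ⟨_, rfl⟩
  rw [← hy] at hk
  have hyA : ∀ j : ZMod (2 * 2 ^ n), ψ (a j) * y = y * ψ (a j) := fun j =>
    (Subgroup.mem_centralizer_iff.1 hk) _
      (Subgroup.mem_map_of_mem _ (Cfsg.Agent.H60.quat_a_mem_zpowers j))
  obtain ⟨q, hq⟩ := hψsurj _ (hQn.conj_mem _ (hψQ (xa 0)) y)
  have hz : ∃ j : ZMod (2 * 2 ^ n), y * ψ (xa 0) = ψ (xa 0) * ψ (a j) * y := by
    rcases q with j | j
    · exfalso
      have h2 : y * ψ (xa 0) = ψ (a j) * y := by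
        rw [hq]
        group
      have h3 : y * ψ (xa 0) = y * ψ (a j) := by rw [h2, hyA j]
      have h1 : ψ (xa 0) = ψ (a j) := mul_left_cancel h3
      have h4 := hψinj h1
      cases h4
    · refine ⟨j, ?_⟩
      have h1 : ψ (xa j) = ψ (xa 0) * ψ (a j) := by
        rw [← map_mul, xa_mul_a, zero_add]
      rw [← h1, hq]
      group
  obtain ⟨j, hj⟩ := hz
  have hc : ∀ t : ℕ, y * ψ (a j) ^ t = ψ (a j) ^ t * y := fun t =>
    ((show Commute y (ψ (a j)) from (hyA j).symm).pow_right t).eq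
  have hind : ∀ i : ℕ, y ^ i * ψ (xa 0) = ψ (xa 0) * ψ (a j) ^ i * y ^ i := by
    intro i
    induction i with
    | zero => simp
    | succ i ih =>
      calc y ^ (i + 1) * ψ (xa 0) = y * (y ^ i * ψ (xa 0)) := by rw [pow_succ', mul_assoc]
        _ = (y * ψ (xa 0)) * ψ (a j) ^ i * y ^ i := by rw [ih]; simp only [mul_assoc]
        _ = ψ (xa 0) * ψ (a j) * (y * ψ (a j) ^ i) * y ^ i := by rw [hj]; simp only [mul_assoc]
        _ = ψ (xa 0) * ψ (a j) ^ (i + 1) * y ^ (i + 1) := by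
          rw [hc i, pow_succ', pow_succ']
          simp only [mul_assoc]
  have hzw : y ^ (4 * 2 ^ n) * ψ (xa 0) = ψ (xa 0) * y ^ (4 * 2 ^ n) := by
    rw [hind, ← map_pow, hpow, map_one, mul_one]
  have hya : ∀ i : ZMod (2 * 2 ^ n),
      ψ (a i) * y ^ (4 * 2 ^ n) = y ^ (4 * 2 ^ n) * ψ (a i) := fun i =>
    ((show Commute (ψ (a i)) y from hyA i).pow_right _).eq
  have hzQ : y ^ (4 * 2 ^ n) ∈ Subgroup.centralizer (pCore 2 X : Set X) := by
    rw [Subgroup.mem_centralizer_iff]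
    intro x hx
    obtain ⟨q, rfl⟩ := hψsurj x hx
    rcases q with i | i
    · exact hya i
    · have h1 : ψ (xa i) = ψ (xa 0) * ψ (a i) := by
        rw [← map_mul, xa_mul_a, zero_add]
      rw [h1, mul_assoc, hya i, ← mul_assoc, ← hzw, mul_assoc]
  have hzQ' := Cfsg.Agent.H60.centralizer_pCore_le hs hO hzQ
  obtain ⟨l, hl⟩ := hQ2 ⟨_, hzQ'⟩
  have hl' : (y ^ (4 * 2 ^ n)) ^ (2 ^ l) = 1 := by
    have h := congrArg Subtype.val hl
    simpa using h
  refine ⟨k + (n + 2) + l, ?_⟩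
  have hexp : (2 : ℕ) ^ (k + (n + 2) + l) = 2 ^ k * (4 * 2 ^ n) * 2 ^ l := by ring
  rw [hexp, pow_mul, pow_mul, ← hy]
  exact hl'

end Cfsg.Agent.H35.Reg

namespace Cfsg.Agent.H35.RegCheck

open Cfsg

example {X : Type*} [Group X] [Finite X] (hs : Group.IsSolvable X)
    (hO : Cfsg.pPrimeCore 2 X = ⊥) (n : ℕ) (hn : 2 ≤ n)
    (hQ : Nonempty (Cfsg.pCore 2 X ≃* QuaternionGroup (2 ^ n))) : IsPGroup 2 X :=
  Cfsg.Agent.H35.Reg.isPGroup_two_of_quat_pCore hs hO n hn hQ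

end Cfsg.Agent.H35.RegCheck
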