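import Mathlib
import Cfsg.Agent.Lib.Helper30.BG134Defs
import Cfsg.Agent.H1.Coprime

set_option autoImplicit false

/-!
# Piece DET of BG134 = S1428 (helper35, for helper30)

`A` elementary abelian of order `p²`, `P ≤ A` of order `p`; a `q`-group `Q1` and `R` normalize `A`
and centralize `P`, `R` normalizes `Q1`, `C_{Q1}(R) = 1`, `q ∤ |R|`: then `Q1` centralizes `A`.
-/

open Cfsg Subgroup
open scoped commutatorElement

universe u

namespace Cfsg.Agent.H35.BG134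

open Cfsg.Agent.Lib.Helper30.BG134

variable {G : Type u} [Group G]

/-- `A = ⟨b⟩ P` for `b ∈ A ∖ P`. -/
theorem det_gen [Finite G] (A P : Subgroup G) (p : ℕ) (hp : p.Prime)
    (hAp : ∀ a ∈ A, a ^ p = 1) (hAcard : Nat.card A = p ^ 2) (hPA : P ≤ A)
    (hPcard : Nat.card P = p) (b : G) (hb : b ∈ A) (hbP : b ∉ P) :
    ∀ a ∈ A, ∃ i : ℕ, ∃ u ∈ P, a = b ^ i * u := by
  classical
  have hpZ : Prime (p : ℤ) := Nat.prime_iff_prime_int.1 hp
  obtain ⟨f, hf⟩ : ∃ f : Fin p × P → A, ∀ x, (f x : G) = b ^ (x.1 : ℕ) * (x.2 : G) :=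
    ⟨fun x => ⟨b ^ (x.1 : ℕ) * (x.2 : G), A.mul_mem (A.pow_mem hb _) (hPA x.2.2)⟩, fun _ => rfl⟩
  have hinj : Function.Injective f := by
    rintro ⟨i, u⟩ ⟨j, u'⟩ hEq
    have hEq' : b ^ (i : ℕ) * (u : G) = b ^ (j : ℕ) * (u' : G) := by
      have h := congrArg Subtype.val hEq
      rwa [hf, hf] at h
    have hij : (i : ℕ) = (j : ℕ) := by
      by_contra hne
      have hd : b ^ (-(j : ℤ) + (i : ℤ)) ∈ P := by
        have h1 : b ^ (-(j : ℤ) + (i : ℤ)) = (u' : G) * (u : G)⁻¹ := by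
          rw [zpow_add, zpow_neg, zpow_natCast, zpow_natCast]
          have h2 : b ^ (i : ℕ) = b ^ (j : ℕ) * (u' : G) * (u : G)⁻¹ := by
            rw [← hEq']
            group
          rw [h2]
          group
        rw [h1]
        exact P.mul_mem u'.2 (P.inv_mem u.2)
      have hnd : ¬ (p : ℤ) ∣ (-(j : ℤ) + (i : ℤ)) := by
        intro hdvd
        have hi := i.2
        have hj := j.2
        obtain ⟨c, hc⟩ := hdvd
        have hc0 : c = 0 := by
          by_contra hc0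
          rcases lt_or_gt_of_ne hc0 with h | h
          · have h' : (p : ℤ) * c ≤ -(p : ℤ) := by nlinarith
            omega
          · have h' : (p : ℤ) ≤ (p : ℤ) * c := by nlinarith
            omega
        rw [hc0, mul_zero] at hc
        apply hne
        omega
      have hcop : IsCoprime (-(j : ℤ) + (i : ℤ)) (p : ℤ) :=
        ((Prime.coprime_iff_not_dvd hpZ).2 hnd).symm
      obtain ⟨m, n, hmn⟩ := hcop
      apply hbP
      have h3 : (b ^ (-(j : ℤ) + (i : ℤ))) ^ m * (b ^ (p : ℤ)) ^ n = b := by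
        rw [← zpow_mul, ← zpow_mul, ← zpow_add, mul_comm (-(j : ℤ) + (i : ℤ)) m,
          mul_comm (p : ℤ) n, hmn, zpow_one]
      rw [zpow_natCast, hAp b hb, one_zpow, mul_one] at h3
      rw [← h3]
      exact P.zpow_mem hd m
    have hij' : i = j := Fin.ext hij
    subst hij'
    have huu : (u : G) = (u' : G) := mul_left_cancel hEq'
    exact Prod.ext rfl (Subtype.ext huu)
  have hcard : Nat.card (Fin p × P) = Nat.card A := by
    rw [Nat.card_prod, Nat.card_fin, hPcard, hAcard, pow_two]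
  have hbij : Function.Bijective f := (Nat.bijective_iff_injective_and_card f).2 ⟨hinj, hcard⟩
  intro a ha
  obtain ⟨⟨i, u⟩, hiu⟩ := hbij.2 ⟨a, ha⟩
  refine ⟨(i : ℕ), (u : G), u.2, ?_⟩
  have h := congrArg Subtype.val hiu
  rw [hf] at h
  exact h.symm

theorem det [Finite G] : StDet G := by
  intro A P Q1 R p q hp hq hqp hA hAcard hPA hPcard hQ1 hqR hQ1A hRA hQ1P hRP hRQ1 hfix
  classical
  have hqF : Fact q.Prime := ⟨hq⟩
  have hAc : ∀ a ∈ A, ∀ b ∈ A, a * b = b * a := fun a ha b hb => by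
    have h := (hA.1).is_comm.comm (⟨a, ha⟩ : A) ⟨b, hb⟩
    exact congrArg Subtype.val h
  have hAp : ∀ a ∈ A, a ^ p = 1 := hA.2
  by_cases hAP : A ≤ P
  · exact hQ1P.trans (Subgroup.centralizer_le hAP)
  obtain ⟨a0, ha0, ha0P⟩ := SetLike.not_le_iff_exists.1 hAP
  -- `Q1 = [Q1, R]`
  have hcop : (Nat.card R).Coprime (Nat.card Q1) := by
    obtain ⟨k, hk⟩ := (IsPGroup.iff_card).1 hQ1
    rw [hk]
    exact Nat.Coprime.pow_right k (((Nat.Prime.coprime_iff_not_dvd hq).2 hqR).symm)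
  have hQnil : Group.IsNilpotent Q1 := hQ1.isNilpotent
  have hQsolv : Group.IsSolvable Q1 := inferInstance
  have hcomm : ⁅Q1, R⁆ = Q1 := by
    have h := Cfsg.Agent.H1.coprime_commutator_sup_centralizer R Q1 hRQ1 hcop (Or.inr hQsolv)
    rwa [hfix, sup_bot_eq] at h
  -- the group `N = N(A) ∩ C(P)` and the kernel `T` of its action on `A / P`
  have hNmem : ∀ g : G, g ∈ normalizer (A : Set G) → ∀ a ∈ A, g * a * g⁻¹ ∈ A :=
    fun g hg a ha => (Subgroup.mem_normalizer_iff.1 hg a).1 ha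
  have hCmem : ∀ g : G, g ∈ centralizer (P : Set G) → ∀ u ∈ P, g * u * g⁻¹ = u := by
    intro g hg u hu
    have h := Subgroup.mem_centralizer_iff.1 hg u hu
    rw [← h]
    group
  -- conjugation of `b ^ i * u`
  have hconj : ∀ g : G, g ∈ centralizer (P : Set G) → ∀ (b : G) (i : ℕ) (u : G), u ∈ P →
      g * (b ^ i * u) * g⁻¹ = (g * b * g⁻¹) ^ i * u := by
    intro g hg b i u hu
    rw [conj_pow]
    calc g * (b ^ i * u) * g⁻¹ = g * b ^ i * g⁻¹ * (g * u * g⁻¹) := by group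
      _ = g * b ^ i * g⁻¹ * u := by rw [hCmem g hg u hu]
  -- commutators act trivially on `A / P`
  have hkey : ∀ y z : G, y ∈ normalizer (A : Set G) → y ∈ centralizer (P : Set G) →
      z ∈ normalizer (A : Set G) → z ∈ centralizer (P : Set G) →
      ∀ a ∈ A, ⁅y, z⁆ * a * ⁅y, z⁆⁻¹ * a⁻¹ ∈ P := by
    intro y z hyA hyP hzA hzP
    obtain ⟨ky, uy, huy, hy⟩ := det_gen A P p hp hAp hAcard hPA hPcard a0 ha0 ha0P
      (y * a0 * y⁻¹) (hNmem y hyA a0 ha0)
    obtain ⟨kz, uz, huz, hz⟩ := det_gen A P p hp hAp hAcard hPA hPcard a0 ha0 ha0P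
      (z * a0 * z⁻¹) (hNmem z hzA a0 ha0)
    have ha0k : ∀ k : ℕ, a0 ^ k ∈ A := fun k => A.pow_mem ha0 k
    -- `(y z) a0 (y z)⁻¹` and `(z y) a0 (z y)⁻¹`
    have h1 : (y * z) * a0 * (y * z)⁻¹ = a0 ^ (ky * kz) * (uy ^ kz * uz) := by
      calc (y * z) * a0 * (y * z)⁻¹ = y * (z * a0 * z⁻¹) * y⁻¹ := by group
        _ = y * (a0 ^ kz * uz) * y⁻¹ := by rw [hz]
        _ = (y * a0 * y⁻¹) ^ kz * uz := hconj y hyP a0 kz uz huz
        _ = (a0 ^ ky * uy) ^ kz * uz := by rw [hy]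
        _ = a0 ^ (ky * kz) * (uy ^ kz * uz) := by
          rw [(show Commute (a0 ^ ky) uy from hAc _ (ha0k ky) _ (hPA huy)).mul_pow, ← pow_mul,
            mul_assoc]
    have h2 : (z * y) * a0 * (z * y)⁻¹ = a0 ^ (ky * kz) * (uz ^ ky * uy) := by
      calc (z * y) * a0 * (z * y)⁻¹ = z * (y * a0 * y⁻¹) * z⁻¹ := by group
        _ = z * (a0 ^ ky * uy) * z⁻¹ := by rw [hy]
        _ = (z * a0 * z⁻¹) ^ ky * uy := hconj z hzP a0 ky uy huy
        _ = (a0 ^ kz * uz) ^ ky * uy := by rw [hz]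
        _ = a0 ^ (ky * kz) * (uz ^ ky * uy) := by
          rw [(show Commute (a0 ^ kz) uz from hAc _ (ha0k kz) _ (hPA huz)).mul_pow, ← pow_mul,
            mul_assoc, mul_comm kz ky]
    obtain ⟨b, hbdef⟩ : ∃ b : G, b = (z * y) * a0 * (z * y)⁻¹ := ⟨_, rfl⟩
    have hzyA : z * y ∈ normalizer (A : Set G) := Subgroup.mul_mem _ hzA hyA
    have hzyP : z * y ∈ centralizer (P : Set G) := Subgroup.mul_mem _ hzP hyP
    have hbA : b ∈ A := hbdef ▸ hNmem (z * y) hzyA a0 ha0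
    have hbP : b ∉ P := by
      intro hb
      apply ha0P
      have h3 : a0 = (z * y)⁻¹ * b * (z * y) := by
        rw [hbdef]
        group
      have h4 := hCmem (z * y)⁻¹ (Subgroup.inv_mem _ hzyP) b hb
      rw [inv_inv] at h4
      rw [h3, h4]
      exact hb
    -- `c b c⁻¹ = b w` with `w ∈ P`
    have hcA : ⁅y, z⁆ ∈ normalizer (A : Set G) := by
      rw [commutatorElement_def]
      exact Subgroup.mul_mem _ (Subgroup.mul_mem _ (Subgroup.mul_mem _ hyA hzA)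
        (Subgroup.inv_mem _ hyA)) (Subgroup.inv_mem _ hzA)
    have hcP : ⁅y, z⁆ ∈ centralizer (P : Set G) := by
      rw [commutatorElement_def]
      exact Subgroup.mul_mem _ (Subgroup.mul_mem _ (Subgroup.mul_mem _ hyP hzP)
        (Subgroup.inv_mem _ hyP)) (Subgroup.inv_mem _ hzP)
    obtain ⟨w, hwdef⟩ : ∃ w : G, w = (uz ^ ky * uy)⁻¹ * (uy ^ kz * uz) := ⟨_, rfl⟩
    have hwP : w ∈ P := by
      rw [hwdef]
      exact P.mul_mem (P.inv_mem (P.mul_mem (P.pow_mem huz ky) huy))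
        (P.mul_mem (P.pow_mem huy kz) huz)
    have hcb : ⁅y, z⁆ * b * ⁅y, z⁆⁻¹ = b * w := by
      have h5 : ⁅y, z⁆ * b * ⁅y, z⁆⁻¹ = (y * z) * a0 * (y * z)⁻¹ := by
        rw [hbdef, commutatorElement_def]
        group
      rw [h5, h1, hbdef, h2, hwdef]
      group
    intro a ha
    obtain ⟨i, u, hu, hau⟩ := det_gen A P p hp hAp hAcard hPA hPcard b hbA hbP a ha
    have h6 : ⁅y, z⁆ * a * ⁅y, z⁆⁻¹ = b ^ i * w ^ i * u := by
      rw [hau, hconj _ hcP b i u hu, hcb,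
        (show Commute b w from hAc _ hbA _ (hPA hwP)).mul_pow]
    have h7 : ⁅y, z⁆ * a * ⁅y, z⁆⁻¹ * a⁻¹ = w ^ i := by
      rw [h6, hau]
      have hbw : b ^ i * w ^ i = w ^ i * b ^ i :=
        hAc _ (A.pow_mem hbA i) _ (hPA (P.pow_mem hwP i))
      rw [hbw]
      group
    rw [h7]
    exact P.pow_mem hwP i
  -- every element of `Q1` moves `a ∈ A` inside `a P`
  have hT : ∀ x ∈ Q1, x ∈ normalizer (A : Set G) ∧ x ∈ centralizer (P : Set G) ∧
      ∀ a ∈ A, x * a * x⁻¹ * a⁻¹ ∈ P := by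
    have hle : ⁅Q1, R⁆ ≤ ({
        carrier := {g | g ∈ normalizer (A : Set G) ∧ g ∈ centralizer (P : Set G) ∧
          ∀ a ∈ A, g * a * g⁻¹ * a⁻¹ ∈ P}
        one_mem' := ⟨Subgroup.one_mem _, Subgroup.one_mem _, fun a _ => by simp⟩
        mul_mem' := by
          rintro g h ⟨hgA, hgP, hg⟩ ⟨hhA, hhP, hh⟩
          refine ⟨Subgroup.mul_mem _ hgA hhA, Subgroup.mul_mem _ hgP hhP, fun a ha => ?_⟩
          have h1 : g * h * a * (g * h)⁻¹ * a⁻¹
              = (g * (h * a * h⁻¹) * g⁻¹ * (h * a * h⁻¹)⁻¹) * (h * a * h⁻¹ * a⁻¹) := by group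
          rw [h1]
          exact P.mul_mem (hg _ (hNmem h hhA a ha)) (hh a ha)
        inv_mem' := by
          rintro g ⟨hgA, hgP, hg⟩
          refine ⟨Subgroup.inv_mem _ hgA, Subgroup.inv_mem _ hgP, fun a ha => ?_⟩
          have ha' : g⁻¹ * a * g ∈ A := by
            have h := hNmem g⁻¹ (Subgroup.inv_mem _ hgA) a ha
            rwa [inv_inv] at h
          have h1 := hg _ ha'
          have h2 : g⁻¹ * a * g⁻¹⁻¹ * a⁻¹ = (g * (g⁻¹ * a * g) * g⁻¹ * (g⁻¹ * a * g)⁻¹)⁻¹ := by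
            group
          rw [h2]
          exact P.inv_mem h1 } : Subgroup G) := by
      rw [Subgroup.commutator_le]
      intro x hx r hr
      exact ⟨Subgroup.mul_mem _ (Subgroup.mul_mem _ (Subgroup.mul_mem _ (hQ1A hx) (hRA hr))
          (Subgroup.inv_mem _ (hQ1A hx))) (Subgroup.inv_mem _ (hRA hr)),
        Subgroup.mul_mem _ (Subgroup.mul_mem _ (Subgroup.mul_mem _ (hQ1P hx) (hRP hr))
          (Subgroup.inv_mem _ (hQ1P hx))) (Subgroup.inv_mem _ (hRP hr)),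
        hkey x r (hQ1A hx) (hQ1P hx) (hRA hr) (hRP hr)⟩
    intro x hx
    rw [← hcomm] at hx
    exact hle hx
  -- conclusion
  intro x hx
  rw [Subgroup.mem_centralizer_iff]
  intro a ha
  obtain ⟨-, hxP, hxa⟩ := hT x hx
  obtain ⟨u, hudef⟩ : ∃ u : G, u = x * a * x⁻¹ * a⁻¹ := ⟨_, rfl⟩
  have huP : u ∈ P := hudef ▸ hxa a (SetLike.mem_coe.1 ha)
  have hxu : x * u * x⁻¹ = u := hCmem x hxP u huP
  have hxa' : x * a * x⁻¹ = u * a := by
    rw [hudef]
    group
  have hpow : ∀ n : ℕ, x ^ n * a * (x ^ n)⁻¹ = u ^ n * a := by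
    intro n
    induction n with
    | zero => simp
    | succ n ih =>
      calc x ^ (n + 1) * a * (x ^ (n + 1))⁻¹ = x * (x ^ n * a * (x ^ n)⁻¹) * x⁻¹ := by
            rw [pow_succ']
            group
        _ = x * (u ^ n * a) * x⁻¹ := by rw [ih]
        _ = (x * u * x⁻¹) ^ n * (x * a * x⁻¹) := by
            rw [conj_pow]
            group
        _ = u ^ (n + 1) * a := by
            rw [hxu, hxa', pow_succ, mul_assoc]
  obtain ⟨k, hk⟩ := hQ1 ⟨x, hx⟩
  have hk' : x ^ q ^ k = 1 := congrArg Subtype.val hk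
  have h8 := hpow (q ^ k)
  rw [hk', one_mul, inv_one, mul_one] at h8
  have hu1 : u ^ q ^ k = 1 := by
    have h9 : u ^ q ^ k * a = 1 * a := by rw [one_mul, ← h8]
    exact mul_right_cancel h9
  have hup : u ^ p = 1 := hAp u (hPA huP)
  have hgcd : (q ^ k).gcd p = 1 :=
    Nat.Coprime.pow_left k ((Nat.coprime_primes hq hp).2 hqp)
  have hu : u = 1 := by
    have h10 := pow_gcd_eq_one.2 ⟨hu1, hup⟩
    rwa [hgcd, pow_one] at h10
  rw [hu, one_mul] at hxa'
  calc a * x = x * a * x⁻¹ * x := by rw [hxa']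
    _ = x * a := by group

end Cfsg.Agent.H35.BG134

namespace Cfsg.Agent.H35.BG134DetCheck

open Cfsg Subgroup Cfsg.Agent.Lib.Helper30.BG134

variable {G : Type u} [Group G] [Finite G]

example : StDet G := Cfsg.Agent.H35.BG134.det

end Cfsg.Agent.H35.BG134DetCheck
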