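import Mathlib
import Cfsg.Agent.H83.AbIdxDefs
import Cfsg.Agent.H83.ThreeDegA
import Cfsg.Agent.H16.GCChar

set_option autoImplicit false

/-!
# Piece BINDEX of S4463 (helper35, for helper83)

In the Frobenius-type case `2 ≤ [G : N] ≤ b`.
-/

open Cfsg Cfsg.Agent.H83.AbIdx

universe u

namespace Cfsg.Agent.H35.AbIdx

theorem bIndex : StmtBIndex.{u} := by
  intro G _ _ K N _ _ b hKN hGN hGK hmax hab hC hdeg
  obtain ⟨β, hβ1, hβK⟩ := Cfsg.Agent.H16.exists_nonlinear_of_not_le K hGK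
  have hdegβ : charDegree β.1 = N.index :=
    Cfsg.Agent.H83.degree_eq_index K N hKN hGN hmax hab hC β hβ1 hβK
  have h0 : N.index ≠ 0 := Subgroup.index_ne_zero_of_finite
  have h1 : N.index ≠ 1 := by
    intro h
    apply hGK
    have hN : N = ⊤ := Subgroup.index_eq_one.1 h
    rw [commutator_def, Subgroup.commutator_le]
    intro x _ y _
    rw [commutatorElement_def]
    exact hab x (hN ▸ Subgroup.mem_top x) y (hN ▸ Subgroup.mem_top y)
  refine ⟨by omega, ?_⟩
  rw [← hdegβ]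
  exact hdeg β

end Cfsg.Agent.H35.AbIdx

namespace Cfsg.Agent.H35.AbIdxBIndexCheck

example : Cfsg.Agent.H83.AbIdx.StmtBIndex.{u} := Cfsg.Agent.H35.AbIdx.bIndex

end Cfsg.Agent.H35.AbIdxBIndexCheck
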