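import Mathlib
import Cfsg.Agent.H57.BG1218Defs

set_option autoImplicit false

/-!
# Piece COAT of S1427 (helper35, for helper57)

`p ∉ σ(M)`, `M` of `p`-rank `1`, `X` of order `p`: some maximal subgroup `H` contains `N_G(X)`,
and no such `H` is conjugate to `M`.
-/

open Cfsg Subgroup Cfsg.Agent.H58.BG10 Cfsg.Agent.H57.BG1218

universe u

namespace Cfsg.Agent.H35.BG1218

variable {G : Type u} [Group G] [Finite G]

theorem coat (hG : IsMinSimpleOddOrder G) (h1409 : St1409 G) : StCoat G := by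
  intro M hM p _ hpσ hrank X hX
  have hp : p.Prime := Fact.out
  have hsimple : IsSimpleGroup G := hG.2.1
  have hXbot : X ≠ ⊥ := by
    rintro rfl
    rw [Subgroup.card_bot] at hX
    exact hp.one_lt.ne hX
  have hXtop : X ≠ ⊤ := by
    rintro rfl
    rw [Subgroup.card_top] at hX
    have : IsCyclic G := isCyclic_of_prime_card hX
    exact hG.2.2.1 IsCyclic.isMulCommutative
  have hN : normalizer (X : Set G) ≠ ⊤ := by
    intro h
    have hn : X.Normal := Subgroup.normalizer_eq_top_iff.mp h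
    rcases hn.eq_bot_or_eq_top with h' | h'
    exacts [hXbot h', hXtop h']
  obtain ⟨H, hH, hNH⟩ :=
    (eq_top_or_exists_le_coatom (normalizer (X : Set G))).resolve_left hN
  refine ⟨H, hH, hNH, ?_⟩
  intro g hHg
  have hcard : Nat.card (X.map (MulAut.conj g⁻¹).toMonoidHom) = p := by
    rw [Subgroup.card_map_of_injective (MulAut.conj g⁻¹).injective, hX]
  have h3 : ∀ y : G, y ∈ X.map (MulAut.conj g⁻¹).toMonoidHom ↔ g * y * g⁻¹ ∈ X := by
    intro y
    constructor
    · rintro ⟨z, hz, rfl⟩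
      simpa [mul_assoc] using hz
    · intro hy
      exact ⟨g * y * g⁻¹, hy, by simp [mul_assoc]⟩
  have hN' : normalizer ((X.map (MulAut.conj g⁻¹).toMonoidHom : Subgroup G) : Set G) ≤ M := by
    intro n hn
    have h1 : g * n * g⁻¹ ∈ normalizer (X : Set G) := by
      rw [Subgroup.mem_normalizer_iff] at hn ⊢
      intro x
      have h2 := hn (g⁻¹ * x * g)
      rw [h3, h3] at h2
      have e1 : g * (g⁻¹ * x * g) * g⁻¹ = x := by group
      have e2 : g * (n * (g⁻¹ * x * g) * n⁻¹) * g⁻¹ = g * n * g⁻¹ * x * (g * n * g⁻¹)⁻¹ := by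
        group
      rw [e1, e2] at h2
      exact h2
    have h4 : g * n * g⁻¹ ∈ M.map (MulAut.conj g).toMonoidHom := hHg ▸ hNH h1
    obtain ⟨m, hm, hmeq⟩ := h4
    have h5 : g * m * g⁻¹ = g * n * g⁻¹ := by simpa using hmeq
    have h6 : m = n := by simpa using h5
    exact h6 ▸ hm
  exact (h1409 M hM p hpσ _ hcard hN').1.2 hrank

end Cfsg.Agent.H35.BG1218

namespace Cfsg.Agent.H35.BG1218CoatCheck

open Cfsg Subgroup Cfsg.Agent.H58.BG10 Cfsg.Agent.H57.BG1218

variable {G : Type u} [Group G] [Finite G]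

example (hG : IsMinSimpleOddOrder G) (h1409 : St1409 G) : StCoat G :=
  Cfsg.Agent.H35.BG1218.coat hG h1409

end Cfsg.Agent.H35.BG1218CoatCheck
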