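import Mathlib
import Cfsg.Agent.H57.BG1218Defs
import Cfsg.Agent.H1.CoprimeSylow

set_option autoImplicit false

/-!
# Piece GEN of S1427 (helper35, for helper57)

Coprime action: a `p`-group `S` normalizing a `p'`-group `C` centralizes `C` as soon as it
centralizes every `S`-invariant subgroup of prime power order of `C`.
-/

open Cfsg Subgroup Cfsg.Agent.H58.BG10 Cfsg.Agent.H57.BG1218

universe u

namespace Cfsg.Agent.H35.BG1218

variable {G : Type u} [Group G] [Finite G]

theorem invGen : StInvGen G := by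
  intro p _ S C hS hSC hpC hQ
  classical
  have hp : p.Prime := Fact.out
  have hSnil : Group.IsNilpotent S := hS.isNilpotent
  have hSsolv : Group.IsSolvable S := inferInstance
  have hcop : (Nat.card S).Coprime (Nat.card C) := by
    obtain ⟨k, hk⟩ := (IsPGroup.iff_card).1 hS
    rw [hk]
    exact Nat.Coprime.pow_left k ((Nat.Prime.coprime_iff_not_dvd hp).2 hpC)
  obtain ⟨K, hK⟩ : ∃ K : Subgroup G, K = C ⊓ centralizer (S : Set G) := ⟨_, rfl⟩
  have hKC : K ≤ C := hK ▸ inf_le_left
  have hC0 : Nat.card C ≠ 0 := Nat.card_pos.ne'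
  have hK0 : Nat.card K ≠ 0 := Nat.card_pos.ne'
  have hdvd : Nat.card C ∣ Nat.card K := by
    rw [← Nat.factorization_prime_le_iff_dvd hC0 hK0]
    intro q hq
    have : Fact q.Prime := ⟨hq⟩
    obtain ⟨P, hP⟩ :=
      Cfsg.Agent.H1.coprime_exists_invariant_sylow S C hSC hcop (Or.inl hSsolv) q
    have hPq : IsPGroup q ((P : Subgroup C).map C.subtype) := P.isPGroup'.map C.subtype
    have hPC : (P : Subgroup C).map C.subtype ≤ C := by
      rintro x ⟨y, -, rfl⟩
      exact y.2
    have hPK : (P : Subgroup C).map C.subtype ≤ K := by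
      rw [hK]
      exact le_inf hPC (hQ q _ hPC hPq hP)
    have hcard : Nat.card ((P : Subgroup C).map C.subtype)
        = q ^ (Nat.card C).factorization q := by
      rw [Subgroup.card_subtype, Sylow.card_eq_multiplicity]
    have h1 : q ^ (Nat.card C).factorization q ∣ Nat.card K := by
      rw [← hcard]
      exact Subgroup.card_dvd_of_le hPK
    exact (Nat.Prime.pow_dvd_iff_le_factorization hq hK0).1 h1
  have hKeq : K = C := Subgroup.eq_of_le_of_card_ge hKC (Nat.le_of_dvd Nat.card_pos hdvd)
  rw [← hKeq, hK]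
  exact inf_le_right

end Cfsg.Agent.H35.BG1218

namespace Cfsg.Agent.H35.BG1218GenCheck

open Cfsg Subgroup Cfsg.Agent.H58.BG10 Cfsg.Agent.H57.BG1218

variable {G : Type u} [Group G] [Finite G]

example : StInvGen G := Cfsg.Agent.H35.BG1218.invGen

end Cfsg.Agent.H35.BG1218GenCheck
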