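import Mathlib
import Cfsg.Agent.H2.BrDefs

set_option autoImplicit false

/-!
# Piece ARITH3 of S4501 (helper35, for helper2)

The arithmetic of the case `|G| = 3 p^a 2^b`.
-/

open Cfsg Cfsg.Agent.H2.Br

namespace Cfsg.Agent.H35.Br

/-- A common divisor of `A` and `B` divides `1`. -/
theorem a3_not_both_dvd (d A B : ℕ) (sa sb : ℤ) (hd : 1 < d)
    (hrel : 1 + sa * (A : ℤ) + sb * (B : ℤ) = 0) (hA : d ∣ A) (hB : d ∣ B) : False := by
  obtain ⟨x, rfl⟩ := hA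
  obtain ⟨y, rfl⟩ := hB
  have h1 : (d : ℤ) ∣ 1 := ⟨-(sa * x + sb * y), by
    push_cast at hrel
    linear_combination hrel⟩
  have h2 := Int.le_of_dvd one_pos h1
  omega

/-- `2 ^ i = p ^ j ± 1` with `p ∈ {5, 7, 11, 13}` and `j ≤ 2`. -/
theorem a3_pij (p i j : ℕ) (hp : p.Prime) (hp2 : p ≠ 2) (hp3 : p ≠ 3) (hp16 : p < 16)
    (hi : 1 ≤ i) (hj1 : 1 ≤ j) (hj2 : j ≤ 2)
    (h : 2 ^ i = p ^ j + 1 ∨ p ^ j = 2 ^ i + 1) :
    (p = 5 ∧ j = 1 ∧ i = 2) ∨ (p = 7 ∧ j = 1 ∧ i = 3) := by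
  have hi8 : i < 8 := by
    by_contra hcon
    have h256 : 2 ^ 8 ≤ 2 ^ i := Nat.pow_le_pow_right (by norm_num) (by omega)
    have hpj : p ^ j ≤ 15 ^ 2 :=
      calc p ^ j ≤ 15 ^ j := Nat.pow_le_pow_left (by omega) j
        _ ≤ 15 ^ 2 := Nat.pow_le_pow_right (by norm_num) hj2
    norm_num at h256 hpj
    omega
  have hp2' := hp.two_le
  interval_cases p
  · exact absurd rfl hp2
  · exact absurd rfl hp3
  · exact absurd hp (by norm_num)
  · interval_cases j <;> interval_cases i <;> revert h <;> decide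
  · exact absurd hp (by norm_num)
  · interval_cases j <;> interval_cases i <;> revert h <;> decide
  · exact absurd hp (by norm_num)
  · exact absurd hp (by norm_num)
  · exact absurd hp (by norm_num)
  · interval_cases j <;> interval_cases i <;> revert h <;> decide
  · exact absurd hp (by norm_num)
  · interval_cases j <;> interval_cases i <;> revert h <;> decide
  · exact absurd hp (by norm_num)
  · exact absurd hp (by norm_num)

/-- The two surviving numerical cases. -/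
theorem a3_final (p i a a' b D : ℕ) (hpi : (p = 5 ∧ i = 2) ∨ (p = 7 ∧ i = 3)) (ha1 : 1 ≤ a)
    (ha : a ≤ 2) (ha' : a' ≤ a) (hib : i ≤ b) (hb : b ≤ i + 1) (hD0 : 0 < D)
    (hD : D < 2 ^ (i + 1))
    (heq : p ^ a * D ^ 2 = 2 ^ (b + i) * p ^ (2 * a' + 1)) :
    3 * p ^ a * 2 ^ b = 60 ∨ 3 * p ^ a * 2 ^ b = 168 := by
  rcases hpi with ⟨rfl, rfl⟩ | ⟨rfl, rfl⟩
  · have hD8 : D < 8 := by simpa using hD
    interval_cases a <;> interval_cases a' <;> interval_cases b <;> interval_cases D <;>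
      revert heq <;> decide
  · have hD16 : D < 16 := by simpa using hD
    interval_cases a <;> interval_cases a' <;> interval_cases b <;> interval_cases D <;>
      revert heq <;> decide

/-- The core: `A = 2 ^ i`, `B = p ^ j`, and the order formula for `A`. -/
theorem a3_core (p a b : ℕ) (hp : p.Prime) (hp2 : p ≠ 2) (hp3 : p ≠ 3) (hp16 : p < 16)
    (ha : a ≤ 2) (i j : ℕ) (hi : 1 ≤ i) (hib : i ≤ b) (hj : 1 ≤ j) (hja : j ≤ a)
    (c₀ : ℕ) (sa sb u : ℤ) (hsa : sa = 1 ∨ sa = -1) (hsb : sb = 1 ∨ sb = -1)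
    (hrel : 1 + sa * ((2 ^ i : ℕ) : ℤ) + sb * ((p ^ j : ℕ) : ℤ) = 0)
    (hc : c₀ ∣ 3 * p ^ a * 2 ^ b) (h2c : 2 ^ b ∣ c₀) (h3c : ¬ 3 ∣ c₀)
    (hu1 : -((2 ^ i : ℕ) : ℤ) < u) (hu2 : u < ((2 ^ i : ℕ) : ℤ))
    (hform : ((3 * p ^ a * 2 ^ b : ℕ) : ℤ) * (((2 ^ i : ℕ) : ℤ) - u) ^ 2
      = 3 * (c₀ : ℤ) ^ 2 * (((2 ^ i : ℕ) : ℤ) * ((p ^ j : ℕ) : ℤ))) :
    3 * p ^ a * 2 ^ b = 60 ∨ 3 * p ^ a * 2 ^ b = 168 := by
  have hp0 : 0 < p := hp.pos
  have hpodd : Nat.Coprime 2 p := (Nat.coprime_primes Nat.prime_two hp).2 (Ne.symm hp2)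
  -- `c₀ = 2 ^ b * p ^ a'`
  have hc3 : Nat.Coprime c₀ 3 :=
    ((Nat.Prime.coprime_iff_not_dvd Nat.prime_three).2 h3c).symm
  have hc' : c₀ ∣ p ^ a * 2 ^ b := by
    rw [mul_assoc] at hc
    exact Nat.Coprime.dvd_of_dvd_mul_left hc3 hc
  obtain ⟨c', rfl⟩ := h2c
  have hc'' : c' ∣ p ^ a := by
    rw [mul_comm (2 ^ b) c'] at hc'
    exact Nat.dvd_of_mul_dvd_mul_right (by positivity) hc'
  obtain ⟨a', ha', rfl⟩ := (Nat.dvd_prime_pow hp).1 hc''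
  -- the natural number `D = 2 ^ i - u`
  have hd0 : 0 < ((2 ^ i : ℕ) : ℤ) - u := by linarith
  obtain ⟨D, hD⟩ := Int.eq_ofNat_of_zero_le (le_of_lt hd0)
  rw [hD] at hform hd0
  have hD0 : 0 < D := by exact_mod_cast hd0
  have hDlt : D < 2 ^ (i + 1) := by
    have h1 : ((D : ℕ) : ℤ) < 2 * ((2 ^ i : ℕ) : ℤ) := by
      have : ((D : ℕ) : ℤ) = ((2 ^ i : ℕ) : ℤ) - u := hD.symm
      linarith
    have h2 : D < 2 * 2 ^ i := by exact_mod_cast h1
    rw [pow_succ]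
    omega
  have hformN : 3 * p ^ a * 2 ^ b * D ^ 2 = 3 * (2 ^ b * p ^ a') ^ 2 * (2 ^ i * p ^ j) := by
    exact_mod_cast hform
  have heq : p ^ a * D ^ 2 = 2 ^ (b + i) * p ^ (2 * a' + j) := by
    have h3 : (3 * 2 ^ b) * (p ^ a * D ^ 2) = (3 * 2 ^ b) * (2 ^ (b + i) * p ^ (2 * a' + j)) :=
      calc (3 * 2 ^ b) * (p ^ a * D ^ 2) = 3 * p ^ a * 2 ^ b * D ^ 2 := by ring
        _ = 3 * (2 ^ b * p ^ a') ^ 2 * (2 ^ i * p ^ j) := hformN
        _ = (3 * 2 ^ b) * (2 ^ (b + i) * p ^ (2 * a' + j)) := by ring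
    exact Nat.eq_of_mul_eq_mul_left (by positivity) h3
  -- `b ≤ i + 1`
  have hb : b ≤ i + 1 := by
    have hdvd : 2 ^ (b + i) ∣ D ^ 2 := by
      have h1 : 2 ^ (b + i) ∣ p ^ a * D ^ 2 := Dvd.intro _ heq.symm
      exact Nat.Coprime.dvd_of_dvd_mul_left (Nat.Coprime.pow _ _ hpodd) h1
    have hle : 2 ^ (b + i) ≤ D ^ 2 := Nat.le_of_dvd (by positivity) hdvd
    have hlt : D ^ 2 < (2 ^ (i + 1)) ^ 2 := Nat.pow_lt_pow_left hDlt (by norm_num)
    rw [← pow_mul] at hlt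
    have h2 : 2 ^ (b + i) < 2 ^ ((i + 1) * 2) := lt_of_le_of_lt hle hlt
    have h3 := (Nat.pow_lt_pow_iff_right (by norm_num : 1 < 2)).1 h2
    omega
  -- `2 ^ i = p ^ j ± 1`
  have hX : 2 ≤ 2 ^ i := by
    calc 2 = 2 ^ 1 := by norm_num
      _ ≤ 2 ^ i := Nat.pow_le_pow_right (by norm_num) hi
  have hY : 2 ≤ p ^ j := by
    calc 2 ≤ p := hp.two_le
      _ = p ^ 1 := by ring
      _ ≤ p ^ j := Nat.pow_le_pow_right hp0 hj
  have hpm : 2 ^ i = p ^ j + 1 ∨ p ^ j = 2 ^ i + 1 := by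
    generalize 2 ^ i = X at hrel hX
    generalize p ^ j = Y at hrel hY
    rcases hsa with rfl | rfl <;> rcases hsb with rfl | rfl <;> omega
  have hpij := a3_pij p i j hp hp2 hp3 hp16 hi hj (le_trans hja ha) hpm
  have hj1 : j = 1 := by
    rcases hpij with ⟨-, h, -⟩ | ⟨-, h, -⟩ <;> exact h
  subst hj1
  exact a3_final p i a a' b D (by
    rcases hpij with ⟨h1, -, h2⟩ | ⟨h1, -, h2⟩
    · exact Or.inl ⟨h1, h2⟩
    · exact Or.inr ⟨h1, h2⟩) hja ha ha' hib hb hD0 hDlt heq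

theorem arith3 : StmtArith3 := by
  intro p a b hp hp2 hp3 hp16 ha A B c₀ sa sb u w hsa hsb hAN hBN hA1 hB1 h3A h3B hrel hc h2c
    h3c hu1 hu2 hw1 hw2 hfA hfB
  have hpodd : Nat.Coprime (p ^ a) (2 ^ b) :=
    Nat.Coprime.pow _ _ ((Nat.coprime_primes hp Nat.prime_two).2 hp2)
  have hA3 : Nat.Coprime A 3 := ((Nat.Prime.coprime_iff_not_dvd Nat.prime_three).2 h3A).symm
  have hB3 : Nat.Coprime B 3 := ((Nat.Prime.coprime_iff_not_dvd Nat.prime_three).2 h3B).symm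
  have hA' : A ∣ p ^ a * 2 ^ b := by
    rw [mul_assoc] at hAN
    exact Nat.Coprime.dvd_of_dvd_mul_left hA3 hAN
  have hB' : B ∣ p ^ a * 2 ^ b := by
    rw [mul_assoc] at hBN
    exact Nat.Coprime.dvd_of_dvd_mul_left hB3 hBN
  obtain ⟨A1, A2, hA1d, hA2d, hAeq⟩ := (Nat.dvd_mul).1 hA'
  obtain ⟨j1, hj1, rfl⟩ := (Nat.dvd_prime_pow hp).1 hA1d
  obtain ⟨i1, hi1, rfl⟩ := (Nat.dvd_prime_pow Nat.prime_two).1 hA2d
  obtain ⟨B1, B2, hB1d, hB2d, hBeq⟩ := (Nat.dvd_mul).1 hB'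
  obtain ⟨j2, hj2, rfl⟩ := (Nat.dvd_prime_pow hp).1 hB1d
  obtain ⟨i2, hi2, rfl⟩ := (Nat.dvd_prime_pow Nat.prime_two).1 hB2d
  have hpA : 1 ≤ j1 → p ∣ A := fun h => by
    rw [← hAeq]
    exact Dvd.dvd.mul_right (dvd_pow_self p (by omega)) _
  have hpB : 1 ≤ j2 → p ∣ B := fun h => by
    rw [← hBeq]
    exact Dvd.dvd.mul_right (dvd_pow_self p (by omega)) _
  have h2A : 1 ≤ i1 → 2 ∣ A := fun h => by
    rw [← hAeq]
    exact Dvd.dvd.mul_left (dvd_pow_self 2 (by omega)) _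
  have h2B : 1 ≤ i2 → 2 ∣ B := fun h => by
    rw [← hBeq]
    exact Dvd.dvd.mul_left (dvd_pow_self 2 (by omega)) _
  have hjj : ¬ (1 ≤ j1 ∧ 1 ≤ j2) := fun h =>
    a3_not_both_dvd p A B sa sb hp.one_lt hrel (hpA h.1) (hpB h.2)
  have hii : ¬ (1 ≤ i1 ∧ 1 ≤ i2) := fun h =>
    a3_not_both_dvd 2 A B sa sb (by norm_num) hrel (h2A h.1) (h2B h.2)
  by_cases hj10 : j1 = 0
  · -- `A = 2 ^ i1`, `B = p ^ j2`
    subst hj10
    have hA2 : A = 2 ^ i1 := by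
      rw [← hAeq]
      simp
    have hi11 : 1 ≤ i1 := by
      by_contra hcon
      have : i1 = 0 := by omega
      subst this
      simp at hA2
      omega
    have hi20 : i2 = 0 := by
      by_contra hcon
      exact hii ⟨hi11, by omega⟩
    subst hi20
    have hBp : B = p ^ j2 := by
      rw [← hBeq]
      simp
    have hj21 : 1 ≤ j2 := by
      by_contra hcon
      have : j2 = 0 := by omega
      subst this
      simp at hBp
      omega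
    subst hA2 hBp
    exact a3_core p a b hp hp2 hp3 hp16 ha i1 j2 hi11 hi1 hj21 hj2 c₀ sa sb u hsa hsb hrel hc h2c
      h3c hu1 hu2 (hfA.trans (by ring))
  · -- `A = p ^ j1`, `B = 2 ^ i2`
    have hj11 : 1 ≤ j1 := by omega
    have hj20 : j2 = 0 := by
      by_contra hcon
      exact hjj ⟨hj11, by omega⟩
    subst hj20
    have hB2 : B = 2 ^ i2 := by
      rw [← hBeq]
      simp
    have hi21 : 1 ≤ i2 := by
      by_contra hcon
      have : i2 = 0 := by omega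
      subst this
      simp at hB2
      omega
    have hi10 : i1 = 0 := by
      by_contra hcon
      exact hii ⟨by omega, hi21⟩
    subst hi10
    have hAp : A = p ^ j1 := by
      rw [← hAeq]
      simp
    subst hB2 hAp
    exact a3_core p a b hp hp2 hp3 hp16 ha i2 j1 hi21 hi2 hj11 hj1 c₀ sb sa w hsb hsa
      (by linarith) hc h2c h3c hw1 hw2 (hfB.trans (by ring))

end Cfsg.Agent.H35.Br

namespace Cfsg.Agent.H35.BrArith3Check

example : Cfsg.Agent.H2.Br.StmtArith3 := Cfsg.Agent.H35.Br.arith3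

end Cfsg.Agent.H35.BrArith3Check
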