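import Mathlib
import Cfsg.Agent.H79.BrDefs

/-!
# S4504-CORE3 (piece for helper79)

Assembly of the case `p ≡ 3 (mod 4)`: `|G| = (p+1) p f |Z(G)|`.
-/

set_option autoImplicit false

universe u

namespace Cfsg.Agent.H35.Br

open Cfsg Cfsg.Agent.H79.Br

theorem core3 (hT : StTriv3.{u}) (hM : StMom3.{u}) (hS : StSylLB.{u}) : StCore3.{u} := by
  intro G _ _ p _ P χ x₁ x₂ hL h3
  have hz : ∀ z ∈ Subgroup.center G, χ z = χ 1 := hT p (P : Subgroup G) χ x₁ x₂ hL h3
  have hZ : Subgroup.center G = ⊥ := by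
    rw [eq_bot_iff]
    intro z hz'
    rw [Subgroup.mem_bot]
    exact hL.faith z (hz z hz')
  have hcZ : Nat.card (Subgroup.center G) = 1 := by
    rw [hZ]; exact Subgroup.card_bot
  have hle : Nat.card G ≤ (p + 1) * p * charDegree χ := hM p (P : Subgroup G) χ x₁ x₂ hL h3 hz
  have hge := (hS p P hL.nn).1
  have hN := hL.grp.norm
  rw [hcZ, mul_one] at hN
  rw [hN] at hge
  rw [hcZ, mul_one]
  have : (p + 1) * (p * charDegree χ) = (p + 1) * p * charDegree χ := by ring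
  omega

end Cfsg.Agent.H35.Br

namespace Cfsg.Agent.H35.BrCore3Check

open Cfsg Cfsg.Agent.H79.Br

example (hT : StTriv3.{u}) (hM : StMom3.{u}) (hS : StSylLB.{u}) : StCore3.{u} :=
  Cfsg.Agent.H35.Br.core3 hT hM hS

end Cfsg.Agent.H35.BrCore3Check
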