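import Mathlib
import Cfsg.Agent.H2.BrDefs

set_option autoImplicit false

/-!
# Piece NOSIX of S4501 (helper35, for helper2)

If `z` of order `3` is self-centralizing and `9 ∤ |G|`, no involution centralizes an element of
order `3`.
-/

open Cfsg Cfsg.Agent.H2.Br

universe u

namespace Cfsg.Agent.H35.Br

theorem noSix : StmtNoSix.{u} := by
  intro G _ _ z J hz hcz h9 hJ h3
  classical
  have : Fact (Nat.Prime 3) := ⟨Nat.prime_three⟩
  obtain ⟨⟨y, hyC⟩, hy⟩ :=
    exists_prime_orderOf_dvd_card' (G := Subgroup.centralizer ({J} : Set G)) 3 h3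
  have hy3 : orderOf y = 3 := by
    rw [← hy]
    exact (Subgroup.orderOf_mk y hyC).symm
  have hJy : J * y = y * J := Subgroup.mem_centralizer_iff.1 hyC J (Set.mem_singleton J)
  -- the `3`-part of `|G|` is `3`
  have hG0 : Nat.card G ≠ 0 := Nat.card_pos.ne'
  have h3G : 3 ∣ Nat.card G := by
    rw [← hz]
    exact orderOf_dvd_natCard z
  have hfac : (Nat.card G).factorization 3 = 1 := by
    have h1 : 1 ≤ (Nat.card G).factorization 3 :=
      (Nat.Prime.pow_dvd_iff_le_factorization Nat.prime_three hG0).1 (by simpa using h3G)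
    have h2 : ¬ 2 ≤ (Nat.card G).factorization 3 := by
      intro h
      exact h9 (by
        have := (Nat.Prime.pow_dvd_iff_le_factorization Nat.prime_three hG0).2 h
        simpa using this)
    omega
  have hpy : IsPGroup 3 (Subgroup.zpowers y) :=
    IsPGroup.of_card (n := 1) (by rw [Nat.card_zpowers, hy3, pow_one])
  have hpz : IsPGroup 3 (Subgroup.zpowers z) :=
    IsPGroup.of_card (n := 1) (by rw [Nat.card_zpowers, hz, pow_one])
  obtain ⟨P, hP⟩ := hpy.exists_le_sylow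
  obtain ⟨Q, hQ⟩ := hpz.exists_le_sylow
  have hPc : Nat.card (P : Subgroup G) = 3 := by
    rw [Sylow.card_eq_multiplicity, hfac, pow_one]
  have hQc : Nat.card (Q : Subgroup G) = 3 := by
    rw [Sylow.card_eq_multiplicity, hfac, pow_one]
  have hPy : Subgroup.zpowers y = (P : Subgroup G) :=
    Subgroup.eq_of_le_of_card_ge hP (by rw [hPc, Nat.card_zpowers, hy3])
  obtain ⟨g, hg⟩ := MulAction.exists_smul_eq G P Q
  have hzQ : z ∈ (Q : Subgroup G) := hQ (Subgroup.mem_zpowers z)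
  have hz' : (MulAut.conj g)⁻¹ • z ∈ (P : Subgroup G) := by
    rw [← Subgroup.mem_pointwise_smul_iff_inv_smul_mem, ← Sylow.coe_subgroup_smul, hg]
    exact hzQ
  rw [← hPy] at hz'
  obtain ⟨k, hk⟩ := Subgroup.mem_zpowers_iff.1 hz'
  have hk' : y ^ k = g⁻¹ * z * g := by
    rw [hk, MulAut.smul_def, MulAut.conj_inv_apply]
  have hzeq : z = g * y ^ k * g⁻¹ := by
    rw [hk']
    group
  have hJyk : J * y ^ k = y ^ k * J :=
    (Commute.zpow_right (show Commute J y from hJy) k).eq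
  have hcomm : g * J * g⁻¹ * z = z * (g * J * g⁻¹) := by
    rw [hzeq]
    calc g * J * g⁻¹ * (g * y ^ k * g⁻¹) = g * (J * y ^ k) * g⁻¹ := by group
      _ = g * (y ^ k * J) * g⁻¹ := by rw [hJyk]
      _ = g * y ^ k * g⁻¹ * (g * J * g⁻¹) := by group
  have hJ2 : J ^ 2 = 1 := by
    rw [← hJ]
    exact pow_orderOf_eq_one J
  have hJne : J ≠ 1 := by
    rintro rfl
    simp at hJ
  obtain ⟨m, hm⟩ := Subgroup.mem_zpowers_iff.1 (hcz (g * J * g⁻¹) hcomm)
  have hz3 : z ^ 3 = 1 := by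
    rw [← hz]
    exact pow_orderOf_eq_one z
  have h1 : (g * J * g⁻¹) ^ 3 = 1 := by
    rw [← hm, ← zpow_natCast, ← zpow_mul, mul_comm, zpow_mul, zpow_natCast, hz3, one_zpow]
  have h2 : (g * J * g⁻¹) ^ 3 = g * J * g⁻¹ := by
    rw [conj_pow]
    have h3' : J ^ 3 = J := by
      rw [pow_succ, hJ2, one_mul]
    rw [h3']
  rw [h2] at h1
  apply hJne
  have h4 : J = g⁻¹ * (g * J * g⁻¹) * g := by group
  rw [h4, h1]
  group

end Cfsg.Agent.H35.Br

namespace Cfsg.Agent.H35.BrNoSixCheck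

example : Cfsg.Agent.H2.Br.StmtNoSix.{u} := Cfsg.Agent.H35.Br.noSix

end Cfsg.Agent.H35.BrNoSixCheck
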