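import Mathlib
import Cfsg.Agent.H79.BrDefs
import Cfsg.Agent.H82.Irr

/-!
# S4504-ORTH (piece for helper79)

Column orthogonality over a central character, evaluated with the local data `GrpLoc`.
-/

set_option autoImplicit false

universe u

namespace Cfsg.Agent.H35.Br

open Cfsg Cfsg.Agent.H79.Br
open scoped ComplexConjugate

section OrthAux

variable {G : Type u} [Group G] [Finite G]

theorem orth_not_center {p : ℕ} (hp : p.Prime) {x : G}
    (hc : Nat.card (Subgroup.centralizer ({x} : Set G)) = p * Nat.card (Subgroup.center G)) :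
    x ∉ Subgroup.center G := by
  intro hx
  have hC : Subgroup.centralizer ({x} : Set G) = ⊤ := by
    rw [eq_top_iff]
    intro g _
    rw [Subgroup.mem_centralizer_iff]
    intro y hy
    rw [Set.mem_singleton_iff] at hy
    subst hy
    exact (Subgroup.mem_center_iff.mp hx g).symm
  rw [hC, Subgroup.card_top] at hc
  have hidx : (Subgroup.center G).index = p := by
    have h1 := (Subgroup.center G).card_mul_index
    rw [hc] at h1
    have hpos : 0 < Nat.card (Subgroup.center G) := Nat.card_pos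
    have h2 : Nat.card (Subgroup.center G) * (Subgroup.center G).index
        = Nat.card (Subgroup.center G) * p := by rw [h1]; ring
    exact Nat.eq_of_mul_eq_mul_left hpos h2
  have hq : Nat.card (G ⧸ Subgroup.center G) = p := hidx
  have : Fact p.Prime := ⟨hp⟩
  have hcyc : IsCyclic (G ⧸ Subgroup.center G) := isCyclic_of_prime_card hq
  have hC' : IsMulCommutative G :=
    MonoidHom.isMulCommutative_of_isCyclic_of_ker_le_center
      (QuotientGroup.mk' (Subgroup.center G)) (by rw [QuotientGroup.ker_mk'])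
  have hcomm : ∀ a b : G, a * b = b * a := fun a b => hC'.is_comm.comm a b
  have htop : Subgroup.center G = ⊤ := by
    rw [eq_top_iff]
    intro g _
    rw [Subgroup.mem_center_iff]
    intro h
    exact hcomm h g
  rw [htop, Subgroup.index_top] at hidx
  exact hp.one_lt.ne hidx

theorem orth_pow_mem {p : ℕ} {x : G}
    (hc : Nat.card (Subgroup.centralizer ({x} : Set G)) = p * Nat.card (Subgroup.center G)) :
    x ^ p ∈ Subgroup.center G := by
  have hZC : Subgroup.center G ≤ Subgroup.centralizer ({x} : Set G) :=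
    Subgroup.center_le_centralizer _
  have hxC : x ∈ Subgroup.centralizer ({x} : Set G) := by
    rw [Subgroup.mem_centralizer_iff]
    intro y hy
    rw [Set.mem_singleton_iff] at hy
    rw [hy]
  have hrel : (Subgroup.center G).relIndex (Subgroup.centralizer ({x} : Set G)) = p := by
    have h1 := ((Subgroup.center G).subgroupOf (Subgroup.centralizer ({x} : Set G))).card_mul_index
    rw [Nat.card_congr (Subgroup.subgroupOfEquivOfLe hZC).toEquiv, hc] at h1
    have hpos : 0 < Nat.card (Subgroup.center G) := Nat.card_pos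
    have h2 : Nat.card (Subgroup.center G) *
        ((Subgroup.center G).subgroupOf (Subgroup.centralizer ({x} : Set G))).index
        = Nat.card (Subgroup.center G) * p := by rw [h1]; ring
    exact Nat.eq_of_mul_eq_mul_left hpos h2
  have h2 := Subgroup.pow_relIndex_mem (Subgroup.center G) hxC
  rwa [hrel] at h2

omit [Finite G] in
theorem orth_dvd_order {p : ℕ} (hp : p.Prime) {x : G} (hx : x ∉ Subgroup.center G)
    (hxp : x ^ p ∈ Subgroup.center G) {z : G} (hz : z ∈ Subgroup.center G) :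
    p ∣ orderOf (z * x) := by
  by_contra hnd
  have hcop : Nat.Coprime (orderOf (z * x)) p :=
    Nat.Coprime.symm ((Nat.Prime.coprime_iff_not_dvd hp).mpr hnd)
  have hcomm : Commute z x := (Subgroup.mem_center_iff.mp hz x).symm
  have h1 : z ^ orderOf (z * x) * x ^ orderOf (z * x) = 1 := by
    rw [← hcomm.mul_pow]
    exact pow_orderOf_eq_one _
  have hxk : x ^ orderOf (z * x) ∈ Subgroup.center G := by
    have : x ^ orderOf (z * x) = (z ^ orderOf (z * x))⁻¹ := eq_inv_of_mul_eq_one_right h1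
    rw [this]
    exact Subgroup.inv_mem _ (Subgroup.pow_mem _ hz _)
  have hb := Nat.gcd_eq_gcd_ab (orderOf (z * x)) p
  rw [Nat.Coprime.gcd_eq_one hcop] at hb
  have hx' : x = (x ^ orderOf (z * x)) ^ (Nat.gcdA (orderOf (z * x)) p) *
      (x ^ p) ^ (Nat.gcdB (orderOf (z * x)) p) := by
    rw [← zpow_natCast, ← zpow_natCast, ← zpow_mul, ← zpow_mul, ← zpow_add, ← hb]
    simp
  apply hx
  rw [hx']
  exact Subgroup.mul_mem _ (Subgroup.zpow_mem _ hxk _) (Subgroup.zpow_mem _ hxp _)

omit [Finite G] in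
theorem orth_conj_self {p : ℕ} (hp : p.Prime) {x : G}
    (hxp : x ^ p ∈ Subgroup.center G) (hzreg : ∀ z ∈ Subgroup.center G, ¬ p ∣ orderOf z)
    {z : G} (hz : z ∈ Subgroup.center G) {c : G} (hc : c * (z * x) * c⁻¹ = x) : z = 1 := by
  have hcomm : Commute z x := (Subgroup.mem_center_iff.mp hz x).symm
  have h1 : c * (z * x) ^ p * c⁻¹ = x ^ p := by
    rw [← conj_pow, hc]
  rw [hcomm.mul_pow] at h1
  have hw : z ^ p * x ^ p ∈ Subgroup.center G :=
    Subgroup.mul_mem _ (Subgroup.pow_mem _ hz p) hxp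
  have h2 : c * (z ^ p * x ^ p) * c⁻¹ = z ^ p * x ^ p := by
    rw [Subgroup.mem_center_iff.mp hw c, mul_inv_cancel_right]
  rw [h2] at h1
  have h3 : z ^ p = 1 := by simpa using h1
  have h4 : orderOf z ∣ p := orderOf_dvd_of_pow_eq_one h3
  rcases (Nat.dvd_prime hp).mp h4 with h5 | h5
  · exact orderOf_eq_one_iff.mp h5
  · exact absurd (h5 ▸ dvd_rfl) (hzreg z hz)

theorem orth_P_conj {P : Subgroup G} {f : ℕ} {x₁ x₂ : G}
    (horb : ∀ F : G → ℂ, IsClassFunction G F →
      ∑ᶠ x : P, F x = F 1 + (f : ℂ) * F x₁ + (f : ℂ) * F x₂)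
    {w : G} (hw : w ∈ P) (hw1 : w ≠ 1) : IsConj w x₁ ∨ IsConj w x₂ := by
  classical
  by_contra hcon0
  have hcon := not_or.mp hcon0
  let F' : G → ℕ := fun g => if (g = 1 ∨ IsConj g x₁ ∨ IsConj g x₂) then 0 else 1
  have hcl : IsClassFunction G (fun g => (F' g : ℂ)) := by
    intro g h
    have e1 : h * g * h⁻¹ = 1 ↔ g = 1 := by
      constructor
      · intro hh
        have : g = h⁻¹ * (h * g * h⁻¹) * h := by group
        rw [this, hh]
        group
      · rintro rfl
        group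
    have e2 : ∀ x, IsConj (h * g * h⁻¹) x ↔ IsConj g x := by
      intro x
      have hc : IsConj g (h * g * h⁻¹) := isConj_iff.mpr ⟨h, rfl⟩
      exact ⟨fun hh => hc.trans hh, fun hh => hc.symm.trans hh⟩
    simp only [F', e1, e2]
  have h0 := horb _ hcl
  have hF1 : F' 1 = 0 := if_pos (Or.inl rfl)
  have hFx1 : F' x₁ = 0 := if_pos (Or.inr (Or.inl (IsConj.refl x₁)))
  have hFx2 : F' x₂ = 0 := if_pos (Or.inr (Or.inr (IsConj.refl x₂)))
  simp only [hF1, hFx1, hFx2, Nat.cast_zero, mul_zero, add_zero] at h0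
  have : Fintype P := Fintype.ofFinite P
  rw [finsum_eq_sum_of_fintype] at h0
  have h1 : ∑ x : P, F' x = 0 := by exact_mod_cast h0
  have h2 := (Finset.sum_eq_zero_iff.mp h1) ⟨w, hw⟩ (Finset.mem_univ _)
  have h3 : F' w = 1 := if_neg (by
    rintro (h | h | h)
    · exact hw1 h
    · exact hcon.1 h
    · exact hcon.2 h)
  rw [h3] at h2
  exact one_ne_zero h2

omit [Finite G] in
theorem orth_pow_one {p : ℕ} {P : Subgroup G} {x₁ x₂ x : G}
    (hconj : ∀ w ∈ P, w ≠ 1 → IsConj w x₁ ∨ IsConj w x₂)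
    (h1 : x₁ ∉ Subgroup.center G) (h2 : x₂ ∉ Subgroup.center G)
    (hx : x ∈ P) (hxp : x ^ p ∈ Subgroup.center G) : x ^ p = 1 := by
  by_contra hne
  have key : ∀ y, IsConj (x ^ p) y → y ∈ Subgroup.center G := by
    intro y hy
    obtain ⟨c, hc⟩ := isConj_iff.mp hy
    rw [← hc, Subgroup.mem_center_iff.mp hxp c, mul_inv_cancel_right]
    exact hxp
  rcases hconj _ (Subgroup.pow_mem _ hx p) hne with h | h
  · exact h1 (key _ h)
  · exact h2 (key _ h)

omit [Finite G] in
theorem orth_not_conj {p : ℕ} (hp : p.Prime) {x₁ x₂ : G}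
    (h1 : x₁ ^ p = 1) (h2 : x₂ ^ p = 1) (hzreg : ∀ z ∈ Subgroup.center G, ¬ p ∣ orderOf z)
    (hn : ¬ IsConj x₁ x₂) {z : G} (hz : z ∈ Subgroup.center G) (c : G) :
    c * (z * x₁) * c⁻¹ ≠ x₂ := by
  intro hc
  have hcomm : Commute z x₁ := (Subgroup.mem_center_iff.mp hz x₁).symm
  have hcop : Nat.Coprime (orderOf z) p :=
    Nat.Coprime.symm ((Nat.Prime.coprime_iff_not_dvd hp).mpr (hzreg z hz))
  obtain ⟨m', -, hm'⟩ := Nat.exists_mul_mod_eq_one_of_coprime hcop hp.one_lt
  have e1 : c * (z * x₁) ^ (orderOf z * m') * c⁻¹ = x₂ ^ (orderOf z * m') := by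
    rw [← conj_pow, hc]
  have e2 : (z * x₁) ^ (orderOf z * m') = x₁ := by
    rw [hcomm.mul_pow, pow_mul z, pow_orderOf_eq_one, one_pow, one_mul, pow_eq_pow_mod _ h1, hm',
      pow_one]
  have e3 : x₂ ^ (orderOf z * m') = x₂ := by
    rw [pow_eq_pow_mod _ h2, hm', pow_one]
  rw [e2, e3] at e1
  exact hn (isConj_iff.mpr ⟨c, e1⟩)

theorem orth_zero (hT : StTwOrth.{u}) (χ₀ : IrrCharacter G) (g h : G)
    (hne : ∀ z ∈ Subgroup.center G, ∀ c : G, c * (z * g) * c⁻¹ ≠ h) :
    ∑ᶠ ψ ∈ Ov χ₀.1, ψ.1 g * conj (ψ.1 h) = 0 := by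
  have h1 := hT χ₀ g h
  have h2 : ∑ᶠ z : Subgroup.center G, conj (χ₀.1 z / χ₀.1 1) *
        (Nat.card {c : G // c * ((z : G) * g) * c⁻¹ = h} : ℂ) = 0 := by
    apply finsum_eq_zero_of_forall_eq_zero
    intro z
    have : IsEmpty {c : G // c * ((z : G) * g) * c⁻¹ = h} := by
      rw [isEmpty_subtype]
      exact hne z z.2
    rw [Nat.card_of_isEmpty]
    simp
  rw [h2] at h1
  have hZ : (Nat.card (Subgroup.center G) : ℂ) ≠ 0 := by
    exact_mod_cast (Nat.card_pos (α := Subgroup.center G)).ne'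
  exact (mul_eq_zero.mp h1).resolve_left hZ

theorem orth_p (hT : StTwOrth.{u}) (χ₀ : IrrCharacter G) (x : G) (p : ℕ)
    (hone : ∀ z ∈ Subgroup.center G, ∀ c : G, c * (z * x) * c⁻¹ = x → z = 1)
    (hcard : Nat.card (Subgroup.centralizer ({x} : Set G)) =
      p * Nat.card (Subgroup.center G)) :
    ∑ᶠ ψ ∈ Ov χ₀.1, ψ.1 x * conj (ψ.1 x) = (p : ℂ) := by
  have h1 := hT χ₀ x x
  have h2 : ∑ᶠ z : Subgroup.center G, conj (χ₀.1 z / χ₀.1 1) *
        (Nat.card {c : G // c * ((z : G) * x) * c⁻¹ = x} : ℂ) =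
        (p : ℂ) * (Nat.card (Subgroup.center G) : ℂ) := by
    rw [finsum_eq_single _ (1 : Subgroup.center G)]
    · have hne : χ₀.1 1 ≠ 0 := Cfsg.Agent.H82.irr_one_ne_zero χ₀
      have hcard' : Nat.card {c : G // c * (((1 : Subgroup.center G) : G) * x) * c⁻¹ = x} =
          Nat.card (Subgroup.centralizer ({x} : Set G)) := by
        apply Nat.card_congr
        apply Equiv.subtypeEquivRight
        intro c
        rw [Subgroup.mem_centralizer_iff]
        simp only [Subgroup.coe_one, one_mul, Set.mem_singleton_iff, forall_eq]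
        rw [mul_inv_eq_iff_eq_mul]
        exact eq_comm
      rw [hcard', hcard]
      simp [hne]
    · intro z hz
      have : IsEmpty {c : G // c * ((z : G) * x) * c⁻¹ = x} := by
        rw [isEmpty_subtype]
        intro c hc
        apply hz
        exact Subtype.ext (hone z z.2 c hc)
      rw [Nat.card_of_isEmpty]
      simp
  rw [h2] at h1
  have hZ : (Nat.card (Subgroup.center G) : ℂ) ≠ 0 := by
    exact_mod_cast (Nat.card_pos (α := Subgroup.center G)).ne'
  have h3 : (Nat.card (Subgroup.center G) : ℂ) * (∑ᶠ ψ ∈ Ov χ₀.1, ψ.1 x * conj (ψ.1 x)) =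
      (Nat.card (Subgroup.center G) : ℂ) * (p : ℂ) := by
    rw [h1]
    ring
  exact mul_left_cancel₀ hZ h3

end OrthAux

theorem orth (hT : StTwOrth.{u}) : StOrth.{u} := by
  intro G _ _ p hpf P f x₁ x₂ hL χ₀
  have hp : p.Prime := hpf.out
  have hx1Z := orth_not_center hp hL.cent₁
  have hx2Z := orth_not_center hp hL.cent₂
  have hx1p := orth_pow_mem hL.cent₁
  have hx2p := orth_pow_mem hL.cent₂
  have hconj : ∀ w ∈ P, w ≠ 1 → IsConj w x₁ ∨ IsConj w x₂ :=
    fun w hw hw1 => orth_P_conj hL.orb hw hw1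
  have h1p : x₁ ^ p = 1 := orth_pow_one hconj hx1Z hx2Z hL.mem₁ hx1p
  have h2p : x₂ ^ p = 1 := orth_pow_one hconj hx1Z hx2Z hL.mem₂ hx2p
  refine ⟨?_, ?_, ?_, ?_⟩
  · exact orth_p hT χ₀ x₁ p (fun z hz c hc => orth_conj_self hp hx1p hL.zreg hz hc) hL.cent₁
  · exact orth_p hT χ₀ x₂ p (fun z hz c hc => orth_conj_self hp hx2p hL.zreg hz hc) hL.cent₂
  · exact orth_zero hT χ₀ x₁ x₂
      (fun z hz c => orth_not_conj hp h1p h2p hL.zreg hL.nconj hz c)
  · intro y hy
    constructor
    · apply orth_zero hT χ₀ x₁ y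
      intro z hz c hc
      apply hy
      rw [← hc, ← MulAut.conj_apply, MulEquiv.orderOf_eq]
      exact orth_dvd_order hp hx1Z hx1p hz
    · apply orth_zero hT χ₀ x₂ y
      intro z hz c hc
      apply hy
      rw [← hc, ← MulAut.conj_apply, MulEquiv.orderOf_eq]
      exact orth_dvd_order hp hx2Z hx2p hz

end Cfsg.Agent.H35.Br

namespace Cfsg.Agent.H35.BrOrthCheck

open Cfsg Cfsg.Agent.H79.Br

example (hT : StTwOrth.{u}) : StOrth.{u} := Cfsg.Agent.H35.Br.orth hT

end Cfsg.Agent.H35.BrOrthCheck
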