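import Mathlib
import Cfsg.Agent.H45.D4Defs

set_option autoImplicit false

/-!
# Piece P-KER of S1082 (helper35, for helper45)

The kernel of `rho` on isometries is `{1, -1}`, `rho (-1) = 1`, and a matrix commuting with all
root elements `gmat r 1` is scalar.
-/

open Matrix Cfsg.Agent.H49 Cfsg.Agent.H45.D4

namespace Cfsg.Agent.H35.D4

/-! ### Table facts -/

/-- The index with a given position. -/
def ofPos (n : ℕ) : I8 :=
  if n < 4 then Sum.inl (Fin.ofNat 4 n) else Sum.inr (Fin.ofNat 4 (n - 4))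

/-- First index of the pair of the root `r`. -/
def pA (r : Fin 24) : I8 := ofPos (pairTab r).1

/-- Second index of the pair of the root `r`. -/
def pB (r : Fin 24) : I8 := ofPos (pairTab r).2

theorem sgn_cases : ∀ r : Fin 24, sgnTab r = 1 ∨ sgnTab r = -1 := by decide

set_option maxRecDepth 100000 in
theorem Mtab_eq : ∀ (x y : I8) (r : Fin 24), Mtab (Sum.inr r) x y =
    sgnTab r * ((if pA r = x ∧ pB r = y then 1 else 0) - (if pB r = x ∧ pA r = y then 1 else 0)) := by
  decide

set_option maxRecDepth 100000 in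
theorem Ntab_eq : ∀ (x y : I8) (r : Fin 24), Ntab r x y =
    sgnTab r * ((if pA r = x ∧ (pB r).swap = y then 1 else 0)
      - (if pB r = x ∧ (pA r).swap = y then 1 else 0)) := by
  decide

set_option maxRecDepth 100000 in
theorem cover : ∀ x y : I8, x ≠ y → y ≠ x.swap →
    ∃ r : Fin 24, (pA r = x ∧ pB r = y) ∨ (pA r = y ∧ pB r = x) := by
  decide

theorem exists_third : ∀ x z : I8, ∃ y : I8, y ≠ x ∧ y ≠ x.swap ∧ y ≠ z ∧ y ≠ z.swap := by
  decide

theorem swap_inj' : ∀ x y : I8, x.swap = y.swap → x = y := by decide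

set_option maxRecDepth 1000000 in
set_option maxHeartbeats 4000000 in
theorem table : ∀ row col : Idx, c0 col * cc row + Matrix.trace ((Xtab col)ᵀ * Mtab row) =
    if row = col then 1 else 0 := by
  decide

variable {F : Type*} [Field F]

theorem trace_cast (X M : Matrix I8 I8 ℤ) :
    Matrix.trace ((X.map (Int.cast : ℤ → F))ᵀ * M.map (Int.cast : ℤ → F))
      = ((Matrix.trace (Xᵀ * M) : ℤ) : F) := by
  simp only [Matrix.trace, Matrix.diag_apply, Matrix.mul_apply, Matrix.transpose_apply,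
    Matrix.map_apply]
  push_cast
  rfl

theorem sgn_mul_self (r : Fin 24) : ((sgnTab r : ℤ) : F) * ((sgnTab r : ℤ) : F) = 1 := by
  rcases sgn_cases r with h | h <;> rw [h] <;> simp

theorem sgn_ne_zero (r : Fin 24) : ((sgnTab r : ℤ) : F) ≠ 0 := by
  intro h
  have h1 := sgn_mul_self (F := F) r
  rw [h, mul_zero] at h1
  exact zero_ne_one h1

/-- The antisymmetric unit matrix. -/
def W (A B : I8) : Matrix I8 I8 F := Matrix.single A B 1 - Matrix.single B A 1

theorem Mtab_cast (r : Fin 24) :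
    (Mtab (Sum.inr r)).map (Int.cast : ℤ → F) = ((sgnTab r : ℤ) : F) • W (pA r) (pB r) := by
  ext x y
  simp only [Matrix.map_apply, Mtab_eq, W, Matrix.smul_apply, Matrix.sub_apply,
    Matrix.single_apply, smul_eq_mul]
  push_cast
  rfl

theorem Ntab_cast (r : Fin 24) :
    (Ntab r).map (Int.cast : ℤ → F) = ((sgnTab r : ℤ) : F) •
      (Matrix.single (pA r) (pB r).swap (1 : F) - Matrix.single (pB r) (pA r).swap 1) := by
  ext x y
  simp only [Matrix.map_apply, Ntab_eq, Matrix.smul_apply, Matrix.sub_apply,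
    Matrix.single_apply, smul_eq_mul]
  push_cast
  rfl

theorem W_dot (A B : I8) (w : I8 → F) : w ⬝ᵥ W A B *ᵥ w = 0 := by
  simp only [W, Matrix.sub_mulVec, Matrix.single_mulVec_eq, dotProduct_sub, dotProduct_smul,
    dotProduct_single, one_mul, mul_one, smul_eq_mul]
  ring

theorem W_mulVec_zero (A B : I8) (w : I8 → F) (hA : w A = 0) (hB : w B = 0) :
    W A B *ᵥ w = 0 := by
  simp [W, Matrix.sub_mulVec, Matrix.single_mulVec_eq, hA, hB]

theorem mul_single_one_apply (z : Matrix I8 I8 F) (p q i j : I8) :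
    (z * Matrix.single p q (1 : F)) i j = if j = q then z i p else 0 := by
  split_ifs with h
  · subst h
    simp
  · rw [Matrix.mul_single_apply_of_ne (1 : F) p q i j h z]

theorem single_one_mul_apply (z : Matrix I8 I8 F) (p q i j : I8) :
    (Matrix.single p q (1 : F) * z) i j = if i = p then z q j else 0 := by
  split_ifs with h
  · subst h
    simp
  · rw [Matrix.single_mul_apply_of_ne (1 : F) p q i j h z]

theorem conj_W_apply (g : Matrix I8 I8 F) (A B i j : I8) :
    (gᵀ * (W A B : Matrix I8 I8 F) * g) i j = g A i * g B j - g B i * g A j := by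
  have key : ∀ (A B : I8), (gᵀ * Matrix.single A B (1 : F) * g) i j = g A i * g B j := by
    intro A B
    rw [Matrix.mul_apply, Finset.sum_eq_single B]
    · rw [mul_single_one_apply, if_pos rfl, Matrix.transpose_apply]
    · intro k _ hk
      rw [mul_single_one_apply, if_neg hk, zero_mul]
    · intro hB
      exact absurd (Finset.mem_univ B) hB
  unfold W
  rw [Matrix.mul_sub, Matrix.sub_mul, Matrix.sub_apply, key, key]

theorem Bmat_mulVec (v : I8 → F) (x : I8) : (Bmat F *ᵥ v) x = v x.swap := by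
  rcases x with i | i <;> simp [Bmat, Matrix.fromBlocks_mulVec]

/-- Key step: an isometry in the kernel of `rho` preserves the antisymmetric units. -/
theorem conj_W_eq (hK : KerPair F) (g : Matrix I8 I8 F)
    (hg : ∀ v : I8 → F, Cfsg.quadFormPlus 4 F (g *ᵥ v) = Cfsg.quadFormPlus 4 F v)
    (h : rho F g = 1) (r : Fin 24) :
    gᵀ * W (pA r) (pB r) * g = W (pA r) (pB r) := by
  have _ := hg
  obtain ⟨Mc, hMc⟩ : ∃ Mc : Matrix I8 I8 F, Mc = (Mtab (Sum.inr r)).map (Int.cast : ℤ → F) :=
    ⟨_, rfl⟩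
  have hMW : Mc = ((sgnTab r : ℤ) : F) • W (pA r) (pB r) := by rw [hMc, Mtab_cast]
  have hdot : ∀ w : I8 → F, w ⬝ᵥ Mc *ᵥ w = 0 := by
    intro w
    rw [hMW, Matrix.smul_mulVec, dotProduct_smul, W_dot, smul_zero]
  have hyp1 : ∀ v : I8 → F, v ⬝ᵥ (gᵀ * Mc * g - Mc) *ᵥ v = 0 * Cfsg.quadFormPlus 4 F v := by
    intro v
    rw [zero_mul, Matrix.sub_mulVec, dotProduct_sub, ← Matrix.mulVec_mulVec,
      ← Matrix.mulVec_mulVec, Matrix.dotProduct_mulVec v gᵀ, Matrix.vecMul_transpose, hdot, hdot,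
      sub_zero]
  have hyp2 : ∀ col : Idx, ((c0 col : ℤ) : F) * 0
      + Matrix.trace (((Xtab col).map (Int.cast : ℤ → F))ᵀ * (gᵀ * Mc * g - Mc)) = 0 := by
    intro col
    have h1 := congrFun (congrFun h (Sum.inr r)) col
    simp only [rho, Matrix.of_apply] at h1
    have hcc : cc (Sum.inr r) = 0 := rfl
    rw [hcc, mul_zero, Int.cast_zero, zero_add, ← hMc, Matrix.mul_assoc, Matrix.mul_assoc,
      ← Matrix.mul_assoc gᵀ] at h1
    have h2 := table (Sum.inr r) col
    rw [hcc, mul_zero, zero_add] at h2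
    have h3 : Matrix.trace (((Xtab col).map (Int.cast : ℤ → F))ᵀ * Mc)
        = (1 : Matrix Idx Idx F) (Sum.inr r) col := by
      rw [hMc, trace_cast, h2, Matrix.one_apply]
      split_ifs <;> simp
    rw [mul_zero, zero_add, Matrix.mul_sub, Matrix.trace_sub, h1, h3, sub_self]
  obtain ⟨μ, hμ, -⟩ := hK 0 _ hyp1 hyp2
  -- a nonzero vector killed by the four coordinate functionals
  let L : (I8 → F) →ₗ[F] (Fin 4 → F) :=
    LinearMap.pi ![LinearMap.proj (pA r), LinearMap.proj (pB r),
      (LinearMap.proj (pA r)).comp (Matrix.mulVecLin g),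
      (LinearMap.proj (pB r)).comp (Matrix.mulVecLin g)]
  have hker : LinearMap.ker L ≠ ⊥ := by
    apply LinearMap.ker_ne_bot_of_finrank_lt
    simp
  obtain ⟨v, hv, hv0⟩ := (Submodule.ne_bot_iff _).1 hker
  have hLv : L v = 0 := hv
  have hvA : v (pA r) = 0 := congrFun hLv 0
  have hvB : v (pB r) = 0 := congrFun hLv 1
  have hgvA : (g *ᵥ v) (pA r) = 0 := congrFun hLv 2
  have hgvB : (g *ᵥ v) (pB r) = 0 := congrFun hLv 3
  have hMcz : ∀ w : I8 → F, w (pA r) = 0 → w (pB r) = 0 → Mc *ᵥ w = 0 := by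
    intro w hA hB
    rw [hMW, Matrix.smul_mulVec, W_mulVec_zero _ _ _ hA hB, smul_zero]
  have hRv : (gᵀ * Mc * g - Mc) *ᵥ v = 0 := by
    rw [Matrix.sub_mulVec, ← Matrix.mulVec_mulVec, ← Matrix.mulVec_mulVec, hMcz _ hgvA hgvB,
      hMcz _ hvA hvB, Matrix.mulVec_zero, sub_zero]
  have hμ0 : μ = 0 := by
    by_contra hne
    rw [hμ, Matrix.smul_mulVec] at hRv
    have hBv : Bmat F *ᵥ v = 0 := by
      rcases smul_eq_zero.1 hRv with h1 | h1
      · exact absurd h1 hne
      · exact h1
    apply hv0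
    funext x
    have h1 := congrFun hBv x.swap
    rw [Bmat_mulVec, Sum.swap_swap] at h1
    exact h1
  rw [hμ0, zero_smul, sub_eq_zero, hMW, Matrix.mul_smul, Matrix.smul_mul] at hμ
  have h4 := congrArg (fun X : Matrix I8 I8 F => ((sgnTab r : ℤ) : F) • X) hμ
  simp only [smul_smul, sgn_mul_self, one_smul] at h4
  exact h4

/-- The `2 × 2` minors condition forces `g = ± 1`. -/
theorem eq_one_or_neg_one_of_minors (g : Matrix I8 I8 F)
    (P : ∀ x y : I8, x ≠ y → y ≠ x.swap → ∀ i j : I8,
      g x i * g y j - g y i * g x j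
        = (if x = i ∧ y = j then 1 else 0) - (if y = i ∧ x = j then 1 else 0)) :
    g = 1 ∨ g = -1 := by
  have hoff : ∀ x i : I8, i ≠ x → g x i = 0 := by
    intro x i hix
    obtain ⟨y, hyx, hyx', hyi, -⟩ := exists_third x i
    have h3 := P x y hyx.symm hyx' x y
    have h2 := P x y hyx.symm hyx' i y
    have h1 := P x y hyx.symm hyx' i x
    rw [if_pos ⟨rfl, rfl⟩, if_neg (fun h => hyx h.1)] at h3
    rw [if_neg (fun h => hix h.1.symm), if_neg (fun h => hyi h.1)] at h2
    rw [if_neg (fun h => hix h.1.symm), if_neg (fun h => hyi h.1)] at h1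
    linear_combination (-(g x i)) * h3 + (g x x) * h2 - (g x y) * h1
  have hdiag : ∀ x y : I8, x ≠ y → y ≠ x.swap → g x x * g y y = 1 := by
    intro x y hxy hyx'
    have h3 := P x y hxy hyx' x y
    rw [if_pos ⟨rfl, rfl⟩, if_neg (fun h => hxy h.1.symm), hoff y x hxy] at h3
    linear_combination h3
  have heq : ∀ x z : I8, x ≠ z → z ≠ x.swap → g x x = g z z := by
    intro x z _ _
    obtain ⟨y, hyx, hyx', hyz, hyz'⟩ := exists_third x z
    have h1 := hdiag x y hyx.symm hyx'
    have h2 := hdiag z y hyz.symm hyz'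
    linear_combination (g z z) * h1 - (g x x) * h2
  have hall : ∀ x : I8, g x x = g (Sum.inl 0) (Sum.inl 0) := by
    intro x
    obtain ⟨y, hyx, hyx', hy0, hy0'⟩ := exists_third x (Sum.inl 0)
    rw [heq x y hyx.symm hyx', heq (Sum.inl 0) y hy0.symm hy0']
  have hsq : g (Sum.inl 0) (Sum.inl 0) * g (Sum.inl 0) (Sum.inl 0) = 1 := by
    have h := hdiag (Sum.inl 0) (Sum.inl 1) (by decide) (by decide)
    rw [hall (Sum.inl 1)] at h
    exact h
  rcases mul_self_eq_one_iff.1 hsq with h1 | h1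
  · left
    ext i j
    by_cases hij : i = j
    · subst hij
      rw [hall i, h1, Matrix.one_apply_eq]
    · rw [hoff i j (Ne.symm hij), Matrix.one_apply_ne hij]
  · right
    ext i j
    by_cases hij : i = j
    · subst hij
      rw [hall i, h1]
      simp
    · rw [hoff i j (Ne.symm hij)]
      simp [hij]

theorem rho_eq_one (hK : KerPair F) (g : Matrix I8 I8 F)
    (hg : ∀ v : I8 → F, Cfsg.quadFormPlus 4 F (g *ᵥ v) = Cfsg.quadFormPlus 4 F v)
    (h : rho F g = 1) : g = 1 ∨ g = -1 := by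
  apply eq_one_or_neg_one_of_minors
  intro x y hxy hyx' i j
  obtain ⟨r, ⟨hA, hB⟩ | ⟨hA, hB⟩⟩ := cover x y hxy hyx'
  · have h1 := congrFun (congrFun (conj_W_eq hK g hg h r) i) j
    rw [conj_W_apply, hA, hB] at h1
    unfold W at h1
    rw [Matrix.sub_apply, Matrix.single_apply, Matrix.single_apply] at h1
    exact h1
  · have h1 := congrFun (congrFun (conj_W_eq hK g hg h r) i) j
    rw [conj_W_apply, hA, hB] at h1
    unfold W at h1
    rw [Matrix.sub_apply, Matrix.single_apply, Matrix.single_apply] at h1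
    linear_combination (-1 : F) * h1

theorem rho_neg_one : rho F (-1 : Matrix I8 I8 F) = 1 := by
  ext row col
  simp only [rho, Matrix.of_apply]
  have h1 : ((Xtab col).map (Int.cast : ℤ → F))ᵀ * (-1 : Matrix I8 I8 F)ᵀ
      * (Mtab row).map (Int.cast : ℤ → F) * (-1)
      = ((Xtab col).map (Int.cast : ℤ → F))ᵀ * (Mtab row).map (Int.cast : ℤ → F) := by
    rw [Matrix.transpose_neg, Matrix.transpose_one]
    simp
  rw [h1, trace_cast, ← Int.cast_add, table, Matrix.one_apply]
  split_ifs <;> simp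

theorem scalar_of_commute (z : Matrix I8 I8 F)
    (hz : ∀ r : Fin 24, z * gmat F r 1 = gmat F r 1 * z) :
    ∃ c : F, z = c • (1 : Matrix I8 I8 F) := by
  -- the commutation relation for a pair
  have Q : ∀ x y : I8, x ≠ y → y ≠ x.swap → ∀ i j : I8,
      (if j = y.swap then z i x else 0) - (if j = x.swap then z i y else 0)
        = (if i = x then z y.swap j else 0) - (if i = y then z x.swap j else 0) := by
    intro x y hxy hyx' i j
    have hr : ∀ r : Fin 24,
        (if j = (pB r).swap then z i (pA r) else 0) - (if j = (pA r).swap then z i (pB r) else 0)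
        = (if i = pA r then z (pB r).swap j else 0) - (if i = pB r then z (pA r).swap j else 0) := by
      intro r
      have h1 := hz r
      rw [gmat, one_smul, Ntab_cast, Matrix.mul_add, Matrix.add_mul, Matrix.mul_one,
        Matrix.one_mul, add_right_inj, Matrix.mul_smul, Matrix.smul_mul] at h1
      have h2 := congrArg (fun X : Matrix I8 I8 F => ((sgnTab r : ℤ) : F) • X) h1
      simp only [smul_smul, sgn_mul_self, one_smul] at h2
      have h3 := congrFun (congrFun h2 i) j
      rw [Matrix.mul_sub, Matrix.sub_mul, Matrix.sub_apply, Matrix.sub_apply,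
        mul_single_one_apply, mul_single_one_apply, single_one_mul_apply,
        single_one_mul_apply] at h3
      exact h3
    obtain ⟨r, ⟨hA, hB⟩ | ⟨hA, hB⟩⟩ := cover x y hxy hyx'
    · have h1 := hr r
      rw [hA, hB] at h1
      exact h1
    · have h1 := hr r
      rw [hA, hB] at h1
      linear_combination (-1 : F) * h1
  have hoff : ∀ x i : I8, i ≠ x → z i x = 0 := by
    intro x i hix
    obtain ⟨y, hyx, hyx', hyi, -⟩ := exists_third x i
    have h1 := Q x y hyx.symm hyx' i y.swap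
    rw [if_pos rfl, if_neg (fun h => hyx (swap_inj' _ _ h)), if_neg hix, if_neg hyi.symm] at h1
    linear_combination h1
  have hdiag : ∀ x w : I8, x ≠ w → w ≠ x.swap → z x x = z w w := by
    intro x w hxw hwx'
    have hxy : x ≠ w.swap := by
      intro h
      apply hwx'
      rw [h, Sum.swap_swap]
    have hyx' : w.swap ≠ x.swap := fun h => hxw (swap_inj' _ _ h).symm
    have h1 := Q x w.swap hxy hyx' x w
    rw [Sum.swap_swap, if_pos rfl, if_neg hwx', if_pos rfl, if_neg hxy] at h1
    linear_combination h1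
  have hall : ∀ x : I8, z x x = z (Sum.inl 0) (Sum.inl 0) := by
    intro x
    obtain ⟨y, hyx, hyx', hy0, hy0'⟩ := exists_third x (Sum.inl 0)
    rw [hdiag x y hyx.symm hyx', hdiag (Sum.inl 0) y hy0.symm hy0']
  refine ⟨z (Sum.inl 0) (Sum.inl 0), ?_⟩
  ext i j
  by_cases hij : i = j
  · subst hij
    rw [hall i]
    simp
  · rw [hoff j i hij]
    simp [hij]

end Cfsg.Agent.H35.D4

namespace Cfsg.Agent.H35.D4KerCheck

open Matrix Cfsg.Agent.H49 Cfsg.Agent.H45.D4

variable {F : Type*} [Field F]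

example (hK : KerPair F) (g : Matrix I8 I8 F)
    (hg : ∀ v : I8 → F, Cfsg.quadFormPlus 4 F (g *ᵥ v) = Cfsg.quadFormPlus 4 F v)
    (h : rho F g = 1) : g = 1 ∨ g = -1 := Cfsg.Agent.H35.D4.rho_eq_one hK g hg h

example : rho F (-1 : Matrix I8 I8 F) = 1 := Cfsg.Agent.H35.D4.rho_neg_one

example (z : Matrix I8 I8 F) (hz : ∀ r : Fin 24, z * gmat F r 1 = gmat F r 1 * z) :
    ∃ c : F, z = c • (1 : Matrix I8 I8 F) := Cfsg.Agent.H35.D4.scalar_of_commute z hz

end Cfsg.Agent.H35.D4KerCheck
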