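import Mathlib
import Cfsg.Agent.H81.DihBDefs

set_option autoImplicit false

/-!
# Piece FOUR of S4481 (helper35, for helper81)

The Fourier sums `∑ k < m, v k * ζ ^ (k * l)` of the four row shapes.
-/

namespace Cfsg.Agent.H35.DihB

theorem four : Cfsg.Agent.H81.DihB.StmtFour := by
  intro m h ζ hm hh hζ v hv0 l hl0 hlm
  have hm0 : 0 < m := by omega
  have hx1 : ζ ^ l ≠ 1 := hζ.pow_ne_one_of_pos_of_lt hl0.ne' hlm
  have hxm : (ζ ^ l) ^ m = 1 := by
    rw [← pow_mul, mul_comm, pow_mul, hζ.pow_eq_one, one_pow]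
  have hgeom : ∑ k ∈ Finset.range m, (ζ ^ l) ^ k = 0 := by
    have h1 := geom_sum_mul (ζ ^ l) m
    rw [hxm, sub_self] at h1
    rcases mul_eq_zero.1 h1 with h2 | h2
    · exact h2
    · exact absurd (sub_eq_zero.1 h2) hx1
  have hpow : ∀ k : ℕ, ζ ^ (k * l) = (ζ ^ l) ^ k := fun k => by rw [← pow_mul, mul_comm]
  have hζh : ζ ^ h = -1 := by
    have h2 : IsPrimitiveRoot (ζ ^ h) 2 := hζ.pow hm0 (by rw [hm, mul_comm])
    exact h2.eq_neg_one_of_two_right
  refine ⟨?_, ?_, ?_, ?_⟩
  · intro δ hv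
    have h1 : ∀ k ∈ Finset.range m, (v k : ℂ) * ζ ^ (k * l)
        = ((v k : ℂ) + δ) * ζ ^ (k * l) - δ * (ζ ^ l) ^ k := by
      intro k _
      rw [hpow]
      ring
    rw [Finset.sum_congr rfl h1, Finset.sum_sub_distrib, ← Finset.mul_sum, hgeom, mul_zero,
      sub_zero, Finset.sum_eq_single 0]
    · simp [hv0]
    · intro k hk hk0
      rw [hv k (Nat.pos_of_ne_zero hk0) (Finset.mem_range.1 hk)]
      push_cast
      ring
    · intro h0
      exact absurd (Finset.mem_range.2 hm0) h0
  · intro ε hv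
    rw [Finset.sum_eq_single h]
    · rw [hv h (by omega) (by omega), if_pos rfl, pow_mul, hζh, pow_succ]
      ring
    · intro k hk hkh
      by_cases hk0 : k = 0
      · subst hk0
        simp [hv0]
      · rw [hv k (Nat.pos_of_ne_zero hk0) (Finset.mem_range.1 hk), if_neg hkh]
        simp
    · intro hn
      exact absurd (Finset.mem_range.2 (by omega)) hn
  · intro δ t ht hv
    rw [Finset.sum_eq_add (t + 1) (m - (t + 1)) (by omega)]
    · rw [hv (t + 1) (by omega) (by omega), if_pos (Or.inl rfl),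
        hv (m - (t + 1)) (by omega) (by omega), if_pos (Or.inr (by omega))]
      have hinv : ζ ^ ((m - (t + 1)) * l) = (ζ ^ ((t + 1) * l))⁻¹ := by
        apply eq_inv_of_mul_eq_one_left
        rw [← pow_add, ← add_mul, Nat.sub_add_cancel (by omega), pow_mul, hζ.pow_eq_one, one_pow]
      rw [hinv]
      ring
    · rintro k hk ⟨hk1, hk2⟩
      by_cases hk0 : k = 0
      · subst hk0
        simp [hv0]
      · have hkm := Finset.mem_range.1 hk
        rw [hv k (Nat.pos_of_ne_zero hk0) hkm, if_neg (by omega)]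
        simp
    · intro hn
      exact absurd (Finset.mem_range.2 (by omega)) hn
    · intro hn
      exact absurd (Finset.mem_range.2 (by omega)) hn
  · intro hv
    apply Finset.sum_eq_zero
    intro k hk
    by_cases hk0 : k = 0
    · subst hk0
      simp [hv0]
    · rw [hv k (Nat.pos_of_ne_zero hk0) (Finset.mem_range.1 hk)]
      simp

end Cfsg.Agent.H35.DihB

namespace Cfsg.Agent.H35.DihBFourCheck

example : Cfsg.Agent.H81.DihB.StmtFour := Cfsg.Agent.H35.DihB.four

end Cfsg.Agent.H35.DihBFourCheck
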