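import Cfsg.Agent.H35.TCMain
import Cfsg.Prelude.Def_Spor_Fi24

/-!
# The presentation of Fi24 as word lists (helper35; generated)
-/

set_option autoImplicit false
set_option linter.unusedSimpArgs false
set_option maxRecDepth 100000

namespace Cfsg.Agent.H35

open Cfsg.Spor

noncomputable def fi24_gi : Fi24.Gen → ℕ := fun x => Fi24.Gen.rec (motive := fun _ => ℕ) 0 1 2 3 4 5 6 7 8 9 10 11 x
def fi24_gens : List Fi24.Gen := [.l, .k, .a, .b, .c, .d, .e, .f, .g, .j, .h, .i]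
def fi24_xs : List (List Fi24.Gen × List Fi24.Gen) := [([.l, .h, .f, .e, .d, .c, .b, .a, .h, .f, .e, .d, .c, .b, .a, .h, .f, .e, .d, .c, .b, .a, .h, .f, .e, .d, .c, .b, .a, .h, .f, .e], [.a, .b, .c, .d, .e, .f, .h, .a, .b, .c, .d, .e, .f, .h, .a, .b, .c, .d, .e, .f, .h, .a, .b, .c, .d, .e, .f, .h, .a, .b, .c, .d])]
def fi24_prels : List (List Fi24.Gen × ℕ × ℕ) := [
  ([.d, .c, .b, .a, .k, .l, .d, .e, .f, .g, .j, .d, .h, .i], 17, 14)]
def fi24_rws : List (List Fi24.Gen × List Fi24.Gen) := [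
  ([.l], [.l]),
  ([.l, .k, .l], [.k, .l, .k]),
  ([.l, .a], [.a, .l]),
  ([.l, .b], [.b, .l]),
  ([.l, .c], [.c, .l]),
  ([.l, .d], [.d, .l]),
  ([.l, .e], [.e, .l]),
  ([.l, .f], [.f, .l]),
  ([.l, .g], [.g, .l]),
  ([.l, .j], [.j, .l]),
  ([.l, .h], [.h, .l]),
  ([.l, .i], [.i, .l]),
  ([.k, .l, .k], [.l, .k, .l]),
  ([.k], [.k]),
  ([.k, .a, .k], [.a, .k, .a]),
  ([.k, .b], [.b, .k]),
  ([.k, .c], [.c, .k]),
  ([.k, .d], [.d, .k]),
  ([.k, .e], [.e, .k]),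
  ([.k, .f], [.f, .k]),
  ([.k, .g], [.g, .k]),
  ([.k, .j], [.j, .k]),
  ([.k, .h], [.h, .k]),
  ([.k, .i], [.i, .k]),
  ([.a, .l], [.l, .a]),
  ([.a, .k, .a], [.k, .a, .k]),
  ([.a], [.a]),
  ([.a, .b, .a], [.b, .a, .b]),
  ([.a, .c], [.c, .a]),
  ([.a, .d], [.d, .a]),
  ([.a, .e], [.e, .a]),
  ([.a, .f], [.f, .a]),
  ([.a, .g], [.g, .a]),
  ([.a, .j], [.j, .a]),
  ([.a, .h], [.h, .a]),
  ([.a, .i], [.i, .a]),
  ([.b, .l], [.l, .b]),
  ([.b, .k], [.k, .b]),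
  ([.b, .a, .b], [.a, .b, .a]),
  ([.b], [.b]),
  ([.b, .c, .b], [.c, .b, .c]),
  ([.b, .d], [.d, .b]),
  ([.b, .e], [.e, .b]),
  ([.b, .f], [.f, .b]),
  ([.b, .g], [.g, .b]),
  ([.b, .j], [.j, .b]),
  ([.b, .h], [.h, .b]),
  ([.b, .i], [.i, .b]),
  ([.c, .l], [.l, .c]),
  ([.c, .k], [.k, .c]),
  ([.c, .a], [.a, .c]),
  ([.c, .b, .c], [.b, .c, .b]),
  ([.c], [.c]),
  ([.c, .d, .c], [.d, .c, .d]),
  ([.c, .e], [.e, .c]),
  ([.c, .f], [.f, .c]),
  ([.c, .g], [.g, .c]),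
  ([.c, .j], [.j, .c]),
  ([.c, .h], [.h, .c]),
  ([.c, .i], [.i, .c]),
  ([.d, .l], [.l, .d]),
  ([.d, .k], [.k, .d]),
  ([.d, .a], [.a, .d]),
  ([.d, .b], [.b, .d]),
  ([.d, .c, .d], [.c, .d, .c]),
  ([.d], [.d]),
  ([.d, .e, .d], [.e, .d, .e]),
  ([.d, .f], [.f, .d]),
  ([.d, .g], [.g, .d]),
  ([.d, .j], [.j, .d]),
  ([.d, .h, .d], [.h, .d, .h]),
  ([.d, .i], [.i, .d]),
  ([.e, .l], [.l, .e]),
  ([.e, .k], [.k, .e]),
  ([.e, .a], [.a, .e]),
  ([.e, .b], [.b, .e]),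
  ([.e, .c], [.c, .e]),
  ([.e, .d, .e], [.d, .e, .d]),
  ([.e], [.e]),
  ([.e, .f, .e], [.f, .e, .f]),
  ([.e, .g], [.g, .e]),
  ([.e, .j], [.j, .e]),
  ([.e, .h], [.h, .e]),
  ([.e, .i], [.i, .e]),
  ([.f, .l], [.l, .f]),
  ([.f, .k], [.k, .f]),
  ([.f, .a], [.a, .f]),
  ([.f, .b], [.b, .f]),
  ([.f, .c], [.c, .f]),
  ([.f, .d], [.d, .f]),
  ([.f, .e, .f], [.e, .f, .e]),
  ([.f], [.f]),
  ([.f, .g, .f], [.g, .f, .g]),
  ([.f, .j], [.j, .f]),
  ([.f, .h], [.h, .f]),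
  ([.f, .i], [.i, .f]),
  ([.g, .l], [.l, .g]),
  ([.g, .k], [.k, .g]),
  ([.g, .a], [.a, .g]),
  ([.g, .b], [.b, .g]),
  ([.g, .c], [.c, .g]),
  ([.g, .d], [.d, .g]),
  ([.g, .e], [.e, .g]),
  ([.g, .f, .g], [.f, .g, .f]),
  ([.g], [.g]),
  ([.g, .j, .g], [.j, .g, .j]),
  ([.g, .h], [.h, .g]),
  ([.g, .i], [.i, .g]),
  ([.j, .l], [.l, .j]),
  ([.j, .k], [.k, .j]),
  ([.j, .a], [.a, .j]),
  ([.j, .b], [.b, .j]),
  ([.j, .c], [.c, .j]),
  ([.j, .d], [.d, .j]),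
  ([.j, .e], [.e, .j]),
  ([.j, .f], [.f, .j]),
  ([.j, .g, .j], [.g, .j, .g]),
  ([.j], [.j]),
  ([.j, .h], [.h, .j]),
  ([.j, .i], [.i, .j]),
  ([.h, .l], [.l, .h]),
  ([.h, .k], [.k, .h]),
  ([.h, .a], [.a, .h]),
  ([.h, .b], [.b, .h]),
  ([.h, .c], [.c, .h]),
  ([.h, .d, .h], [.d, .h, .d]),
  ([.h, .e], [.e, .h]),
  ([.h, .f], [.f, .h]),
  ([.h, .g], [.g, .h]),
  ([.h, .j], [.j, .h]),
  ([.h], [.h]),
  ([.h, .i, .h], [.i, .h, .i]),
  ([.i, .l], [.l, .i]),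
  ([.i, .k], [.k, .i]),
  ([.i, .a], [.a, .i]),
  ([.i, .b], [.b, .i]),
  ([.i, .c], [.c, .i]),
  ([.i, .d], [.d, .i]),
  ([.i, .e], [.e, .i]),
  ([.i, .f], [.f, .i]),
  ([.i, .g], [.g, .i]),
  ([.i, .j], [.j, .i]),
  ([.i, .h, .i], [.h, .i, .h]),
  ([.i], [.i]),
  ([.l, .h, .f, .e, .d, .c, .b, .a, .h, .f, .e, .d, .c, .b, .a, .h, .f, .e, .d, .c, .b, .a, .h, .f, .e, .d, .c, .b, .a, .h, .f, .e], [.a, .b, .c, .d, .e, .f, .h, .a, .b, .c, .d, .e, .f, .h, .a, .b, .c, .d, .e, .f, .h, .a, .b, .c, .d, .e, .f, .h, .a, .b, .c, .d])]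

theorem fi24_rws_eq : fi24_rws = coxSplits fi24_gens (coxLabel Fi24.edges) ++ fi24_xs := by
  decide

/-- generator of a field index -/
def fi24_gof : ℕ → Fi24.Gen := fun i => fi24_gens.getD i .a

theorem fi24_gof_gi (x : Fi24.Gen) : fi24_gof (fi24_gi x) = x := by cases x <;> rfl

theorem fi24_gens_all (x : Fi24.Gen) : x ∈ fi24_gens := by cases x <;> decide

theorem fi24_nodes_all (x : Fi24.Gen) : x ∈ coxNodes Fi24.edges := by cases x <;> decide

/-- the generators of the presented group -/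
def fi24_gen (x : Fi24.Gen) : Fi24 := PresentedGroup.of x

theorem fi24_gen_eq (x : Fi24.Gen) :
    fi24_gen x = PresentedGroup.mk (coxRelators Fi24.edges ∪ {r | r ∈ Fi24.extra}) (FreeGroup.of x) := rfl

theorem fi24_sat_of_list {K : Type*} [Group K] (f : Fi24.Gen → K) (hf : ∀ x, f x * f x = 1)
    (h1 : ∀ r ∈ fi24_rws, uw f (r.1 ++ r.2.reverse) = 1)
    (h2 : ∀ r ∈ fi24_prels, uw f r.1 ^ r.2.1 = 1) : CoxSat Fi24.edges Fi24.extra f := by
  rw [fi24_rws_eq] at h1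
  have hi : ∀ x, (f x)⁻¹ = f x := fun x => inv_of_sq (hf x)
  constructor
  · intro x y
    exact cox_of_splits f fi24_gens _ (fun r hr => h1 r (List.mem_append_left _ hr)) x y
      (fi24_gens_all x) (fi24_gens_all y)
  · intro r hr
    delta Fi24.extra at hr
    simp only [List.mem_cons, List.not_mem_nil, or_false] at hr
    have hx : ∀ r ∈ fi24_xs, uw f (r.1 ++ r.2.reverse) = 1 :=
      fun r hr => h1 r (List.mem_append_right _ hr)
    simp only [fi24_xs, List.forall_mem_cons, List.not_mem_nil, false_imp_iff, implies_true, and_true, uw_eq, List.reverse_cons, List.reverse_nil, List.nil_append, List.cons_append, List.append_nil, List.map, List.prod_cons, List.prod_nil, mul_one, mul_assoc] at hx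
    have x0 := hx
    simp only [fi24_prels, List.forall_mem_cons, List.not_mem_nil, false_imp_iff, implies_true, and_true, uw_eq, List.map, List.prod_cons, List.prod_nil, mul_one] at h2
    have p0 := h2
    rcases hr with rfl | rfl
    · simpa only [map_mul, map_inv, map_pow, FreeGroup.lift_apply_of, mul_inv_rev, hi, pow_succ, pow_zero, one_mul, mul_assoc] using x0
    · simpa only [map_mul, map_pow, FreeGroup.lift_apply_of, mul_assoc] using p0

theorem fi24_list_of_sat {K : Type*} [Group K] (f : Fi24.Gen → K)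
    (h : CoxSat Fi24.edges Fi24.extra f) :
    (∀ r ∈ fi24_rws, uw f (r.1 ++ r.2.reverse) = 1) ∧
      (∀ r ∈ fi24_prels, uw f r.1 ^ r.2.1 = 1) := by
  have hi : ∀ x, (f x)⁻¹ = f x := fun x => inv_of_sq (coxSat_inv _ _ f h x)
  obtain ⟨hc, hx⟩ := h
  delta Fi24.extra at hx
  simp only [List.forall_mem_cons, List.not_mem_nil, false_imp_iff, implies_true, and_true, map_mul, map_inv, map_pow, FreeGroup.lift_apply_of] at hx
  obtain ⟨e0, e1⟩ := hx
  constructor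
  · rw [fi24_rws_eq]
    intro r hr
    rw [List.mem_append] at hr
    rcases hr with hr | hr
    · exact splits_of_cox f fi24_gens _ hc r hr
    · revert r
      simp only [fi24_xs, List.forall_mem_cons, List.not_mem_nil, false_imp_iff, implies_true, and_true, uw_eq, List.reverse_cons, List.reverse_nil, List.nil_append, List.cons_append, List.append_nil, List.map, List.prod_cons, List.prod_nil, mul_one, mul_assoc]
      · simpa only [map_mul, map_inv, map_pow, FreeGroup.lift_apply_of, mul_inv_rev, hi, pow_succ, pow_zero, one_mul, mul_assoc] using e0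
  · simp only [fi24_prels, List.forall_mem_cons, List.not_mem_nil, false_imp_iff, implies_true, and_true, uw_eq, List.map, List.prod_cons, List.prod_nil, mul_one]
    · simpa only [map_mul, map_pow, FreeGroup.lift_apply_of, mul_assoc] using e1

theorem fi24_sat : CoxSat Fi24.edges Fi24.extra fi24_gen := cox_relG _ _ fi24_nodes_all

theorem fi24_inv (x : Fi24.Gen) : fi24_gen x * fi24_gen x = 1 := coxSat_inv _ _ _ fi24_sat x

theorem fi24_full_one : ∀ w ∈ fullW fi24_rws fi24_prels, uw fi24_gen w = 1 :=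
  fullW_one _ _ _ (fi24_list_of_sat _ fi24_sat).1 (fi24_list_of_sat _ fi24_sat).2

theorem fi24_UP {K : Type*} [Group K] (f : Fi24.Gen → K) (hf : ∀ x, f x * f x = 1)
    (h1 : ∀ r ∈ fi24_rws, uw f (r.1 ++ r.2.reverse) = 1)
    (h2 : ∀ r ∈ fi24_prels, uw f r.1 ^ r.2.1 = 1) :
    ∃ φ : Fi24 →* K, ∀ x, φ (fi24_gen x) = f x :=
  cox_UP _ _ f (fi24_sat_of_list f hf h1 h2)

theorem fi24_closure : Subgroup.closure (Set.range fi24_gen) = ⊤ :=
  PresentedGroup.closure_range_of _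

end Cfsg.Agent.H35
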