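import Cfsg.Agent.H35.Fi24Glue
import Cfsg.Agent.H35.W.Half

/-!
# The presentation of Fi24 as word lists for the permutation check (helper35; generated)
-/

set_option autoImplicit false
set_option linter.unusedSimpArgs false
set_option maxRecDepth 100000

namespace Cfsg.Agent.H35

open Cfsg.Spor

def fi24_prws : List (List Fi24.Gen × List Fi24.Gen) := [
  ([.l, .k, .l], [.k, .l, .k]),
  ([.l, .a], [.a, .l]),
  ([.l, .b], [.b, .l]),
  ([.l, .c], [.c, .l]),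
  ([.l, .d], [.d, .l]),
  ([.l, .e], [.e, .l]),
  ([.l, .f], [.f, .l]),
  ([.l, .g], [.g, .l]),
  ([.l, .j], [.j, .l]),
  ([.l, .h], [.h, .l]),
  ([.l, .i], [.i, .l]),
  ([.k, .a, .k], [.a, .k, .a]),
  ([.k, .b], [.b, .k]),
  ([.k, .c], [.c, .k]),
  ([.k, .d], [.d, .k]),
  ([.k, .e], [.e, .k]),
  ([.k, .f], [.f, .k]),
  ([.k, .g], [.g, .k]),
  ([.k, .j], [.j, .k]),
  ([.k, .h], [.h, .k]),
  ([.k, .i], [.i, .k]),
  ([.a, .b, .a], [.b, .a, .b]),
  ([.a, .c], [.c, .a]),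
  ([.a, .d], [.d, .a]),
  ([.a, .e], [.e, .a]),
  ([.a, .f], [.f, .a]),
  ([.a, .g], [.g, .a]),
  ([.a, .j], [.j, .a]),
  ([.a, .h], [.h, .a]),
  ([.a, .i], [.i, .a]),
  ([.b, .c, .b], [.c, .b, .c]),
  ([.b, .d], [.d, .b]),
  ([.b, .e], [.e, .b]),
  ([.b, .f], [.f, .b]),
  ([.b, .g], [.g, .b]),
  ([.b, .j], [.j, .b]),
  ([.b, .h], [.h, .b]),
  ([.b, .i], [.i, .b]),
  ([.c, .d, .c], [.d, .c, .d]),
  ([.c, .e], [.e, .c]),
  ([.c, .f], [.f, .c]),
  ([.c, .g], [.g, .c]),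
  ([.c, .j], [.j, .c]),
  ([.c, .h], [.h, .c]),
  ([.c, .i], [.i, .c]),
  ([.d, .e, .d], [.e, .d, .e]),
  ([.d, .f], [.f, .d]),
  ([.d, .g], [.g, .d]),
  ([.d, .j], [.j, .d]),
  ([.d, .h, .d], [.h, .d, .h]),
  ([.d, .i], [.i, .d]),
  ([.e, .f, .e], [.f, .e, .f]),
  ([.e, .g], [.g, .e]),
  ([.e, .j], [.j, .e]),
  ([.e, .h], [.h, .e]),
  ([.e, .i], [.i, .e]),
  ([.f, .g, .f], [.g, .f, .g]),
  ([.f, .j], [.j, .f]),
  ([.f, .h], [.h, .f]),
  ([.f, .i], [.i, .f]),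
  ([.g, .j, .g], [.j, .g, .j]),
  ([.g, .h], [.h, .g]),
  ([.g, .i], [.i, .g]),
  ([.j, .h], [.h, .j]),
  ([.j, .i], [.i, .j]),
  ([.h, .i, .h], [.i, .h, .i])]
def fi24_pprels : List (List Fi24.Gen × ℕ × ℕ × List Fi24.Gen) := [
  ([.a, .b, .c, .d, .e, .f, .h], 9, 12, [.l]),
  ([.d, .c, .b, .a, .k, .l, .d, .e, .f, .g, .j, .d, .h, .i], 17, 13, [])]

theorem fi24_half_ok : W.halfChk (coxSplits fi24_gens (coxLabel Fi24.edges)) fi24_prws = true := by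
  decide +kernel

theorem fi24_UPp {K : Type*} [Group K] (f : Fi24.Gen → K) (hf : ∀ x, f x * f x = 1)
    (h1 : ∀ r ∈ fi24_prws, uw f (r.1 ++ r.2.reverse) = 1)
    (h2 : ∀ r ∈ fi24_pprels, uw f r.1 ^ r.2.1 = uw f r.2.2.2) :
    ∃ φ : Fi24 →* K, ∀ x, φ (fi24_gen x) = f x := by
  apply cox_UP
  constructor
  · intro x y
    exact cox_of_splits f fi24_gens _ (W.half_splits f hf _ _ fi24_half_ok h1) x y
      (fi24_gens_all x) (fi24_gens_all y)
  · intro r hr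
    delta Fi24.extra at hr
    simp only [List.mem_cons, List.not_mem_nil, or_false] at hr
    simp only [fi24_pprels, List.forall_mem_cons, List.not_mem_nil, false_imp_iff, implies_true, and_true, uw_eq, List.map, List.prod_cons, List.prod_nil, mul_one] at h2
    obtain ⟨p0, p1⟩ := h2
    rcases hr with rfl | rfl
    · simp only [map_mul, map_inv, map_pow, FreeGroup.lift_apply_of]
      rw [mul_inv_eq_one]
      simpa only [mul_assoc] using p0.symm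
    · simpa only [map_mul, map_pow, FreeGroup.lift_apply_of, mul_assoc] using p1

end Cfsg.Agent.H35
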