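import Cfsg.Agent.H35.TCMain

/-!
# Extra columns for a permutation table (helper35)

A table `D' : PData ℕ` whose first `nb` columns are the actions of known group elements and whose
further columns are defined as words in earlier columns (a straight-line program) is the action
of a family of group elements: every word in the columns acts as a group element.
-/

set_option autoImplicit false

namespace Cfsg.Agent.H35

/-- the columns `k, k + 1, …` are the images of the listed words in earlier columns, at `p` -/
noncomputable def slpGo (D' : PData ℕ) (p : ℕ) : ℕ → List (List ℕ) → Bool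
  | _, [] => true
  | k, d :: ds => Nat.beq (D'.act p k) (D'.walk d p) && slpGo D' p (k + 1) ds

/-- the letters of the definition of column `k + i` are smaller than `k + i` -/
def slpLt : ℕ → List (List ℕ) → Bool
  | _, [] => true
  | k, d :: ds => d.all (fun i => Nat.ble (Nat.succ i) k) && slpLt (k + 1) ds

theorem slpGo_get (D' : PData ℕ) (p : ℕ) : ∀ (defs : List (List ℕ)) (k : ℕ),
    slpGo D' p k defs = true → ∀ i (h : i < defs.length), D'.act p (k + i) = D'.walk defs[i] p
  | [], _, _, i, h => absurd h (by simp)
  | d :: ds, k, hgo, i, h => by
    unfold slpGo at hgo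
    rw [Bool.and_eq_true, Nat.beq_eq] at hgo
    cases i with
    | zero => simpa using hgo.1
    | succ i =>
      have := slpGo_get D' p ds (k + 1) hgo.2 i (by simpa using h)
      rw [show k + (i + 1) = k + 1 + i by omega]
      simpa using this

theorem slpLt_get : ∀ (defs : List (List ℕ)) (k : ℕ),
    slpLt k defs = true → ∀ i (h : i < defs.length), ∀ j ∈ defs[i], j < k + i
  | [], _, _, i, h => absurd h (by simp)
  | d :: ds, k, hlt, i, h => by
    unfold slpLt at hlt
    rw [Bool.and_eq_true, List.all_eq_true] at hlt
    cases i with
    | zero =>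
      intro j hj
      have := hlt.1 j (by simpa using hj)
      rw [Nat.ble_eq] at this
      omega
    | succ i =>
      intro j hj
      have := slpLt_get ds (k + 1) hlt.2 i (by simpa using h) j (by simpa using hj)
      omega

section Real

variable {G : Type*} [Group G]

/-- words in columns that act as group elements act as the product -/
theorem walk_real_of (D' : PData ℕ) (ρ : G →* Equiv.Perm (Fin D'.N)) (f : ℕ → G) (P : ℕ → Prop)
    (hf : ∀ k, P k → ∀ p : Fin D'.N, D'.act p.val k = ((ρ (f k))⁻¹ p).val) :
    ∀ (w : List ℕ), (∀ i ∈ w, P i) → ∀ p : Fin D'.N, D'.walk w p.val = ((ρ (uw f w))⁻¹ p).val := by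
  intro w
  induction w with
  | nil => intro _ p; rw [uw_nil, map_one, inv_one]; rfl
  | cons x w ih =>
    intro hP p
    rw [PData.walk_cons, hf x (hP x (by simp)) p, ih (fun i hi => hP i (by simp [hi])),
      uw_cons, map_mul, mul_inv_rev, Equiv.Perm.mul_apply]

/-- The columns of a straight-line extension are the actions of group elements. -/
theorem slp_real (D' : PData ℕ) (ρ : G →* Equiv.Perm (Fin D'.N)) (nb : ℕ) (gbase : ℕ → G)
    (hbase : ∀ k, k < nb → ∀ p : Fin D'.N, D'.act p.val k = ((ρ (gbase k))⁻¹ p).val)
    (defs : List (List ℕ)) (hlt : slpLt nb defs = true)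
    (hok : ∀ p, p < D'.N → slpGo D' p nb defs = true)
    (hid : ∀ p, p < D'.N → ∀ k, nb + defs.length ≤ k → D'.act p k = p) :
    ∃ gen' : ℕ → G, (∀ k, k < nb → gen' k = gbase k) ∧
      ∀ (w : List ℕ) (p : Fin D'.N), D'.walk w p.val = ((ρ (uw gen' w))⁻¹ p).val := by
  classical
  have step : ∀ k, k < nb + defs.length →
      ∃ g : G, ∀ p : Fin D'.N, D'.act p.val k = ((ρ g)⁻¹ p).val := by
    intro k
    induction k using Nat.strong_induction_on with
    | _ k ih =>
      intro hk
      by_cases hkb : k < nb
      · exact ⟨gbase k, hbase k hkb⟩
      · have hi : k - nb < defs.length := by omega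
        have hlt' := slpLt_get defs nb hlt (k - nb) hi
        have hkk : nb + (k - nb) = k := by omega
        rw [hkk] at hlt'
        have IH : ∀ j, j < k → ∃ g : G, ∀ p : Fin D'.N, D'.act p.val j = ((ρ g)⁻¹ p).val :=
          fun j hj => ih j hj (by omega)
        choose f hf using IH
        let f' : ℕ → G := fun j => if h : j < k then f j h else 1
        have hf' : ∀ j, j < k → ∀ p : Fin D'.N, D'.act p.val j = ((ρ (f' j))⁻¹ p).val := by
          intro j hj p
          show D'.act p.val j = ((ρ (if h : j < k then f j h else 1))⁻¹ p).val
          rw [dif_pos hj]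
          exact hf j hj p
        refine ⟨uw f' defs[k - nb], fun p => ?_⟩
        have h1 := slpGo_get D' p.val defs nb (hok p.val p.isLt) (k - nb) hi
        rw [hkk] at h1
        rw [h1]
        exact walk_real_of D' ρ f' (fun j => j < k) hf' _ hlt' p
  let gen' : ℕ → G := fun k =>
    if h : k < nb then gbase k
    else if h2 : k < nb + defs.length then Classical.choose (step k h2) else 1
  have hgen : ∀ k, ∀ p : Fin D'.N, D'.act p.val k = ((ρ (gen' k))⁻¹ p).val := by
    intro k p
    show D'.act p.val k = ((ρ (if h : k < nb then gbase k
      else if h2 : k < nb + defs.length then Classical.choose (step k h2) else 1))⁻¹ p).val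
    by_cases h : k < nb
    · rw [dif_pos h]; exact hbase k h p
    · rw [dif_neg h]
      by_cases h2 : k < nb + defs.length
      · rw [dif_pos h2]; exact Classical.choose_spec (step k h2) p
      · rw [dif_neg h2, map_one, inv_one]
        exact hid p.val p.isLt k (by omega)
  refine ⟨gen', fun k hk => ?_, fun w p => ?_⟩
  · show (if h : k < nb then gbase k
      else if h2 : k < nb + defs.length then Classical.choose (step k h2) else 1) = gbase k
    rw [dif_pos hk]
  · exact walk_real_of D' ρ gen' (fun _ => True) (fun k _ => hgen k) w (fun _ _ => trivial) p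

end Real

end Cfsg.Agent.H35
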