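import Cfsg.Agent.H52.JwDefs
import Cfsg.Agent.Helper55.JzMax
import Cfsg.Agent.S2949
import Cfsg.Agent.S2950

/-!
# W-REBASE (S2953 team project JW, helper52)

For `T = S`, `N_G(S) ≤ L` and a 2-local over `S` outside `L`: the Sylow 2-subgroup `S` is a maximal
straddling subgroup for the base `L` (a Sylow 2-subgroup that straddles is lex-maximal), so S2949 and
S2950 for the base `L` give a configuration `(K₂, L₂)` with `K₂ ⊄ L`, hence `L₂ ≠ L`.
-/

set_option autoImplicit false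
open Cfsg

universe u

namespace Cfsg.Agent.H35.Jw

open Cfsg.Agent.H64.Jz Cfsg.Agent.H52.Jw

/-- A Sylow 2-subgroup of `G` inside `L` that straddles `L` is a maximal straddling subgroup. -/
theorem sylow_maxStraddling {G : Type u} [Group G] [Finite G] (S : Sylow 2 G) (L : Subgroup G)
    (hSL : (S : Subgroup G) ≤ L) (hS : (S : Subgroup G) ∈ straddlingTwoSubgroups L) :
    (S : Subgroup G) ∈ maxStraddlingTwoSubgroups L := by
  obtain ⟨T, hT, hTS⟩ := Cfsg.Agent.Helper55.JzMax.exists_maxStraddling_le S hSL ⟨_, hS⟩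
  have h1 := hT.2 (S : Subgroup G) hS
  have ha : maxElemAbelianOrder (S : Subgroup G) = maxElemAbelianOrder T :=
    le_antisymm h1.1 (Cfsg.Agent.Helper55.ThJ.a_mono hTS)
  have h2 := h1.2 ha
  have hJle : thompsonSubgroupOf 2 T ≤ thompsonSubgroupOf 2 (S : Subgroup G) :=
    Cfsg.Agent.Helper55.ThJ.J_le_J_of ((Cfsg.Agent.Helper55.ThJ.J_le T).trans hTS) ha.le
  have hJc : Nat.card ↥(thompsonSubgroupOf 2 (S : Subgroup G)) =
      Nat.card ↥(thompsonSubgroupOf 2 T) :=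
    le_antisymm h2.1 (Subgroup.card_le_of_le hJle)
  have h3 := h2.2 hJc
  have hEq : T = (S : Subgroup G) := Subgroup.eq_of_le_of_card_ge hTS h3
  rw [← hEq]
  exact hT

theorem rebase (hNJ : StNJ.{u}) : StRebase.{u} := by
  intro G _ _ S M K L hB hNS hX
  have hB' := hB
  obtain ⟨hZN, hO, hM, hMJ, hS, -, hK, hLmax, hKJ⟩ := hB'
  have hZN' := hZN
  obtain ⟨hL, hN, hZ⟩ := hZN'
  have hLJ : Subgroup.normalizer (thompsonSubgroupOf 2 (S : Subgroup G) : Set G) ≤ L :=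
    (hNJ S M K L hB).trans hNS
  have hSL : (S : Subgroup G) ≤ L := Subgroup.le_normalizer.trans hNS
  obtain ⟨X, hX1, hX2, hX3⟩ := hX
  have hSstr : (S : Subgroup G) ∈ straddlingTwoSubgroups L :=
    ⟨S.isPGroup', hS.1.2.1, hSL, X, hX1, hX2, hX3⟩
  have hSmax := sylow_maxStraddling S L hSL hSstr
  obtain ⟨K', hK'⟩ :=
    Cfsg.Agent.S2949.result hL hN hZ hO S L hLmax.1 hLJ (S : Subgroup G) hSmax
  obtain ⟨L', hL', hK'J, -⟩ :=
    Cfsg.Agent.S2950.result hL hN hZ hO S L hLmax.1 hLJ (S : Subgroup G) hSmax K' hK'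
  refine ⟨K', L', ?_, ?_⟩
  · unfold Base
    exact ⟨hZN, hO, hLmax.1, hLJ, hSmax, le_rfl, hK', hL', hK'J⟩
  · intro h
    exact hK'.2.1 ((le_sup_left.trans hK'J).trans h.le)

end Cfsg.Agent.H35.Jw

namespace Cfsg.Agent.H35.JwRebaseCheck

example (hNJ : Cfsg.Agent.H52.Jw.StNJ.{u}) : Cfsg.Agent.H52.Jw.StRebase.{u} :=
  Cfsg.Agent.H35.Jw.rebase hNJ

end Cfsg.Agent.H35.JwRebaseCheck
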