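import Mathlib
import Cfsg.Agent.H91.L34NDefs
import Cfsg.Agent.H24.L34Idx

set_option autoImplicit false
set_option linter.unusedSectionVars false

/-!
# Piece NORM2 of S3154 (helper35, for helper91)

`N(e2) = e2 ⋊ j(SL₂(F))` in `PSL₃(F)`, `#F = 4`, with `j A = diag(1, A)`; the unitriangular
subgroup of `SL₂(F)` (of index `15`) is mapped into `e1`.
-/

namespace Cfsg.Agent.H35.L34N

open Subgroup Cfsg.Agent.H60 Cfsg.Agent.H60.L34 Cfsg.Agent.H91.L34N

universe u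

section general

variable {F : Type u} [Field F]

theorem mat3_ext (M N : Matrix (Fin 3) (Fin 3) F) (h00 : M 0 0 = N 0 0) (h01 : M 0 1 = N 0 1)
    (h02 : M 0 2 = N 0 2) (h10 : M 1 0 = N 1 0) (h11 : M 1 1 = N 1 1) (h12 : M 1 2 = N 1 2)
    (h20 : M 2 0 = N 2 0) (h21 : M 2 1 = N 2 1) (h22 : M 2 2 = N 2 2) : M = N := by
  ext i j
  fin_cases i <;> fin_cases j <;> assumption

theorem mat2_ext (M N : Matrix (Fin 2) (Fin 2) F) (h00 : M 0 0 = N 0 0) (h01 : M 0 1 = N 0 1)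
    (h10 : M 1 0 = N 1 0) (h11 : M 1 1 = N 1 1) : M = N := by
  ext i j
  fin_cases i <;> fin_cases j <;> assumption

theorem mul3_apply (M N : Matrix (Fin 3) (Fin 3) F) (i j : Fin 3) :
    (M * N) i j = M i 0 * N 0 j + M i 1 * N 1 j + M i 2 * N 2 j := by
  rw [Matrix.mul_apply, Fin.sum_univ_three]

theorem mul2_apply (M N : Matrix (Fin 2) (Fin 2) F) (i j : Fin 2) :
    (M * N) i j = M i 0 * N 0 j + M i 1 * N 1 j := by
  rw [Matrix.mul_apply, Fin.sum_univ_two]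

/-- `diag(1, A)`. -/
def jmat (A : Matrix (Fin 2) (Fin 2) F) : Matrix (Fin 3) (Fin 3) F :=
  !![1, 0, 0; 0, A 0 0, A 0 1; 0, A 1 0, A 1 1]

theorem jmat_det (A : Matrix (Fin 2) (Fin 2) F) : (jmat A).det = A.det := by
  rw [Matrix.det_fin_three, Matrix.det_fin_two]
  show (1 : F) * A 0 0 * A 1 1 - 1 * A 0 1 * A 1 0 - 0 * 0 * A 1 1 + 0 * A 0 1 * 0
    + 0 * 0 * A 1 0 - 0 * A 0 0 * 0 = A 0 0 * A 1 1 - A 0 1 * A 1 0
  ring

theorem jmat_mul (A B : Matrix (Fin 2) (Fin 2) F) : jmat A * jmat B = jmat (A * B) := by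
  apply mat3_ext <;> rw [mul3_apply] <;>
    first
    | (show (1 : F) * 1 + 0 * 0 + 0 * 0 = 1; ring)
    | (show (1 : F) * 0 + 0 * B 0 0 + 0 * B 1 0 = 0; ring)
    | (show (1 : F) * 0 + 0 * B 0 1 + 0 * B 1 1 = 0; ring)
    | (show (0 : F) * 1 + A 0 0 * 0 + A 0 1 * 0 = 0; ring)
    | (show (0 : F) * 0 + A 0 0 * B 0 0 + A 0 1 * B 1 0 = (A * B) 0 0; rw [mul2_apply]; ring)
    | (show (0 : F) * 0 + A 0 0 * B 0 1 + A 0 1 * B 1 1 = (A * B) 0 1; rw [mul2_apply]; ring)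
    | (show (0 : F) * 1 + A 1 0 * 0 + A 1 1 * 0 = 0; ring)
    | (show (0 : F) * 0 + A 1 0 * B 0 0 + A 1 1 * B 1 0 = (A * B) 1 0; rw [mul2_apply]; ring)
    | (show (0 : F) * 0 + A 1 0 * B 0 1 + A 1 1 * B 1 1 = (A * B) 1 1; rw [mul2_apply]; ring)

theorem jmat_one : jmat (1 : Matrix (Fin 2) (Fin 2) F) = 1 := by
  apply mat3_ext <;> simp [jmat]

/-- `A ↦ diag(1, A)`, into `SL₃`. -/
def jSL : Matrix.SpecialLinearGroup (Fin 2) F →* Matrix.SpecialLinearGroup (Fin 3) F where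
  toFun A := ⟨jmat A.1, by rw [jmat_det]; exact A.2⟩
  map_one' := Subtype.ext jmat_one
  map_mul' A B := Subtype.ext (jmat_mul A.1 B.1).symm

/-- `A ↦ diag(1, A)`, into `PSL₃`. -/
def jPSL : Matrix.SpecialLinearGroup (Fin 2) F →* Matrix.ProjectiveSpecialLinearGroup (Fin 3) F :=
  (QuotientGroup.mk' (Subgroup.center (Matrix.SpecialLinearGroup (Fin 3) F))).comp jSL

/-- Equality in `PSL₃` is equality of matrices up to a scalar. -/
theorem exists_smul_of_mk_eq (a b : Matrix.SpecialLinearGroup (Fin 3) F)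
    (h : QuotientGroup.mk' (Subgroup.center (Matrix.SpecialLinearGroup (Fin 3) F)) a =
      QuotientGroup.mk' (Subgroup.center (Matrix.SpecialLinearGroup (Fin 3) F)) b) :
    ∃ c : F, b.1 = c • a.1 := by
  have h1 : a⁻¹ * b ∈ Subgroup.center (Matrix.SpecialLinearGroup (Fin 3) F) :=
    QuotientGroup.eq.1 h
  rw [Matrix.SpecialLinearGroup.mem_center_iff] at h1
  obtain ⟨c, -, hsc⟩ := h1
  refine ⟨c, ?_⟩
  have h2 : b.1 = a.1 * (a⁻¹ * b).1 := by
    rw [← Matrix.SpecialLinearGroup.coe_mul, mul_inv_cancel_left]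
  rw [h2, ← hsc]
  ext i j
  simp [Matrix.scalar_apply, mul_comm]

theorem mk_eq_of_mul_scalar (a b : Matrix.SpecialLinearGroup (Fin 3) F) (c : F) (hc : c ^ 3 = 1)
    (h : b.1 = c • a.1) :
    QuotientGroup.mk' (Subgroup.center (Matrix.SpecialLinearGroup (Fin 3) F)) a =
      QuotientGroup.mk' (Subgroup.center (Matrix.SpecialLinearGroup (Fin 3) F)) b := by
  apply QuotientGroup.eq.2
  rw [Matrix.SpecialLinearGroup.mem_center_iff]
  refine ⟨c, by simpa using hc, ?_⟩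
  have h3 : a.1 * (a⁻¹ * b).1 = a.1 * Matrix.scalar (Fin 3) c := by
    rw [← Matrix.SpecialLinearGroup.coe_mul, mul_inv_cancel_left, h]
    ext i j
    simp [Matrix.scalar_apply, mul_comm]
  have h4 : (a⁻¹).1 * (a.1 * (a⁻¹ * b).1) = (a⁻¹).1 * (a.1 * Matrix.scalar (Fin 3) c) := by
    rw [h3]
  rw [← Matrix.mul_assoc, ← Matrix.mul_assoc, ← Matrix.SpecialLinearGroup.coe_mul,
    inv_mul_cancel, Matrix.SpecialLinearGroup.coe_one, Matrix.one_mul, Matrix.one_mul] at h4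
  exact h4.symm

theorem jPSL_injective : Function.Injective (jPSL (F := F)) := by
  rw [injective_iff_map_eq_one]
  intro A hA
  have h1 : QuotientGroup.mk' (Subgroup.center (Matrix.SpecialLinearGroup (Fin 3) F)) 1 =
      QuotientGroup.mk' (Subgroup.center (Matrix.SpecialLinearGroup (Fin 3) F)) (jSL A) := by
    rw [map_one]
    exact hA.symm
  obtain ⟨c, hc⟩ := exists_smul_of_mk_eq _ _ h1
  have hm : jmat A.1 = c • (1 : Matrix (Fin 3) (Fin 3) F) := hc
  have h00 : (1 : F) = c * 1 := congrFun (congrFun hm 0) 0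
  have h11 : A.1 0 0 = c * 1 := congrFun (congrFun hm 1) 1
  have h12 : A.1 0 1 = c * 0 := congrFun (congrFun hm 1) 2
  have h21 : A.1 1 0 = c * 0 := congrFun (congrFun hm 2) 1
  have h22 : A.1 1 1 = c * 1 := congrFun (congrFun hm 2) 2
  apply Subtype.ext
  apply mat2_ext
  · rw [h11, ← h00]; rfl
  · rw [h12, mul_zero]; rfl
  · rw [h21, mul_zero]; rfl
  · rw [h22, ← h00]; rfl

/-- `[1, b; 0, 1]`. -/
def umat (b : F) : Matrix (Fin 2) (Fin 2) F := !![1, b; 0, 1]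

theorem umat_det (b : F) : (umat b).det = 1 := by
  rw [Matrix.det_fin_two]
  show (1 : F) * 1 - b * 0 = 1
  ring

theorem umat_mul (b c : F) : umat b * umat c = umat (b + c) := by
  apply mat2_ext <;> rw [mul2_apply] <;>
    first
    | (show (1 : F) * 1 + b * 0 = 1; ring)
    | (show (1 : F) * c + b * 1 = b + c; ring)
    | (show (0 : F) * 1 + 1 * 0 = 0; ring)
    | (show (0 : F) * c + 1 * 1 = 1; ring)

theorem umat_zero : umat (0 : F) = 1 := by
  apply mat2_ext <;> simp [umat]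

/-- `b ↦ [1, b; 0, 1]`. -/
def uSL : Multiplicative F →* Matrix.SpecialLinearGroup (Fin 2) F where
  toFun b := ⟨umat b.toAdd, umat_det _⟩
  map_one' := Subtype.ext umat_zero
  map_mul' b c := Subtype.ext (umat_mul b.toAdd c.toAdd).symm

theorem uSL_injective : Function.Injective (uSL (F := F)) := by
  intro b c h
  have h1 : (uSL b).1 0 1 = (uSL c).1 0 1 := by rw [h]
  exact Multiplicative.toAdd.injective h1

theorem jSL_uSL (b : Multiplicative F) : jSL (uSL b) = heisSL (⟨0, b.toAdd, 0⟩ : Heis F) := by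
  apply Subtype.ext
  apply mat3_ext <;> rfl

/-- `diag(1, A) * y(p, r) = y((p, r) A⁻¹) * diag(1, A)`. -/
theorem jmat_mul_hmat (A : Matrix (Fin 2) (Fin 2) F) (hA : A 0 0 * A 1 1 - A 0 1 * A 1 0 = 1)
    (p r : F) :
    jmat A * hmat (⟨p, 0, r⟩ : Heis F) =
      hmat (⟨p * A 1 1 - r * A 1 0, 0, -(p * A 0 1) + r * A 0 0⟩ : Heis F) * jmat A := by
  apply mat3_ext <;> rw [mul3_apply, mul3_apply]
  · show (1 : F) * 1 + 0 * 0 + 0 * 0 = 1 * 1 + (p * A 1 1 - r * A 1 0) * 0 +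
      (-(p * A 0 1) + r * A 0 0) * 0
    ring
  · show (1 : F) * p + 0 * 1 + 0 * 0 = 1 * 0 + (p * A 1 1 - r * A 1 0) * A 0 0 +
      (-(p * A 0 1) + r * A 0 0) * A 1 0
    linear_combination (-p) * hA
  · show (1 : F) * r + 0 * 0 + 0 * 1 = 1 * 0 + (p * A 1 1 - r * A 1 0) * A 0 1 +
      (-(p * A 0 1) + r * A 0 0) * A 1 1
    linear_combination (-r) * hA
  · show (0 : F) * 1 + A 0 0 * 0 + A 0 1 * 0 = 0 * 1 + 1 * 0 + 0 * 0
    ring
  · show (0 : F) * p + A 0 0 * 1 + A 0 1 * 0 = 0 * 0 + 1 * A 0 0 + 0 * A 1 0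
    ring
  · show (0 : F) * r + A 0 0 * 0 + A 0 1 * 1 = 0 * 0 + 1 * A 0 1 + 0 * A 1 1
    ring
  · show (0 : F) * 1 + A 1 0 * 0 + A 1 1 * 0 = 0 * 1 + 0 * 0 + 1 * 0
    ring
  · show (0 : F) * p + A 1 0 * 1 + A 1 1 * 0 = 0 * 0 + 0 * A 0 0 + 1 * A 1 0
    ring
  · show (0 : F) * r + A 1 0 * 0 + A 1 1 * 1 = 0 * 0 + 0 * A 0 1 + 1 * A 1 1
    ring

theorem hmat_mul_apply1 (g : Heis F) (M : Matrix (Fin 3) (Fin 3) F) (j : Fin 3) :
    (hmat g * M) 1 j = M 1 j + g.s * M 2 j := by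
  rw [mul3_apply]
  show (0 : F) * M 0 j + 1 * M 1 j + g.s * M 2 j = _
  ring

theorem hmat_mul_apply2 (g : Heis F) (M : Matrix (Fin 3) (Fin 3) F) (j : Fin 3) :
    (hmat g * M) 2 j = M 2 j := by
  rw [mul3_apply]
  show (0 : F) * M 0 j + 0 * M 1 j + 1 * M 2 j = _
  ring

theorem mul_hmat_apply0 (M : Matrix (Fin 3) (Fin 3) F) (i : Fin 3) :
    (M * hmat (⟨1, 0, 0⟩ : Heis F)) i 0 = M i 0 := by
  rw [mul3_apply]
  show M i 0 * 1 + M i 1 * 0 + M i 2 * 0 = _
  ring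

theorem mul_hmat_apply1 (M : Matrix (Fin 3) (Fin 3) F) (i : Fin 3) :
    (M * hmat (⟨1, 0, 0⟩ : Heis F)) i 1 = M i 0 + M i 1 := by
  rw [mul3_apply]
  show M i 0 * 1 + M i 1 * 1 + M i 2 * 0 = _
  ring

end general

theorem norm2 : Norm2Stmt.{u} := by
  intro F _ _ hF
  refine ⟨jPSL, (uSL (F := F)).range, jPSL_injective, ?_, ?_, ?_, ?_, ?_⟩
  · -- `j A ∈ e2 → A = 1`
    intro A hA
    obtain ⟨g, hg, hge⟩ := hA
    have hs : g.s = 0 := mem_sgB.1 hg
    obtain ⟨c, hc⟩ := exists_smul_of_mk_eq (heisSL g) (jSL A) hge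
    have hm : jmat A.1 = c • hmat g := hc
    have h00 : (1 : F) = c * 1 := congrFun (congrFun hm 0) 0
    have hc1 : c = 1 := by rw [mul_one] at h00; exact h00.symm
    rw [hc1, one_smul] at hm
    have h11 : A.1 0 0 = 1 := congrFun (congrFun hm 1) 1
    have h12 : A.1 0 1 = g.s := congrFun (congrFun hm 1) 2
    have h21 : A.1 1 0 = 0 := congrFun (congrFun hm 2) 1
    have h22 : A.1 1 1 = 1 := congrFun (congrFun hm 2) 2
    apply Subtype.ext
    apply mat2_ext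
    · rw [h11]; rfl
    · rw [h12, hs]; rfl
    · rw [h21]; rfl
    · rw [h22]; rfl
  · -- `j A` normalizes `e2`
    intro A e he
    obtain ⟨g, hg, rfl⟩ := he
    have hs : g.s = 0 := mem_sgB.1 hg
    have hdet : A.1 0 0 * A.1 1 1 - A.1 0 1 * A.1 1 0 = 1 := by
      have h := A.2
      rwa [Matrix.det_fin_two] at h
    have hgeq : g = (⟨g.p, 0, g.r⟩ : Heis F) := by
      apply Heis.ext
      · rfl
      · exact hs
      · rfl
    have key : jSL A * heisSL g =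
        heisSL (⟨g.p * A.1 1 1 - g.r * A.1 1 0, 0, -(g.p * A.1 0 1) + g.r * A.1 0 0⟩ : Heis F) *
          jSL A := by
      apply Subtype.ext
      have h := jmat_mul_hmat A.1 hdet g.p g.r
      rw [← hgeq] at h
      exact h
    have key2 : jPSL A * heisPSL g =
        heisPSL (⟨g.p * A.1 1 1 - g.r * A.1 1 0, 0, -(g.p * A.1 0 1) + g.r * A.1 0 0⟩ : Heis F) *
          jPSL A := by
      have h := congrArg
        (QuotientGroup.mk' (Subgroup.center (Matrix.SpecialLinearGroup (Fin 3) F))) key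
      rw [map_mul, map_mul] at h
      exact h
    rw [key2, mul_inv_cancel_right]
    exact Subgroup.mem_map_of_mem _ (mk_mem_sgB _ _)
  · -- the normalizer
    intro g hg
    obtain ⟨gh, rfl⟩ := QuotientGroup.mk'_surjective
      (Subgroup.center (Matrix.SpecialLinearGroup (Fin 3) F)) g
    have he : heisPSL (⟨1, 0, 0⟩ : Heis F) ∈ e2 F :=
      Subgroup.mem_map_of_mem _ (mk_mem_sgB 1 0)
    obtain ⟨g2, hg2, hg2e⟩ := hg _ he
    have hs2 : g2.s = 0 := mem_sgB.1 hg2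
    have hq : QuotientGroup.mk' (Subgroup.center (Matrix.SpecialLinearGroup (Fin 3) F))
        (gh * heisSL (⟨1, 0, 0⟩ : Heis F) * gh⁻¹) =
        QuotientGroup.mk' (Subgroup.center (Matrix.SpecialLinearGroup (Fin 3) F)) (heisSL g2) := by
      rw [map_mul, map_mul, map_inv]
      exact hg2e.symm
    obtain ⟨c, hc⟩ := exists_smul_of_mk_eq _ _ hq
    have hmat_eq : hmat g2 * gh.1 = c • (gh.1 * hmat (⟨1, 0, 0⟩ : Heis F)) := by
      have h1 : (gh * heisSL (⟨1, 0, 0⟩ : Heis F) * gh⁻¹).1 * gh.1 =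
          gh.1 * hmat (⟨1, 0, 0⟩ : Heis F) := by
        rw [← Matrix.SpecialLinearGroup.coe_mul, inv_mul_cancel_right]
        rfl
      have h0 : (heisSL g2).1 = hmat g2 := rfl
      rw [← h0, hc, Matrix.smul_mul, h1]
    have e10 : gh.1 1 0 = c * gh.1 1 0 := by
      have h : (hmat g2 * gh.1) 1 0 = c * (gh.1 * hmat (⟨1, 0, 0⟩ : Heis F)) 1 0 :=
        congrFun (congrFun hmat_eq 1) 0
      rw [hmat_mul_apply1, mul_hmat_apply0, hs2] at h
      linear_combination h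
    have e11 : gh.1 1 1 = c * (gh.1 1 0 + gh.1 1 1) := by
      have h : (hmat g2 * gh.1) 1 1 = c * (gh.1 * hmat (⟨1, 0, 0⟩ : Heis F)) 1 1 :=
        congrFun (congrFun hmat_eq 1) 1
      rw [hmat_mul_apply1, mul_hmat_apply1, hs2] at h
      linear_combination h
    have e20 : gh.1 2 0 = c * gh.1 2 0 := by
      have h : (hmat g2 * gh.1) 2 0 = c * (gh.1 * hmat (⟨1, 0, 0⟩ : Heis F)) 2 0 :=
        congrFun (congrFun hmat_eq 2) 0
      rw [hmat_mul_apply2, mul_hmat_apply0] at h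
      exact h
    have e21 : gh.1 2 1 = c * (gh.1 2 0 + gh.1 2 1) := by
      have h : (hmat g2 * gh.1) 2 1 = c * (gh.1 * hmat (⟨1, 0, 0⟩ : Heis F)) 2 1 :=
        congrFun (congrFun hmat_eq 2) 1
      rw [hmat_mul_apply2, mul_hmat_apply1] at h
      exact h
    have h10 : gh.1 1 0 = 0 := by
      by_contra hne
      have hc1 : c = 1 := by
        have h : (c - 1) * gh.1 1 0 = 0 := by linear_combination -e10
        rcases mul_eq_zero.1 h with h | h
        · exact sub_eq_zero.1 h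
        · exact absurd h hne
      rw [hc1] at e11
      apply hne
      linear_combination -e11
    have h20 : gh.1 2 0 = 0 := by
      by_contra hne
      have hc1 : c = 1 := by
        have h : (c - 1) * gh.1 2 0 = 0 := by linear_combination -e20
        rcases mul_eq_zero.1 h with h | h
        · exact sub_eq_zero.1 h
        · exact absurd h hne
      rw [hc1] at e21
      apply hne
      linear_combination -e21
    have hdet : gh.1 0 0 * (gh.1 1 1 * gh.1 2 2 - gh.1 1 2 * gh.1 2 1) = 1 := by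
      have h := gh.2
      rw [Matrix.det_fin_three, h10, h20] at h
      linear_combination h
    have hd0 : gh.1 0 0 ≠ 0 := by
      intro h
      rw [h, zero_mul] at hdet
      exact zero_ne_one hdet
    have hd3 : gh.1 0 0 ^ 3 = 1 := by
      have h := FiniteField.pow_card_sub_one_eq_one (gh.1 0 0) hd0
      rwa [hF] at h
    obtain ⟨δ, hδ⟩ : ∃ δ : F, δ = gh.1 0 0 * gh.1 0 0 := ⟨_, rfl⟩
    have hδd : δ * gh.1 0 0 = 1 := by
      rw [hδ]
      linear_combination hd3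
    have hδ3 : δ ^ 3 = 1 := by
      have h : δ ^ 3 = (gh.1 0 0 ^ 3) ^ 2 := by
        rw [hδ]
        ring
      rw [h, hd3, one_pow]
    have hB : gh.1 1 1 * gh.1 2 2 - gh.1 1 2 * gh.1 2 1 = δ := by
      linear_combination δ * hdet - (gh.1 1 1 * gh.1 2 2 - gh.1 1 2 * gh.1 2 1) * hδd
    -- the `SL₂` part
    have hAdet : (!![δ * gh.1 1 1, δ * gh.1 1 2; δ * gh.1 2 1, δ * gh.1 2 2] :
        Matrix (Fin 2) (Fin 2) F).det = 1 := by
      rw [Matrix.det_fin_two]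
      show δ * gh.1 1 1 * (δ * gh.1 2 2) - δ * gh.1 1 2 * (δ * gh.1 2 1) = 1
      linear_combination δ ^ 2 * hB + hδ3
    obtain ⟨A, hA⟩ : ∃ A : Matrix.SpecialLinearGroup (Fin 2) F,
        A = ⟨!![δ * gh.1 1 1, δ * gh.1 1 2; δ * gh.1 2 1, δ * gh.1 2 2], hAdet⟩ := ⟨_, rfl⟩
    have hA00 : A.1 0 0 = δ * gh.1 1 1 := by rw [hA]; rfl
    have hA01 : A.1 0 1 = δ * gh.1 1 2 := by rw [hA]; rfl
    have hA10 : A.1 1 0 = δ * gh.1 2 1 := by rw [hA]; rfl
    have hA11 : A.1 1 1 = δ * gh.1 2 2 := by rw [hA]; rfl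
    obtain ⟨h, hh⟩ : ∃ h : Heis F,
        h = ⟨δ * gh.1 0 1 * (δ * gh.1 2 2) - δ * gh.1 0 2 * (δ * gh.1 2 1), 0,
          -(δ * gh.1 0 1 * (δ * gh.1 1 2)) + δ * gh.1 0 2 * (δ * gh.1 1 1)⟩ := ⟨_, rfl⟩
    have hhp : h.p = δ * gh.1 0 1 * (δ * gh.1 2 2) - δ * gh.1 0 2 * (δ * gh.1 2 1) := by
      rw [hh]
    have hhs : h.s = 0 := by rw [hh]
    have hhr : h.r = -(δ * gh.1 0 1 * (δ * gh.1 1 2)) + δ * gh.1 0 2 * (δ * gh.1 1 1) := by
      rw [hh]
    have key : (heisSL h * jSL A).1 = δ • gh.1 := by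
      show hmat h * jmat A.1 = δ • gh.1
      apply mat3_ext
      · rw [mul3_apply]
        show (1 : F) * 1 + h.p * 0 + h.r * 0 = δ * gh.1 0 0
        linear_combination -hδd
      · rw [mul3_apply]
        show (1 : F) * 0 + h.p * A.1 0 0 + h.r * A.1 1 0 = δ * gh.1 0 1
        rw [hhp, hhr, hA00, hA10]
        linear_combination (δ * gh.1 0 1 * δ ^ 2) * hB + (δ * gh.1 0 1) * hδ3
      · rw [mul3_apply]
        show (1 : F) * 0 + h.p * A.1 0 1 + h.r * A.1 1 1 = δ * gh.1 0 2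
        rw [hhp, hhr, hA01, hA11]
        linear_combination (δ * gh.1 0 2 * δ ^ 2) * hB + (δ * gh.1 0 2) * hδ3
      · rw [mul3_apply]
        show (0 : F) * 1 + 1 * 0 + h.s * 0 = δ * gh.1 1 0
        rw [h10]
        ring
      · rw [mul3_apply]
        show (0 : F) * 0 + 1 * A.1 0 0 + h.s * A.1 1 0 = δ * gh.1 1 1
        rw [hhs, hA00]
        ring
      · rw [mul3_apply]
        show (0 : F) * 0 + 1 * A.1 0 1 + h.s * A.1 1 1 = δ * gh.1 1 2
        rw [hhs, hA01]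
        ring
      · rw [mul3_apply]
        show (0 : F) * 1 + 0 * 0 + 1 * 0 = δ * gh.1 2 0
        rw [h20]
        ring
      · rw [mul3_apply]
        show (0 : F) * 0 + 0 * A.1 0 0 + 1 * A.1 1 0 = δ * gh.1 2 1
        rw [hA10]
        ring
      · rw [mul3_apply]
        show (0 : F) * 0 + 0 * A.1 0 1 + 1 * A.1 1 1 = δ * gh.1 2 2
        rw [hA11]
        ring
    refine ⟨heisPSL h, Subgroup.mem_map_of_mem _ (mem_sgB.2 hhs), A, ?_⟩
    have hfin := mk_eq_of_mul_scalar gh (heisSL h * jSL A) δ hδ3 key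
    rw [map_mul] at hfin
    exact hfin
  · -- odd index
    have hU4 : Nat.card (uSL (F := F)).range = 4 := by
      rw [← Nat.card_congr (MonoidHom.ofInjective uSL_injective).toEquiv,
        Nat.card_eq_fintype_card, Fintype.card_multiplicative]
      exact hF
    have hSL : Nat.card (Matrix.SpecialLinearGroup (Fin 2) F) = 60 := by
      have h := Cfsg.Agent.S0242.result hF 2 (by norm_num)
      rw [Fin.prod_univ_two] at h
      have h' : (4 - 1) * Nat.card (Matrix.SpecialLinearGroup (Fin 2) F) =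
          (4 ^ 2 - 4 ^ 0) * (4 ^ 2 - 4 ^ 1) := h
      norm_num at h'
      omega
    have hidx : (uSL (F := F)).range.index = 15 := by
      have h := Subgroup.card_mul_index (uSL (F := F)).range
      rw [hU4, hSL] at h
      omega
    rw [hidx]
    decide
  · -- the unitriangular subgroup goes into `e1`
    rintro _ ⟨b, rfl⟩
    have h : jPSL (uSL b) = heisPSL (⟨0, b.toAdd, 0⟩ : Heis F) := by
      show QuotientGroup.mk' _ (jSL (uSL b)) = QuotientGroup.mk' _ (heisSL _)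
      rw [jSL_uSL]
    rw [h]
    exact Subgroup.mem_map_of_mem _ (mk_mem_sgA _ _)

end Cfsg.Agent.H35.L34N

namespace Cfsg.Agent.H35.L34NCheck

example : Cfsg.Agent.H91.L34N.Norm2Stmt.{0} := Cfsg.Agent.H35.L34N.norm2
example : Cfsg.Agent.H91.L34N.Norm2Stmt.{2} := Cfsg.Agent.H35.L34N.norm2

end Cfsg.Agent.H35.L34NCheck
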