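import Mathlib
import Cfsg.Agent.H11.Ord420

set_option autoImplicit false

/-!
# Piece FIX96 of S1022 (helper35, for helper21)

In a simple group of order `459648 = 2^7 * 3^3 * 7 * 19` the number of Sylow `19`-subgroups
is not `96`.
-/

namespace Cfsg.Agent.H35.O459

open Subgroup

theorem card_sylow19_ne_96 {G : Type*} [Group G] [Finite G] [IsSimpleGroup G]
    (h : Nat.card G = 459648) : Nat.card (Sylow 19 G) ≠ 96 := by
  intro hn96
  have hG : ¬ IsMulCommutative G :=
    Cfsg.Agent.H21.not_comm_of_not_prime (by rw [h]; norm_num)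
  have hp19 : Fact (Nat.Prime 19) := ⟨by norm_num⟩
  have hp7 : Fact (Nat.Prime 7) := ⟨by norm_num⟩
  obtain ⟨P⟩ : Nonempty (Sylow 19 G) := inferInstance
  obtain ⟨hPc, -, hnidx, hdvd, hmod, hne, -, hNn, -⟩ :=
    Cfsg.Agent.H21.simple_sylow_facts hG (p := 19) (k := 1) (m := 24192) (by rw [h]; norm_num)
      (by norm_num) (by norm_num) P
  have hP19 : Nat.card (P : Subgroup G) = 19 := by rw [hPc]; norm_num
  obtain ⟨d, hd, hd1, hd6, hd7⟩ := Cfsg.Agent.H21.simple_sylow_prime_card_NC hG P hP19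
  have hCN := Cfsg.Agent.H21.card_centralizer_mul_relIndex_normalizer (P : Subgroup G)
  rw [← hd] at hCN
  have hd6' : d ≤ 18 := Nat.le_of_dvd (by norm_num) hd6
  have hd0 : 0 < d := Nat.pos_of_dvd_of_pos hd6 (by norm_num)
  rw [hn96, h] at hNn
  rw [hn96] at hnidx
  have hN : Nat.card (normalizer ((P : Subgroup G) : Set G)) = 4788 := by omega
  rw [hN] at hd7 hCN
  have h7 : 7 ∣ Nat.card (centralizer ((P : Subgroup G) : Set G)) := by
    have hdc : d = 1 ∨ d = 2 ∨ d = 3 ∨ d = 6 ∨ d = 9 ∨ d = 18 := by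
      interval_cases d <;> omega
    rcases hdc with rfl | rfl | rfl | rfl | rfl | rfl <;> omega
  obtain ⟨c, hcC, hc7⟩ := Cfsg.Agent.H21.exists_mem_orderOf_eq_prime
    (centralizer ((P : Subgroup G) : Set G)) 7 h7
  have hNtop : normalizer ((P : Subgroup G) : Set G) ≠ ⊤ := by
    intro h'
    rw [h', index_top] at hnidx
    omega
  have hc1 : c ≠ 1 := by
    rintro rfl
    rw [orderOf_one] at hc7
    omega
  have hlt := Cfsg.Agent.H21.card_fixedBy_lt_index (normalizer ((P : Subgroup G) : Set G))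
    hNtop c hc1
  have hmod19 := Cfsg.Agent.H11.SmallOrd.card_fixedBy_centralizer_mod 19 P hP19 c hcC
  have hmod7 := Cfsg.Agent.H11.SmallOrd.card_modEq_card_fixedBy
    (X := G ⧸ normalizer ((P : Subgroup G) : Set G)) 7 c hc7
  have hcard : Nat.card (G ⧸ normalizer ((P : Subgroup G) : Set G)) = 96 := by
    rw [← hnidx]
    rfl
  rw [hcard] at hmod7
  unfold Nat.ModEq at hmod7
  rw [hnidx] at hlt
  omega

end Cfsg.Agent.H35.O459

namespace Cfsg.Agent.H35.O459Check

example {G : Type*} [Group G] [Finite G] [IsSimpleGroup G]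
    (h : Nat.card G = 459648) : Nat.card (Sylow 19 G) ≠ 96 :=
  Cfsg.Agent.H35.O459.card_sylow19_ne_96 h

end Cfsg.Agent.H35.O459Check
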