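import Mathlib
import Cfsg.Agent.H4.BrauerBasic

set_option autoImplicit false
set_option linter.style.haveILetI false

/-!
# Piece L38 of S1022 (helper35, for helper21)

If `x` of odd prime order `r` commutes with an involution `t`, and a character `χ` takes the
same integer value `c` on all `x ^ i` and all `x ^ i * t` with `r ∤ i`, then
`2 * r ∣ χ 1 - χ t`.
-/

namespace Cfsg.Agent.H35.O459

open Cfsg
open scoped ComplexConjugate

theorem sum_range_mul_two (f : ℕ → ℂ) (N : ℕ) :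
    ∑ k ∈ Finset.range (N * 2), f k = ∑ j ∈ Finset.range N, (f (2 * j) + f (2 * j + 1)) := by
  induction N with
  | zero => simp
  | succ N ih =>
    have e : (N + 1) * 2 = N * 2 + 1 + 1 := by ring
    rw [e, Finset.sum_range_succ, Finset.sum_range_succ, ih, Finset.sum_range_succ,
      mul_comm N 2]
    ring

theorem two_mul_dvd_sub {G : Type*} [Group G] [Finite G] (χ : G → ℂ) (hχ : IsCharacter G χ)
    (r : ℕ) (hr : r.Prime) (hr2 : r ≠ 2) (x t : G) (hx : orderOf x = r) (ht : orderOf t = 2)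
    (hxt : x * t = t * x) (n : ℕ) (hn : χ 1 = n) (a c : ℤ) (ha : χ t = a)
    (h1 : ∀ i : ℕ, ¬ r ∣ i → χ (x ^ i) = c) (h2 : ∀ i : ℕ, ¬ r ∣ i → χ (x ^ i * t) = c) :
    (2 * (r : ℤ)) ∣ (n : ℤ) - a := by
  classical
  have hcomm : Commute x t := hxt
  have hcop : Nat.Coprime (orderOf x) (orderOf t) := by
    rw [hx, ht]
    exact (Nat.coprime_primes hr Nat.prime_two).2 hr2
  have hoz : orderOf (x * t) = r * 2 := by
    rw [hcomm.orderOf_mul_eq_mul_orderOf_of_coprime hcop, hx, ht]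
  have hgen : ∀ y : Subgroup.zpowers (x * t),
      y ∈ Subgroup.zpowers (⟨x * t, Subgroup.mem_zpowers (x * t)⟩ : Subgroup.zpowers (x * t)) := by
    rintro ⟨y, hy⟩
    obtain ⟨k, rfl⟩ := Subgroup.mem_zpowers_iff.1 hy
    exact Subgroup.mem_zpowers_iff.2 ⟨k, Subtype.ext (by simp)⟩
  have hoz' : orderOf (⟨x * t, Subgroup.mem_zpowers (x * t)⟩ : Subgroup.zpowers (x * t))
      = r * 2 := by
    rw [Subgroup.orderOf_mk, hoz]
  have hdvd : orderOf (-1 : ℂˣ) ∣
      orderOf (⟨x * t, Subgroup.mem_zpowers (x * t)⟩ : Subgroup.zpowers (x * t)) := by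
    rw [hoz']
    exact (orderOf_dvd_of_pow_eq_one (by simp)).trans (dvd_mul_left 2 r)
  have hlam : (monoidHomOfForallMemZpowers hgen hdvd)
      (⟨x * t, Subgroup.mem_zpowers (x * t)⟩ : Subgroup.zpowers (x * t)) = -1 :=
    monoidHomOfForallMemZpowers_apply_gen hgen hdvd
  letI : Fintype (Subgroup.zpowers (x * t)) := Fintype.ofFinite _
  have hχZ : IsCharacter (Subgroup.zpowers (x * t)) (fun h : Subgroup.zpowers (x * t) => χ h) :=
    Cfsg.Agent.H4.isCharacter_restrict _ hχ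
  have hlamc : IsCharacter (Subgroup.zpowers (x * t))
      (fun g => (((monoidHomOfForallMemZpowers hgen hdvd) g : ℂˣ) : ℂ)) :=
    Cfsg.Agent.H4.isCharacter_of_hom _
  obtain ⟨m, hm⟩ := Cfsg.Agent.H4.classInner_isCharacter_nat hχZ hlamc
  have hcard : Nat.card (Subgroup.zpowers (x * t)) = r * 2 := by
    rw [Nat.card_zpowers, hoz]
  have ht' : t ^ 2 = 1 := by
    rw [← ht]
    exact pow_orderOf_eq_one t
  obtain ⟨j0, hj0⟩ : ∃ j0, r = 2 * j0 + 1 := by
    rcases hr.eq_two_or_odd' with h | h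
    · exact absurd h hr2
    · exact h
  have hf : ∀ k : ℕ, χ ((x * t) ^ k) *
      conj ((((monoidHomOfForallMemZpowers hgen hdvd)
        ((⟨x * t, Subgroup.mem_zpowers (x * t)⟩ : Subgroup.zpowers (x * t)) ^ k) : ℂˣ)) : ℂ)
      = (-1 : ℂ) ^ k * χ (x ^ k * t ^ k) := by
    intro k
    rw [map_pow, hlam, hcomm.mul_pow]
    simp [mul_comm]
  have hg : ∀ j ∈ Finset.range r, χ (x ^ (2 * j) * t ^ (2 * j))
      = (if j = 0 then ((n : ℂ) - c) else 0) + c := by
    intro j hj
    have hj' := Finset.mem_range.1 hj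
    have ht2 : t ^ (2 * j) = 1 := by rw [pow_mul, ht', one_pow]
    rw [ht2, mul_one]
    by_cases hj0' : j = 0
    · subst hj0'
      simp [hn]
    · rw [if_neg hj0', zero_add]
      apply h1
      intro hdiv
      rcases (Nat.Prime.dvd_mul hr).1 hdiv with h | h
      · have h3 := Nat.le_of_dvd (by norm_num) h
        have h4 := hr.two_le
        omega
      · have h3 := Nat.le_of_dvd (by omega) h
        omega
  have hh : ∀ j ∈ Finset.range r, χ (x ^ (2 * j + 1) * t ^ (2 * j + 1))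
      = (if j = j0 then ((a : ℂ) - c) else 0) + c := by
    intro j hj
    have hj' := Finset.mem_range.1 hj
    have ht2 : t ^ (2 * j + 1) = t := by rw [pow_succ, pow_mul, ht', one_pow, one_mul]
    rw [ht2]
    by_cases hjj : j = j0
    · subst hjj
      rw [← hj0, ← hx, pow_orderOf_eq_one, one_mul, ha]
      simp
    · rw [if_neg hjj, zero_add]
      apply h2
      rintro ⟨q, hq⟩
      have hq1 : q = 1 := by
        rcases q with _ | _ | q
        · omega
        · rfl
        · exfalso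
          nlinarith
      subst hq1
      omega
  have hsum : ∑ g : Subgroup.zpowers (x * t),
      χ g * conj ((((monoidHomOfForallMemZpowers hgen hdvd) g : ℂˣ)) : ℂ)
      = (n : ℂ) - (a : ℂ) := by
    have hfin : IsOfFinOrder (x * t) := isOfFinOrder_of_finite (x * t)
    rw [← Equiv.sum_comp (finEquivZPowers hfin)]
    have e1 : ∀ k : Fin (orderOf (x * t)),
        χ ((finEquivZPowers hfin k : Subgroup.zpowers (x * t)) : G) *
          conj ((((monoidHomOfForallMemZpowers hgen hdvd) (finEquivZPowers hfin k) : ℂˣ)) : ℂ)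
        = (fun k : ℕ => (-1 : ℂ) ^ k * χ (x ^ k * t ^ k)) (k : ℕ) := by
      intro k
      have hk : finEquivZPowers hfin k
          = (⟨x * t, Subgroup.mem_zpowers (x * t)⟩ : Subgroup.zpowers (x * t)) ^ (k : ℕ) := by
        apply Subtype.ext
        rw [finEquivZPowers_apply]
        simp
      rw [hk, Subgroup.coe_pow]
      exact hf (k : ℕ)
    rw [Finset.sum_congr rfl (fun k _ => e1 k),
      Fin.sum_univ_eq_sum_range (fun k : ℕ => (-1 : ℂ) ^ k * χ (x ^ k * t ^ k))
        (orderOf (x * t)), hoz, sum_range_mul_two]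
    have e2 : ∀ j ∈ Finset.range r,
        (-1 : ℂ) ^ (2 * j) * χ (x ^ (2 * j) * t ^ (2 * j)) +
          (-1 : ℂ) ^ (2 * j + 1) * χ (x ^ (2 * j + 1) * t ^ (2 * j + 1))
        = (if j = 0 then ((n : ℂ) - c) else 0) - (if j = j0 then ((a : ℂ) - c) else 0) := by
      intro j hj
      have p1 : (-1 : ℂ) ^ (2 * j) = 1 := by
        rw [pow_mul]
        norm_num
      rw [hg j hj, hh j hj, pow_succ, p1]
      ring
    rw [Finset.sum_congr rfl e2, Finset.sum_sub_distrib, Finset.sum_ite_eq',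
      Finset.sum_ite_eq', if_pos (Finset.mem_range.2 hr.pos),
      if_pos (Finset.mem_range.2 (by omega))]
    ring
  rw [classInner, hcard, hsum] at hm
  have hr0 : ((r * 2 : ℕ) : ℂ) ≠ 0 := by
    have := hr.pos
    exact_mod_cast (by omega : r * 2 ≠ 0)
  have h3 : (n : ℂ) - (a : ℂ) = ((2 * (r : ℤ) * (m : ℤ) : ℤ) : ℂ) := by
    have h4 : (n : ℂ) - (a : ℂ) = ((r * 2 : ℕ) : ℂ) * (m : ℂ) := by
      rw [← hm, ← mul_assoc, mul_inv_cancel₀ hr0, one_mul]
    rw [h4]
    push_cast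
    ring
  have h5 : (n : ℤ) - a = 2 * (r : ℤ) * m := by exact_mod_cast h3
  exact ⟨m, h5⟩

end Cfsg.Agent.H35.O459

namespace Cfsg.Agent.H35.O459Check

open Cfsg

example {G : Type*} [Group G] [Finite G] (χ : G → ℂ) (hχ : IsCharacter G χ)
    (r : ℕ) (hr : r.Prime) (hr2 : r ≠ 2) (x t : G) (hx : orderOf x = r) (ht : orderOf t = 2)
    (hxt : x * t = t * x) (n : ℕ) (hn : χ 1 = n) (a c : ℤ) (ha : χ t = a)
    (h1 : ∀ i : ℕ, ¬ r ∣ i → χ (x ^ i) = c) (h2 : ∀ i : ℕ, ¬ r ∣ i → χ (x ^ i * t) = c) :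
    (2 * (r : ℤ)) ∣ (n : ℤ) - a :=
  Cfsg.Agent.H35.O459.two_mul_dvd_sub χ hχ r hr hr2 x t hx ht hxt n hn a c ha h1 h2

end Cfsg.Agent.H35.O459Check
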