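import Mathlib
import Cfsg.Agent.H99.OrtDefs

set_option autoImplicit false

/-!
# Piece IDXO of S5981 (helper35, for helper99)

A subgroup of isometries of determinant `1` bounds the index of the orthogonal similarity group
in the special linear group.
-/

open scoped MatrixGroups

universe u

namespace Cfsg.Agent.H35.Ort

open Cfsg.Agent.H99.Ort

/-- The quadratic form of `Mᵀ B M`. -/
theorem idxo_quad {F : Type u} [Field F] {n : ℕ} (M B : Matrix (Fin n) (Fin n) F)
    (u : Fin n → F) :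
    dotProduct u ((M.transpose * B * M).mulVec u) = dotProduct (M.mulVec u) (B.mulVec (M.mulVec u)) := by
  rw [← Matrix.mulVec_mulVec, ← Matrix.mulVec_mulVec, Matrix.dotProduct_mulVec,
    Matrix.vecMul_transpose]

theorem idxO : StIdxO.{u} := by
  intro F _ _ n hn h2 Q P A A₀ T hP hT hQP hTA K hK
  classical
  have hne : Nonempty (Fin n) := ⟨⟨0, by omega⟩⟩
  obtain ⟨R, hR⟩ : ∃ R : GL (Fin n) F, (R : Matrix (Fin n) (Fin n) F) = P * T :=
    ⟨((Matrix.isUnit_iff_isUnit_det _).2 (by rw [Matrix.det_mul]; exact hP.mul hT)).unit, rfl⟩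
  have hform : ∀ u : Fin n → F,
      2 * Q ((R : Matrix (Fin n) (Fin n) F).mulVec u) = dotProduct u (A₀.mulVec u) := by
    intro u
    rw [hR, ← Matrix.mulVec_mulVec, hQP, ← hTA, idxo_quad]
  -- the conjugate of `K`
  have hsub : K.map (MulAut.conj R).toMonoidHom
      ≤ Cfsg.Geo.quadSimilarityGroup Q ⊓ Cfsg.Geo.specialLinear (Fin n) F := by
    rintro x ⟨g, hg, rfl⟩
    have hx : (MulAut.conj R).toMonoidHom g = R * g * R⁻¹ := rfl
    rw [hx]
    refine ⟨?_, ?_⟩
    · show ∃ c : Fˣ, ∀ v, Q (((R * g * R⁻¹ : GL (Fin n) F) : Matrix (Fin n) (Fin n) F).mulVec v)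
          = (c : F) * Q v
      refine ⟨1, fun w => ?_⟩
      rw [Units.val_one, one_mul]
      have hRR : (R : Matrix (Fin n) (Fin n) F) * ((R⁻¹ : GL (Fin n) F) : Matrix (Fin n) (Fin n) F)
          = 1 := Units.mul_inv R
      have e1 : ((R * g * R⁻¹ : GL (Fin n) F) : Matrix (Fin n) (Fin n) F).mulVec w
          = (R : Matrix (Fin n) (Fin n) F).mulVec ((g : Matrix (Fin n) (Fin n) F).mulVec
              (((R⁻¹ : GL (Fin n) F) : Matrix (Fin n) (Fin n) F).mulVec w)) := by
        rw [Units.val_mul, Units.val_mul, Matrix.mulVec_mulVec, Matrix.mulVec_mulVec]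
      have e2 : w = (R : Matrix (Fin n) (Fin n) F).mulVec
          (((R⁻¹ : GL (Fin n) F) : Matrix (Fin n) (Fin n) F).mulVec w) := by
        rw [Matrix.mulVec_mulVec, hRR, Matrix.one_mulVec]
      apply mul_left_cancel₀ h2
      rw [e1, hform]
      conv_rhs => rw [e2, hform]
      rw [← idxo_quad, (hK g hg).1]
    · show R * g * R⁻¹ ∈ (Matrix.GeneralLinearGroup.det : GL (Fin n) F →* Fˣ).ker
      rw [MonoidHom.mem_ker, map_mul, map_mul, map_inv, mul_comm, inv_mul_cancel_left]
      apply Units.ext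
      rw [Matrix.GeneralLinearGroup.val_det_apply]
      exact (hK g hg).2
  have hcardK : Nat.card (K.map (MulAut.conj R).toMonoidHom) = Nat.card K :=
    Subgroup.card_map_of_injective (MulAut.conj R).injective
  have hdvd : Nat.card K ∣
      Nat.card (Cfsg.Geo.quadSimilarityGroup Q ⊓ Cfsg.Geo.specialLinear (Fin n) F :
        Subgroup (GL (Fin n) F)) := by
    rw [← hcardK]
    exact Subgroup.card_dvd_of_le hsub
  -- index of `SL`
  have hSidx : (Cfsg.Geo.specialLinear (Fin n) F).index = Fintype.card F - 1 := by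
    show ((Matrix.GeneralLinearGroup.det : GL (Fin n) F →* Fˣ).ker).index = Fintype.card F - 1
    rw [Subgroup.index_ker, MonoidHom.range_eq_top.2 Matrix.GeneralLinearGroup.det_surjective,
      Subgroup.card_top, Nat.card_eq_fintype_card, Fintype.card_units]
  have h1 := Subgroup.relIndex_mul_index
    (inf_le_right : Cfsg.Geo.quadSimilarityGroup Q ⊓ Cfsg.Geo.specialLinear (Fin n) F
      ≤ Cfsg.Geo.specialLinear (Fin n) F)
  rw [Subgroup.inf_relIndex_right, hSidx] at h1
  have h3 := Subgroup.card_mul_index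
    (Cfsg.Geo.quadSimilarityGroup Q ⊓ Cfsg.Geo.specialLinear (Fin n) F :
      Subgroup (GL (Fin n) F))
  obtain ⟨j, hj⟩ := hdvd
  rw [← h3, ← h1, hj]
  exact ⟨j, by ring⟩

end Cfsg.Agent.H35.Ort

namespace Cfsg.Agent.H35.OrtIDXOCheck

example : Cfsg.Agent.H99.Ort.StIdxO.{u} := Cfsg.Agent.H35.Ort.idxO

end Cfsg.Agent.H35.OrtIDXOCheck
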