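import Mathlib
import Cfsg.Agent.H99.OrtDefs

set_option autoImplicit false

/-!
# Piece WD1 of S5981 (helper35, for helper99)

The diagonal `(ζ, ζ, ζ⁻², 1, …, 1)` has asymmetric multiplicities.
-/

open scoped MatrixGroups

universe u

namespace Cfsg.Agent.H35.Ort

open Cfsg.Agent.H99.Ort

theorem wd1 : StWD1.{u} := by
  intro F _ n r hn hr hr5 h55 ζ hζ hζ1
  classical
  have hrF : Fact r.Prime := ⟨hr⟩
  have ho : orderOf ζ = r := orderOf_eq_prime hζ hζ1
  have hdvd : ∀ k : ℕ, ζ ^ k = 1 → r ∣ k := fun k hk => ho ▸ orderOf_dvd_of_pow_eq_one hk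
  have hζ0 : ζ ≠ 0 := by
    rintro rfl
    rw [zero_pow hr.ne_zero] at hζ
    exact zero_ne_one hζ
  have h2 : ζ ^ 2 ≠ 1 := fun h => by
    have := Nat.le_of_dvd (by norm_num) (hdvd 2 h)
    omega
  have h3 : ζ ^ 3 ≠ 1 := fun h => by
    have := Nat.le_of_dvd (by norm_num) (hdvd 3 h)
    omega
  have h4 : ζ ^ 4 ≠ 1 := fun h => by
    have := Nat.le_of_dvd (by norm_num) (hdvd 4 h)
    omega
  have h6 : ζ ^ 6 ≠ 1 := fun h => by
    have h' := hdvd 6 h
    have h'' := Nat.le_of_dvd (by norm_num) h'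
    interval_cases r
    · omega
    · exact absurd hr (by norm_num)
  have h5 : ζ ^ 5 = 1 → r = 5 := fun h => by
    have h' := hdvd 5 h
    have h'' := Nat.le_of_dvd (by norm_num) h'
    omega
  have hz2 : ζ ^ 2 ≠ 0 := pow_ne_zero 2 hζ0
  have hd1 : (ζ ^ 2)⁻¹ ≠ ζ := by
    intro h
    apply h3
    have h' : ζ ^ 2 * (ζ ^ 2)⁻¹ = 1 := mul_inv_cancel₀ hz2
    rw [h] at h'
    rw [← h']
    ring
  have hd2 : (ζ ^ 2)⁻¹ ≠ 1 := by
    intro h
    apply h2
    have h' : ζ ^ 2 * (ζ ^ 2)⁻¹ = 1 := mul_inv_cancel₀ hz2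
    rw [h, mul_one] at h'
    exact h'
  obtain ⟨m, rfl⟩ : ∃ m, n = 3 + m := ⟨n - 3, by omega⟩
  obtain ⟨dN, hdN⟩ : ∃ dN : ℕ → F,
      dN = fun k => if k < 2 then ζ else if k = 2 then (ζ ^ 2)⁻¹ else 1 := ⟨_, rfl⟩
  have h0 : dN 0 = ζ := by rw [hdN]; simp
  have h1 : dN 1 = ζ := by rw [hdN]; simp
  have h2' : dN 2 = (ζ ^ 2)⁻¹ := by rw [hdN]; simp
  have htl : ∀ x : ℕ, dN (3 + x) = 1 := by
    intro x
    rw [hdN]
    show (if 3 + x < 2 then ζ else if 3 + x = 2 then (ζ ^ 2)⁻¹ else 1) = 1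
    rw [if_neg (by omega), if_neg (by omega)]
  have hmult : ∀ ν : F, Nat.card {i : Fin (3 + m) // dN i = ν}
      = (if ζ = ν then 2 else 0) + (if (ζ ^ 2)⁻¹ = ν then 1 else 0)
        + (if (1 : F) = ν then m else 0) := by
    intro ν
    rw [Nat.card_eq_fintype_card, Fintype.card_subtype, Finset.card_filter,
      Fin.sum_univ_eq_sum_range (fun k => if dN k = ν then 1 else 0) (3 + m),
      Finset.sum_range_add]
    have htail : ∀ x ∈ Finset.range m,
        (if dN (3 + x) = ν then 1 else 0) = (if (1 : F) = ν then 1 else 0) := by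
      intro x _
      rw [htl]
    rw [Finset.sum_congr rfl htail, Finset.sum_const, Finset.card_range, smul_eq_mul]
    simp only [Finset.sum_range_succ, Finset.sum_range_zero, zero_add, h0, h1, h2']
    by_cases e1 : ζ = ν <;> by_cases e2 : (ζ ^ 2)⁻¹ = ν <;> by_cases e3 : (1 : F) = ν <;>
      simp [e1, e2, e3]
  refine ⟨fun i => dN i, ?_, ?_, ?_, ?_⟩
  · rw [Fin.prod_univ_eq_prod_range (fun k => dN k) (3 + m), Finset.prod_range_add]
    have htail : ∏ x ∈ Finset.range m, dN (3 + x) = 1 :=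
      Finset.prod_eq_one (fun x _ => htl x)
    rw [htail, mul_one]
    simp only [Finset.prod_range_succ, Finset.prod_range_zero, one_mul, h0, h1, h2']
    rw [← pow_two]
    exact mul_inv_cancel₀ hz2
  · intro i
    show dN i ^ r = 1
    rw [hdN]
    show (if (i : ℕ) < 2 then ζ else if (i : ℕ) = 2 then (ζ ^ 2)⁻¹ else 1) ^ r = 1
    split_ifs
    · exact hζ
    · rw [inv_pow, ← pow_mul, mul_comm, pow_mul, hζ, one_pow, inv_one]
    · exact one_pow r
  · refine ⟨⟨0, by omega⟩, ⟨2, by omega⟩, ?_⟩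
    show dN 0 ≠ dN 2
    rw [h0, h2']
    exact hd1.symm
  · rintro ⟨c, hc0, hsym⟩
    have e1 : Nat.card {i : Fin (3 + m) // dN i = ζ}
        = Nat.card {i : Fin (3 + m) // dN i = c * ζ⁻¹} := hsym ζ hζ0
    have e2 : Nat.card {i : Fin (3 + m) // dN i = (ζ ^ 2)⁻¹}
        = Nat.card {i : Fin (3 + m) // dN i = c * ((ζ ^ 2)⁻¹)⁻¹} :=
      hsym (ζ ^ 2)⁻¹ (inv_ne_zero hz2)
    rw [hmult, hmult, if_pos rfl, if_neg hd1, if_neg (Ne.symm hζ1)] at e1
    rw [hmult, hmult, if_neg hd1.symm, if_pos rfl, if_neg (Ne.symm hd2), inv_inv] at e2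
    have hE : ζ = c * ζ⁻¹ ∨ ((1 : F) = c * ζ⁻¹ ∧ m = 2) := by
      by_cases a1 : ζ = c * ζ⁻¹
      · exact Or.inl a1
      · right
        rw [if_neg a1] at e1
        by_cases a3 : (1 : F) = c * ζ⁻¹
        · refine ⟨a3, ?_⟩
          have a2 : ¬ (ζ ^ 2)⁻¹ = c * ζ⁻¹ := fun a2 => hd2 (a2.trans a3.symm)
          rw [if_pos a3, if_neg a2] at e1
          omega
        · rw [if_neg a3] at e1
          split_ifs at e1 <;> omega
    have hF : (ζ ^ 2)⁻¹ = c * ζ ^ 2 ∨ ((1 : F) = c * ζ ^ 2 ∧ m = 1) := by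
      by_cases b2 : (ζ ^ 2)⁻¹ = c * ζ ^ 2
      · exact Or.inl b2
      · right
        rw [if_neg b2] at e2
        by_cases b3 : (1 : F) = c * ζ ^ 2
        · refine ⟨b3, ?_⟩
          have b1 : ¬ ζ = c * ζ ^ 2 := fun b1 => hζ1 (b1.trans b3.symm)
          rw [if_pos b3, if_neg b1] at e2
          omega
        · rw [if_neg b3] at e2
          split_ifs at e2 <;> omega
    rcases hE with a1 | ⟨a3, hm2⟩
    · have hc : c = ζ ^ 2 := by
        rw [pow_two]
        calc c = c * ζ⁻¹ * ζ := by rw [inv_mul_cancel_right₀ hζ0]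
          _ = ζ * ζ := by rw [← a1]
      rcases hF with b2 | ⟨b3, hm1⟩
      · have h' : c * ζ ^ 2 * ζ ^ 2 = 1 := by rw [← b2, inv_mul_cancel₀ hz2]
        apply h6
        rw [← h', hc]
        ring
      · apply h4
        rw [b3, hc]
        ring
    · have hc : c = ζ := by
        calc c = c * ζ⁻¹ * ζ := by rw [inv_mul_cancel_right₀ hζ0]
          _ = ζ := by rw [← a3, one_mul]
      rcases hF with b2 | ⟨b3, hm1⟩
      · have h' : c * ζ ^ 2 * ζ ^ 2 = 1 := by rw [← b2, inv_mul_cancel₀ hz2]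
        have h5' : ζ ^ 5 = 1 := by
          rw [← h', hc]
          ring
        exact h55 ⟨by omega, h5 h5'⟩
      · omega

end Cfsg.Agent.H35.Ort

namespace Cfsg.Agent.H35.OrtWD1Check

example : Cfsg.Agent.H99.Ort.StWD1.{u} := Cfsg.Agent.H35.Ort.wd1

end Cfsg.Agent.H35.OrtWD1Check
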