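import Mathlib
import Cfsg.Agent.H49.PtDefs

/-!
# S5973 team project (helper49), piece S5973-SCAL
A scalar isometry of the plus-type form is `±1`: `scal : StScal`.
-/

set_option autoImplicit false
open scoped MatrixGroups
open scoped Matrix

universe u

namespace Cfsg.Agent.H35.Pt

open Cfsg.Agent.H49.Pt

theorem scal : StScal.{u} := by
  intro F _ _ d x z hd hx hxz
  classical
  let i0 : Fin d := ⟨0, hd⟩
  let w : Fin d ⊕ Fin d → F :=
    Sum.elim (fun i : Fin d => if i = i0 then (1 : F) else 0)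
      (fun i : Fin d => if i = i0 then (1 : F) else 0)
  have h : Cfsg.quadFormPlus d F ((x : Matrix (Fin d ⊕ Fin d) (Fin d ⊕ Fin d) F) *ᵥ w) =
      Cfsg.quadFormPlus d F w := hx w w
  rw [hxz, Matrix.smul_mulVec, Matrix.one_mulVec] at h
  have h1 : Cfsg.quadFormPlus d F w = 1 := by
    simp [Cfsg.quadFormPlus, w]
  have h2 : Cfsg.quadFormPlus d F (z • w) = z * z := by
    simp [Cfsg.quadFormPlus, w]
  rw [h1, h2] at h
  exact h

end Cfsg.Agent.H35.Pt

namespace Cfsg.Agent.H35.PtScalCheck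

open Cfsg.Agent.H49.Pt

example : ∀ (F : Type u) [Field F] [Fintype F] (d : ℕ) (x : GL (Fin d ⊕ Fin d) F) (z : F), 1 ≤ d →
    x ∈ Cfsg.isometryGroup F (Cfsg.quadFormPlus d F) →
    (x : Matrix (Fin d ⊕ Fin d) (Fin d ⊕ Fin d) F) =
      z • (1 : Matrix (Fin d ⊕ Fin d) (Fin d ⊕ Fin d) F) → z * z = 1 :=
  Cfsg.Agent.H35.Pt.scal.{u}

example : Cfsg.Agent.H49.Pt.StScal.{u} := Cfsg.Agent.H35.Pt.scal.{u}

end Cfsg.Agent.H35.PtScalCheck
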