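import Mathlib
import Cfsg.Agent.H49.PtDefs

/-!
# S5973 team project (helper49), piece S5973-SIGN
An isometry `x` with `x ^ r` scalar, `r` odd, has the same invariant subspaces as an isometry
`y = ± x` with `y ^ r = 1`: `sign (hScal : StScal) : StSign`.
-/

set_option autoImplicit false
open scoped MatrixGroups
open scoped Matrix

universe u

namespace Cfsg.Agent.H35.Pt

open Cfsg.Agent.H49.Pt

theorem quadFormPlus_neg {F : Type u} [Field F] (d : ℕ) (v : Fin d ⊕ Fin d → F) :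
    Cfsg.quadFormPlus d F (-v) = Cfsg.quadFormPlus d F v := by
  simp [Cfsg.quadFormPlus]

theorem sign (hScal : StScal.{u}) : StSign.{u} := by
  intro F _ _ d x r z hd hr hx hxz
  have hxr : x ^ r ∈ Cfsg.isometryGroup F (Cfsg.quadFormPlus d F) := Subgroup.pow_mem _ hx r
  have hz := hScal F d (x ^ r) z hd hxr hxz
  rcases mul_self_eq_one_iff.mp hz with rfl | rfl
  · refine ⟨x, hx, ?_, fun W h => h⟩
    apply Units.ext
    rw [hxz]
    simp
  · refine ⟨-x, ?_, ?_, ?_⟩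
    · intro v v'
      show Cfsg.quadFormPlus d F
        (((-x : GL (Fin d ⊕ Fin d) F) : Matrix (Fin d ⊕ Fin d) (Fin d ⊕ Fin d) F) *ᵥ v) =
          Cfsg.quadFormPlus d F v
      rw [Units.val_neg, Matrix.neg_mulVec, quadFormPlus_neg]
      exact hx v v'
    · rw [hr.neg_pow]
      apply Units.ext
      rw [Units.val_neg, hxz]
      simp
    · intro W hW
      rintro _ ⟨w, hw, rfl⟩
      have h1 : Matrix.toLin'
          ((-x : GL (Fin d ⊕ Fin d) F) : Matrix (Fin d ⊕ Fin d) (Fin d ⊕ Fin d) F) w ∈ W :=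
        hW ⟨w, hw, rfl⟩
      rw [Units.val_neg, map_neg, LinearMap.neg_apply] at h1
      exact neg_mem_iff.mp h1

end Cfsg.Agent.H35.Pt

namespace Cfsg.Agent.H35.PtSignCheck

open Cfsg.Agent.H49.Pt

example (hScal : Cfsg.Agent.H49.Pt.StScal.{u}) :
    ∀ (F : Type u) [Field F] [Fintype F] (d : ℕ) (x : GL (Fin d ⊕ Fin d) F) (r : ℕ) (z : F),
    1 ≤ d → Odd r → x ∈ Cfsg.isometryGroup F (Cfsg.quadFormPlus d F) →
    ((x ^ r : GL (Fin d ⊕ Fin d) F) : Matrix (Fin d ⊕ Fin d) (Fin d ⊕ Fin d) F) =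
      z • (1 : Matrix (Fin d ⊕ Fin d) (Fin d ⊕ Fin d) F) →
    ∃ y : GL (Fin d ⊕ Fin d) F, y ∈ Cfsg.isometryGroup F (Cfsg.quadFormPlus d F) ∧ y ^ r = 1 ∧
      ∀ W : Submodule F (Fin d ⊕ Fin d → F),
        W.map (Matrix.toLin' (y : Matrix (Fin d ⊕ Fin d) (Fin d ⊕ Fin d) F)) ≤ W →
        W.map (Matrix.toLin' (x : Matrix (Fin d ⊕ Fin d) (Fin d ⊕ Fin d) F)) ≤ W :=
  Cfsg.Agent.H35.Pt.sign.{u} hScal

example (hScal : Cfsg.Agent.H49.Pt.StScal.{u}) : Cfsg.Agent.H49.Pt.StSign.{u} :=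
  Cfsg.Agent.H35.Pt.sign.{u} hScal

end Cfsg.Agent.H35.PtSignCheck
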