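import Mathlib
import Cfsg.Agent.H52.QSDefs
import Cfsg.Agent.H29.Dk8

/-!
# QS-DICK4 (piece of helper52's team project S2787)

The monoid generated by `uT lam`, `lT 1` in `SL₂(K)` (`K` finite of odd characteristic,
`lam ≠ 0`) contains an element of order `4`: the image of `!![0, 1; -1, 0]` under helper29's
embedding of `SL₂(p)` (weak Dickson theorem).
-/

set_option autoImplicit false

namespace Cfsg.Agent.H35.QS

open Matrix Cfsg.Agent.H29.Dk Cfsg.Agent.H65.SL2 Cfsg.Agent.H52.QS

theorem dick4 : StDick4 := by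
  intro p _ hp2 K _ _ _ lam hlam
  have hp : p.Prime := Fact.out
  have h1 : uT lam ∈
      Subgroup.closure ({uT lam, lT 1} : Set (Matrix.SpecialLinearGroup (Fin 2) K)) :=
    Subgroup.subset_closure (Set.mem_insert _ _)
  have h2 : lT (1 : K) ∈
      Subgroup.closure ({uT lam, lT 1} : Set (Matrix.SpecialLinearGroup (Fin 2) K)) :=
    Subgroup.subset_closure (Set.mem_insert_of_mem _ rfl)
  have hcomm : uT lam * lT (1 : K) ≠ lT 1 * uT lam := by
    intro h
    have h00 := congrArg (fun g : Matrix.SpecialLinearGroup (Fin 2) K => g.1 0 0) h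
    simp only [mul00, uT00, uT01, lT00, lT10, lT01, uT10] at h00
    apply hlam
    linear_combination h00
  obtain ⟨ψ, hinj, hrange⟩ := dickson_weak p hp2 _ h1 h2 (tr_uT lam) (tr_lT 1) hcomm
  let w : Matrix.SpecialLinearGroup (Fin 2) (ZMod p) :=
    ⟨!![0, 1; -1, 0], by simp [Matrix.det_fin_two]⟩
  have w00 : w.1 0 0 = 0 := rfl
  have w01 : w.1 0 1 = 1 := rfl
  have w10 : w.1 1 0 = -1 := rfl
  have w11 : w.1 1 1 = 0 := rfl
  have hw2 : w ^ 2 ≠ 1 := by
    intro h
    have h00 := congrArg (fun g : Matrix.SpecialLinearGroup (Fin 2) (ZMod p) => g.1 0 0) h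
    rw [pow_two] at h00
    simp only [mul00, w00, w01, w10, Matrix.SpecialLinearGroup.coe_one, Matrix.one_apply_eq]
      at h00
    have h2z : ((2 : ℕ) : ZMod p) = 0 := by
      push_cast
      linear_combination -h00
    have hd : p ∣ 2 := (ZMod.natCast_eq_zero_iff 2 p).mp h2z
    have hle : p ≤ 2 := Nat.le_of_dvd (by norm_num) hd
    have := hp.two_le
    omega
  have hw4 : w ^ 4 = 1 := by
    have e : w ^ 4 = w * w * (w * w) := by
      rw [show 4 = 2 + 2 from rfl, pow_add, pow_two]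
    rw [e]
    apply ext4 <;> simp [mul00, mul01, mul10, mul11, w00, w01, w10, w11]
  refine ⟨ψ w, ?_, ?_, ?_⟩
  · have hm : ψ w ∈
        Subgroup.closure ({uT lam, lT 1} : Set (Matrix.SpecialLinearGroup (Fin 2) K)) :=
      hrange ⟨w, rfl⟩
    rw [← Subgroup.closure_toSubmonoid_of_finite]
    exact hm
  · rw [← map_pow]
    intro h
    exact hw2 (hinj (by rw [h, map_one]))
  · rw [← map_pow, hw4, map_one]

end Cfsg.Agent.H35.QS

namespace Cfsg.Agent.H35.QSDick4Check

example : Cfsg.Agent.H52.QS.StDick4 := Cfsg.Agent.H35.QS.dick4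

end Cfsg.Agent.H35.QSDick4Check
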