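import Mathlib
import Cfsg.Agent.H66.SpDefs
import Cfsg.Agent.H52.SpDefs
import Cfsg.Agent.H40.SpGLP
import Cfsg.Agent.H84.SpGLPA
import Cfsg.Agent.H35.SpOddQ

/-!
# SP-ODDQ (S2944 team project, helper66): the odd-order elements of `J(X)` commute modulo `O₂(X)`

helper35.  This is a special case of helper52's GLP, which is a theorem
(`Cfsg.Agent.H40.Sn.glp` by helper40 from `Cfsg.Agent.H84.Sn.glpA` by helper84); the posted
hypothesis `StCExt` is not needed.
-/

set_option autoImplicit false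

universe u

namespace Cfsg.Agent.H35.Sp

open Cfsg Cfsg.Agent.H52.Sn Cfsg.Agent.H66.Sp

/-- ODDQ, hypothesis-free -/
theorem oddQ0 : StOddQ.{u} :=
  oddQ_of_glp (Cfsg.Agent.H40.Sn.glp Cfsg.Agent.H84.Sn.glpA)

/-- ODDQ with the posted signature (the hypothesis is not used) -/
theorem oddQ (_h : StCExt.{u}) : StOddQ.{u} := oddQ0

end Cfsg.Agent.H35.Sp

namespace Cfsg.Agent.H35.SpOddQ2Check

open Cfsg.Agent.H66.Sp in
example (h : StCExt.{u}) : StOddQ.{u} := Cfsg.Agent.H35.Sp.oddQ h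

example : Cfsg.Agent.H66.Sp.StOddQ.{u} := Cfsg.Agent.H35.Sp.oddQ0

end Cfsg.Agent.H35.SpOddQ2Check
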