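import Cfsg.Agent.H78.StbGrDefs

/-!
# S2123 team project (helper78), piece S2123-ASM1G
Every automorphism is, up to an inner automorphism and up to the graph automorphism `γ`, one that
maps the root subgroup of each fundamental root and of its negative to itself, through additive
bijections of the field (assembly of the pieces SYL, OPP, NEG, POSG, MATCHG, ROOTMAP).
-/

set_option autoImplicit false

universe u

namespace Cfsg.Agent.H35.StbG

open Cfsg.Lie Cfsg.Agent.H23 Cfsg.Agent.H23.Stb Cfsg.Agent.H78.StbG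

/-- S2123-ASM1G -/
theorem asm1G (h1 : StSyl.{u}) (h2 : StOpp.{u}) (h3 : StNeg.{u}) (h4 : StPosG.{u})
    (h5 : StMatchG.{u}) (h6 : StRootMap.{u}) : StAsm1G.{u} := by
  intro D F _ _ p _ z η rT w0 hC adj τ sig γ hSyl hτlt hττ hw0 hc2 hadj hrig hγ θ
  obtain ⟨g₁, hg₁⟩ := h1 D F p θ hSyl
  obtain ⟨u, hu1, hu2⟩ := h2 D F z η rT w0 hC (conjL g₁ θ) hg₁
  have hconj : conjL u (conjL g₁ θ) = conjL (u * g₁) θ := by
    apply MulEquiv.ext
    intro y
    rw [conjL_apply, conjL_apply, conjL_apply]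
    group
  have hneg := h3 D F z η rT w0 hC (conjL u (conjL g₁ θ)) hu1 hu2
  have hpos := h4 D F z η rT w0 hC (conjL u (conjL g₁ θ)) τ hτlt hττ hw0 hu1 hu2
  obtain ⟨π, hπlt, hπinj, hπadj, hπ⟩ :=
    h5 D F z η rT w0 hC (conjL u (conjL g₁ θ)) adj hpos hneg hc2 hadj
  rcases hrig π hπlt hπinj hπadj with hid | hsig
  · refine ⟨u * g₁, false, ?_⟩
    rw [← hconj]
    intro i hi
    obtain ⟨hr1, hr2⟩ := hπ i hi
    rw [hid i hi] at hr1 hr2
    have hlt : D.simple i < D.nroots := hC.hP.tab.simple_lt i hi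
    obtain ⟨φ, hφ⟩ := h6 D F z η hC.hP (conjL u (conjL g₁ θ)) (D.simple i) hlt hr1
    obtain ⟨ψ, hψ⟩ := h6 D F z η hC.hP (conjL u (conjL g₁ θ)) (D.neg (D.simple i))
      (hC.hP.tab.neg_lt _ hlt) hr2
    exact ⟨φ, ψ, hφ, hψ⟩
  · refine ⟨u * g₁, true, ?_⟩
    rw [← hconj]
    intro i hi
    obtain ⟨hr1, hr2⟩ := hπ i hi
    rw [hsig i hi] at hr1 hr2
    have hsl := hγ.sig_lt i hi
    have hss := hγ.sig_sig i hi
    have hR1 : RootTo hC.hP.sem ((conjL u (conjL g₁ θ)).trans γ) (D.simple i) (D.simple i) := by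
      constructor
      · intro t
        obtain ⟨t', ht'⟩ := hr1.1 t
        refine ⟨t', ?_⟩
        show γ (conjL u (conjL g₁ θ) (xG hC.hP.sem (D.simple i) t)) = _
        rw [ht', hγ.pos (sig i) hsl t', hss]
      · intro t'
        obtain ⟨t, ht⟩ := hr1.2 t'
        refine ⟨t, ?_⟩
        show γ (conjL u (conjL g₁ θ) (xG hC.hP.sem (D.simple i) t)) = _
        rw [ht, hγ.pos (sig i) hsl t', hss]
    have hR2 : RootTo hC.hP.sem ((conjL u (conjL g₁ θ)).trans γ) (D.neg (D.simple i))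
        (D.neg (D.simple i)) := by
      constructor
      · intro t
        obtain ⟨t', ht'⟩ := hr2.1 t
        refine ⟨t', ?_⟩
        show γ (conjL u (conjL g₁ θ) (xG hC.hP.sem (D.neg (D.simple i)) t)) = _
        rw [ht', hγ.neg (sig i) hsl t', hss]
      · intro t'
        obtain ⟨t, ht⟩ := hr2.2 t'
        refine ⟨t, ?_⟩
        show γ (conjL u (conjL g₁ θ) (xG hC.hP.sem (D.neg (D.simple i)) t)) = _
        rw [ht, hγ.neg (sig i) hsl t', hss]
    have hlt : D.simple i < D.nroots := hC.hP.tab.simple_lt i hi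
    obtain ⟨φ, hφ⟩ := h6 D F z η hC.hP ((conjL u (conjL g₁ θ)).trans γ) (D.simple i) hlt hR1
    obtain ⟨ψ, hψ⟩ := h6 D F z η hC.hP ((conjL u (conjL g₁ θ)).trans γ) (D.neg (D.simple i))
      (hC.hP.tab.neg_lt _ hlt) hR2
    exact ⟨φ, ψ, hφ, hψ⟩

end Cfsg.Agent.H35.StbG

namespace Cfsg.Agent.H35.StbGAsm1GCheck

open Cfsg.Lie Cfsg.Agent.H23 Cfsg.Agent.H23.Stb Cfsg.Agent.H78.StbG

example (h1 : StSyl.{u}) (h2 : StOpp.{u}) (h3 : StNeg.{u}) (h4 : StPosG.{u})
    (h5 : StMatchG.{u}) (h6 : StRootMap.{u}) : Cfsg.Agent.H78.StbG.StAsm1G.{u} :=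
  Cfsg.Agent.H35.StbG.asm1G h1 h2 h3 h4 h5 h6

end Cfsg.Agent.H35.StbGAsm1GCheck
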