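import Cfsg.Agent.H78.StbGrDefs
import Cfsg.Agent.H53.StbFinalH

/-!
# S2123 team project (helper78), piece S2123-FINALG
The count `|Out| · |H| = 2 · |Ĥ| · |Aut F|` when every automorphism is
inner ∘ graph^b ∘ diagonal ∘ field and the graph automorphism has a nontrivial diagram symmetry.
(Adapted from helper53's `Cfsg/Agent/H53/StbFinalH.lean`.)
-/

set_option autoImplicit false

universe u

namespace Cfsg.Agent.H35.StbG

open Cfsg.Lie Cfsg.Agent.H23 Cfsg.Agent.H23.Stb Cfsg.Agent.H78.StbG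

section Aux

variable {D : ChevalleyDatum} {F : Type u} [Field F] {z : ℕ → ℕ → ℤ}

theorem pres_mul (a b : ↥(D.group F) ≃* ↥(D.group F)) (K : Subgroup (GL D.Idx F))
    (ha : Pres a K K) (hb : Pres b K K) :
    Pres ((a : MulAut ↥(D.group F)) * (b : MulAut ↥(D.group F))) K K := by
  intro g
  show ((a (b g) : ↥(D.group F)) : GL D.Idx F) ∈ K ↔ _
  rw [ha (b g), hb g]

theorem pres_inv (a : ↥(D.group F) ≃* ↥(D.group F)) (K : Subgroup (GL D.Idx F))
    (ha : Pres a K K) : Pres ((a : MulAut ↥(D.group F))⁻¹) K K := by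
  intro g
  have h := ha ((a : MulAut ↥(D.group F))⁻¹ g)
  rw [MulAut.apply_inv_self] at h
  exact h.symm

theorem rootTo_mul_inv (hS : Sem D F z) (A A' : ↥(D.group F) ≃* ↥(D.group F)) (r : ℕ)
    (β β' : F ≃ F) (hA : ∀ t, A (xG hS r t) = xG hS r (β t))
    (hA' : ∀ t, A' (xG hS r t) = xG hS r (β' t)) :
    RootTo hS ((A : MulAut ↥(D.group F)) * (A' : MulAut ↥(D.group F))⁻¹) r r := by
  have hinv : ∀ t, (A' : MulAut ↥(D.group F))⁻¹ (xG hS r t) = xG hS r (β'.symm t) := by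
    intro t
    have h := hA' (β'.symm t)
    rw [β'.apply_symm_apply] at h
    rw [← h]
    exact MulAut.inv_apply_self _ _ _
  constructor
  · intro t
    refine ⟨β (β'.symm t), ?_⟩
    show A ((A' : MulAut ↥(D.group F))⁻¹ (xG hS r t)) = _
    rw [hinv, hA]
  · intro t'
    refine ⟨β' (β.symm t'), ?_⟩
    show A ((A' : MulAut ↥(D.group F))⁻¹ (xG hS r (β' (β.symm t')))) = _
    rw [hinv, β'.symm_apply_apply, hA, β.apply_symm_apply]

end Aux

theorem conj_transfer {G : Type*} [Group G] (A A' γ : MulAut G) (x : G)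
    (h : A * MulAut.conj x = γ * A') (y : G) :
    (A * A'⁻¹) (A' x * y * (A' x)⁻¹) = γ y := by
  have e1 : (A * A'⁻¹) (A' x * y * (A' x)⁻¹) = (A * MulAut.conj x) (A'⁻¹ y) := by
    simp only [MulAut.mul_apply, MulAut.conj_apply, map_mul, map_inv, MulAut.inv_apply_self]
  rw [e1, h]
  simp only [MulAut.mul_apply, MulAut.apply_inv_self]

/-- **S2123-FINALG**. -/
theorem finalG (h1 : StInnH.{u}) (h2 : StField.{u}) (h3 : StHatAut.{u}) (h4 : StNotGamma.{u})
    (h5 : StTorusPres.{u}) (h6 : StFieldPres.{u}) : StFinalG.{u} := by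
  intro D F _ _ z η rT w0 hC sig γ hrank hγ hsig hc2 hθ
  have hS : Sem D F z := hC.hP.sem
  have hT : Tab D := hC.hP.tab
  choose Φ hΦ using fun σ : F ≃+* F => h2 D F z hS σ
  have hδ' : ∀ k : ↥(torusGroup D F), ∃ δ : ↥(D.group F) ≃* ↥(D.group F), ∀ y : ↥(D.group F),
      ((δ y : ↥(D.group F)) : GL D.Idx F) =
        (k : GL D.Idx F) * (y : GL D.Idx F) * (k : GL D.Idx F)⁻¹ :=
    fun k => h3 D F z hS k.1 k.2
  choose δ hδ using hδ'
  let Hs : Subgroup ↥(torusGroup D F) := (D.diagonalSubgroup F).subgroupOf (torusGroup D F)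
  let Ψ : ↥(torusGroup D F) × ((F ≃+* F) × Bool) → Cfsg.Out ↥(D.group F) :=
    fun p => QuotientGroup.mk ((gpow γ p.2.2 : MulAut ↥(D.group F))⁻¹ *
      ((δ p.1 : MulAut ↥(D.group F)) * (Φ p.2.1 : MulAut ↥(D.group F))))
  have hcard : Nat.card ↥Hs = Nat.card ↥(D.diagonalSubgroup F) :=
    Nat.card_congr (Subgroup.subgroupOfEquivOfLe (diagonal_le_torus hS hT)).toEquiv
  -- fibres of the `b`-free map (helper53)
  have hfib1 : ∀ (k : ↥(torusGroup D F)) (σ : F ≃+* F) (k' : ↥(torusGroup D F)) (σ' : F ≃+* F),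
      (QuotientGroup.mk ((δ k : MulAut ↥(D.group F)) * Φ σ) : Cfsg.Out ↥(D.group F)) =
        QuotientGroup.mk ((δ k' : MulAut ↥(D.group F)) * Φ σ') → σ = σ' ∧ k⁻¹ * k' ∈ Hs := by
    intro k σ k' σ' h
    have h' : ((δ k : MulAut ↥(D.group F)) * Φ σ)⁻¹ * ((δ k' : MulAut ↥(D.group F)) * Φ σ') ∈
        Cfsg.Inn ↥(D.group F) := QuotientGroup.eq.mp h
    obtain ⟨x, hx⟩ := h'
    have hx' : ((δ k : MulAut ↥(D.group F)) * Φ σ) * MulAut.conj x =
        (δ k' : MulAut ↥(D.group F)) * Φ σ' := by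
      rw [hx, mul_inv_cancel_left]
    have hgx : glMap D (σ : F →+* F) (x : GL D.Idx F) ∈ D.group F := by
      rw [← hΦ σ x]; exact (Φ σ x).2
    let ρ : F ≃ F := σ.symm.toEquiv.trans σ'.toEquiv
    have hρ : ∀ t : F, ρ t = σ' (σ.symm t) := fun t => rfl
    have hconj : ∀ r < D.nroots, ∀ t : F,
        glMap D (σ : F →+* F) (x : GL D.Idx F) * xU hC.hP.sem r t *
            (glMap D (σ : F →+* F) (x : GL D.Idx F))⁻¹ =
          ((k : GL D.Idx F)⁻¹ * (k' : GL D.Idx F)) * xU hC.hP.sem r (ρ t) *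
            ((k : GL D.Idx F)⁻¹ * (k' : GL D.Idx F))⁻¹ := by
      intro r _ t
      have hy := congrArg (fun a : MulAut ↥(D.group F) =>
        ((a (xG hS r (σ.symm t)) : ↥(D.group F)) : GL D.Idx F)) hx'
      simp only [MulAut.mul_apply, MulAut.conj_apply, hδ, hΦ, Subgroup.coe_mul,
        InvMemClass.coe_inv, map_mul, map_inv] at hy
      have e1 : ((xG hS r (σ.symm t) : ↥(D.group F)) : GL D.Idx F) = xU hS r (σ.symm t) := rfl
      rw [e1, glMap_xU hS hS, glMap_xU hS hS] at hy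
      have e2 : (σ : F →+* F) (σ.symm t) = t := σ.apply_symm_apply t
      have e3 : (σ' : F →+* F) (σ.symm t) = ρ t := rfl
      rw [e2, e3] at hy
      calc glMap D (σ : F →+* F) (x : GL D.Idx F) * xU hS r t *
            (glMap D (σ : F →+* F) (x : GL D.Idx F))⁻¹
          = (k : GL D.Idx F)⁻¹ * ((k : GL D.Idx F) * glMap D (σ : F →+* F) (x : GL D.Idx F) *
              (k : GL D.Idx F)⁻¹ * ((k : GL D.Idx F) * xU hS r t * (k : GL D.Idx F)⁻¹) *
              ((k : GL D.Idx F) * glMap D (σ : F →+* F) (x : GL D.Idx F) *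
                (k : GL D.Idx F)⁻¹)⁻¹) * (k : GL D.Idx F) := by group
        _ = (k : GL D.Idx F)⁻¹ * ((k' : GL D.Idx F) * xU hS r (ρ t) * (k' : GL D.Idx F)⁻¹) *
              (k : GL D.Idx F) := by rw [hy]
        _ = _ := by group
    have hmem : (k : GL D.Idx F)⁻¹ * (k' : GL D.Idx F) ∈ torusGroup D F :=
      (torusGroup D F).mul_mem ((torusGroup D F).inv_mem k.2) k'.2
    have hρ1 : ρ 1 = 1 := by rw [hρ, map_one, map_one]
    obtain ⟨hid, hH⟩ := h1 D F z η rT w0 hC _ hgx _ hmem ρ hconj hρ1 hrank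
    refine ⟨?_, ?_⟩
    · apply RingEquiv.ext
      intro s
      have := hid (σ s)
      rw [hρ, σ.symm_apply_apply] at this
      exact this.symm
    · show ((k⁻¹ * k' : ↥(torusGroup D F)) : GL D.Idx F) ∈ D.diagonalSubgroup F
      exact hH
  have hfib2 : ∀ (k k' : ↥(torusGroup D F)) (σ : F ≃+* F), k⁻¹ * k' ∈ Hs →
      (QuotientGroup.mk ((δ k : MulAut ↥(D.group F)) * Φ σ) : Cfsg.Out ↥(D.group F)) =
        QuotientGroup.mk ((δ k' : MulAut ↥(D.group F)) * Φ σ) := by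
    intro k k' σ hH
    have hH' : (k : GL D.Idx F)⁻¹ * (k' : GL D.Idx F) ∈ D.diagonalSubgroup F := hH
    let hG : ↥(D.group F) := ⟨(k : GL D.Idx F)⁻¹ * (k' : GL D.Idx F), diagonal_le_group hS hH'⟩
    rw [QuotientGroup.eq]
    refine ⟨(Φ σ).symm hG, ?_⟩
    rw [eq_inv_mul_iff_mul_eq]
    apply MulEquiv.ext
    intro y
    apply Subtype.ext
    simp only [MulAut.mul_apply, MulAut.conj_apply, hδ, map_mul, map_inv,
      MulEquiv.apply_symm_apply, Subgroup.coe_mul, InvMemClass.coe_inv]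
    have ehG : ((hG : ↥(D.group F)) : GL D.Idx F) = (k : GL D.Idx F)⁻¹ * (k' : GL D.Idx F) := rfl
    rw [ehG]
    group
  -- `δ k * Φ σ` on the root elements
  have hroot : ∀ (k : ↥(torusGroup D F)) (σ : F ≃+* F) (r : ℕ), r < D.nroots →
      ∃ β : F ≃ F, ∀ t : F, ((δ k : MulAut ↥(D.group F)) * Φ σ) (xG hS r t) = xG hS r (β t) := by
    intro k σ r hr
    obtain ⟨χ, hχ⟩ := k.2
    refine ⟨σ.toEquiv.trans (Equiv.mulLeft₀ (χ r) (hχ.1 r)), ?_⟩
    intro t
    apply Subtype.ext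
    show ((δ k (Φ σ (xG hS r t)) : ↥(D.group F)) : GL D.Idx F) = _
    rw [hδ, hΦ]
    have e1 : ((xG hS r t : ↥(D.group F)) : GL D.Idx F) = xU hS r t := rfl
    rw [e1, glMap_xU hS hS, isTorus_conj hS χ k.1 hχ r hr]
    rfl
  have hPδ : ∀ (k : ↥(torusGroup D F)) (σ : F ≃+* F),
      Pres ((δ k : MulAut ↥(D.group F)) * Φ σ) (D.posUnipotent F) (D.posUnipotent F) ∧
      Pres ((δ k : MulAut ↥(D.group F)) * Φ σ) (D.negUnipotent F) (D.negUnipotent F) := by
    intro k σ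
    constructor
    · apply pres_mul
      · intro g
        rw [hδ]
        exact ((h5 D F z hS k.1 k.2 (g : GL D.Idx F)).1).symm
      · intro g
        rw [hΦ]
        exact ((h6 D F z hS σ (g : GL D.Idx F)).1).symm
    · apply pres_mul
      · intro g
        rw [hδ]
        exact ((h5 D F z hS k.1 k.2 (g : GL D.Idx F)).2).symm
      · intro g
        rw [hΦ]
        exact ((h6 D F z hS σ (g : GL D.Idx F)).2).symm
  -- the graph automorphism is not inner ∘ diagonal ∘ field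
  have hfib3 : ∀ (k : ↥(torusGroup D F)) (σ : F ≃+* F) (k' : ↥(torusGroup D F)) (σ' : F ≃+* F),
      (QuotientGroup.mk ((γ : MulAut ↥(D.group F))⁻¹ * ((δ k : MulAut ↥(D.group F)) * Φ σ)) :
        Cfsg.Out ↥(D.group F)) = QuotientGroup.mk ((δ k' : MulAut ↥(D.group F)) * Φ σ') →
      False := by
    intro k σ k' σ' h
    have h' : ((γ : MulAut ↥(D.group F))⁻¹ * ((δ k : MulAut ↥(D.group F)) * Φ σ))⁻¹ *
        ((δ k' : MulAut ↥(D.group F)) * Φ σ') ∈ Cfsg.Inn ↥(D.group F) := QuotientGroup.eq.mp h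
    obtain ⟨x, hx⟩ := h'
    have hx' : ((δ k : MulAut ↥(D.group F)) * Φ σ) * MulAut.conj x =
        (γ : MulAut ↥(D.group F)) * ((δ k' : MulAut ↥(D.group F)) * Φ σ') := by
      rw [hx]; group
    have hall := conj_transfer ((δ k : MulAut ↥(D.group F)) * Φ σ)
      ((δ k' : MulAut ↥(D.group F)) * Φ σ') (γ : MulAut ↥(D.group F)) x hx'
    refine h4 D F z η rT w0 hC sig γ hγ hsig hc2
      (((δ k : MulAut ↥(D.group F)) * Φ σ) * ((δ k' : MulAut ↥(D.group F)) * Φ σ')⁻¹)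
      (pres_mul _ _ _ (hPδ k σ).1 (pres_inv _ _ (hPδ k' σ').1))
      (pres_mul _ _ _ (hPδ k σ).2 (pres_inv _ _ (hPδ k' σ').2)) ?_
      (((δ k' : MulAut ↥(D.group F)) * Φ σ') x) hall
    intro i hi
    have hlt : D.simple i < D.nroots := hT.simple_lt i hi
    obtain ⟨β, hβ⟩ := hroot k σ (D.simple i) hlt
    obtain ⟨β', hβ'⟩ := hroot k' σ' (D.simple i) hlt
    exact rootTo_mul_inv hS _ _ (D.simple i) β β' hβ hβ'
  have hΨf : ∀ (k : ↥(torusGroup D F)) (σ : F ≃+* F), Ψ (k, (σ, false)) =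
      QuotientGroup.mk ((δ k : MulAut ↥(D.group F)) * Φ σ) := by
    intro k σ
    show (QuotientGroup.mk ((1 : MulAut ↥(D.group F))⁻¹ *
      ((δ k : MulAut ↥(D.group F)) * Φ σ)) : Cfsg.Out ↥(D.group F)) = _
    rw [inv_one, one_mul]
  have hΨt : ∀ (k : ↥(torusGroup D F)) (σ : F ≃+* F), Ψ (k, (σ, true)) =
      QuotientGroup.mk ((γ : MulAut ↥(D.group F))⁻¹ * ((δ k : MulAut ↥(D.group F)) * Φ σ)) :=
    fun k σ => rfl
  have hcount : Nat.card (Cfsg.Out ↥(D.group F)) * Nat.card ↥Hs =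
      Nat.card ↥(torusGroup D F) * Nat.card ((F ≃+* F) × Bool) := by
    refine Cfsg.Agent.H53.Stb.card_of_fibres Hs Ψ ?_ ?_
    · -- surjectivity
      intro o
      obtain ⟨θ, rfl⟩ := QuotientGroup.mk_surjective o
      obtain ⟨g, b, k, hk, σ, hE⟩ := hθ θ
      refine ⟨((⟨k, hk⟩ : ↥(torusGroup D F))⁻¹, (σ, b)), ?_⟩
      have e0 : (gpow γ b : MulAut ↥(D.group F)) * (MulAut.conj g * (θ : MulAut ↥(D.group F))) =
          (δ (⟨k, hk⟩ : ↥(torusGroup D F))⁻¹ : MulAut ↥(D.group F)) * Φ σ := by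
        apply MulEquiv.ext
        intro y
        apply Subtype.ext
        have hy := hE y
        show ((gpow γ b (conjL g θ y) : ↥(D.group F)) : GL D.Idx F) =
          ((δ (⟨k, hk⟩ : ↥(torusGroup D F))⁻¹ (Φ σ y) : ↥(D.group F)) : GL D.Idx F)
        rw [hδ, hΦ, ← hy]
        simp only [InvMemClass.coe_inv]
        group
      have e : (θ : MulAut ↥(D.group F)) = MulAut.conj g⁻¹ * ((gpow γ b : MulAut ↥(D.group F))⁻¹ *
          ((δ (⟨k, hk⟩ : ↥(torusGroup D F))⁻¹ : MulAut ↥(D.group F)) * Φ σ)) := by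
        rw [← e0, map_inv]; group
      have h1' : (QuotientGroup.mk (MulAut.conj g⁻¹ : MulAut ↥(D.group F)) :
          Cfsg.Out ↥(D.group F)) = 1 :=
        (QuotientGroup.eq_one_iff _).mpr ⟨g⁻¹, rfl⟩
      show (QuotientGroup.mk ((gpow γ b : MulAut ↥(D.group F))⁻¹ *
        ((δ (⟨k, hk⟩ : ↥(torusGroup D F))⁻¹ : MulAut ↥(D.group F)) * Φ σ)) :
          Cfsg.Out ↥(D.group F)) = QuotientGroup.mk θ
      have e' : (QuotientGroup.mk (MulAut.conj g⁻¹ * ((gpow γ b : MulAut ↥(D.group F))⁻¹ *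
          ((δ (⟨k, hk⟩ : ↥(torusGroup D F))⁻¹ : MulAut ↥(D.group F)) * Φ σ))) :
            Cfsg.Out ↥(D.group F)) =
          QuotientGroup.mk ((gpow γ b : MulAut ↥(D.group F))⁻¹ *
            ((δ (⟨k, hk⟩ : ↥(torusGroup D F))⁻¹ : MulAut ↥(D.group F)) * Φ σ)) := by
        rw [QuotientGroup.mk_mul, h1', one_mul]
      rw [e]; exact e'.symm
    · -- fibres
      rintro k ⟨σ, b⟩ k' ⟨σ', b'⟩
      constructor
      · intro h
        cases b <;> cases b'
        · rw [hΨf, hΨf] at h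
          obtain ⟨e1, e2⟩ := hfib1 k σ k' σ' h
          exact ⟨by rw [e1], e2⟩
        · rw [hΨf, hΨt] at h
          exact (hfib3 k' σ' k σ h.symm).elim
        · rw [hΨt, hΨf] at h
          exact (hfib3 k σ k' σ' h).elim
        · rw [hΨt, hΨt] at h
          have h' : (QuotientGroup.mk ((γ : MulAut ↥(D.group F))⁻¹) : Cfsg.Out ↥(D.group F)) *
              QuotientGroup.mk ((δ k : MulAut ↥(D.group F)) * Φ σ) =
              QuotientGroup.mk ((γ : MulAut ↥(D.group F))⁻¹) *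
                QuotientGroup.mk ((δ k' : MulAut ↥(D.group F)) * Φ σ') :=
            ((QuotientGroup.mk_mul _ _ _).symm.trans h).trans (QuotientGroup.mk_mul _ _ _)
          obtain ⟨e1, e2⟩ := hfib1 k σ k' σ' (mul_left_cancel h')
          exact ⟨by rw [e1], e2⟩
      · rintro ⟨hs, hH⟩
        obtain ⟨rfl, rfl⟩ := Prod.mk.inj hs
        show (QuotientGroup.mk ((gpow γ b : MulAut ↥(D.group F))⁻¹ *
          ((δ k : MulAut ↥(D.group F)) * Φ σ)) : Cfsg.Out ↥(D.group F)) =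
          QuotientGroup.mk ((gpow γ b : MulAut ↥(D.group F))⁻¹ *
            ((δ k' : MulAut ↥(D.group F)) * Φ σ))
        exact (QuotientGroup.mk_mul _ _ _).trans ((congrArg (fun t : Cfsg.Out ↥(D.group F) =>
          (QuotientGroup.mk ((gpow γ b : MulAut ↥(D.group F))⁻¹) : Cfsg.Out ↥(D.group F)) * t)
            (hfib2 k k' σ hH)).trans (QuotientGroup.mk_mul _ _ _).symm)
  rw [← hcard, hcount, Nat.card_prod, Nat.card_eq_fintype_card (α := Bool), Fintype.card_bool]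
  ring

end Cfsg.Agent.H35.StbG

namespace Cfsg.Agent.H35.StbGFinalGCheck

open Cfsg.Lie Cfsg.Agent.H23 Cfsg.Agent.H23.Stb Cfsg.Agent.H78.StbG

example (h1 : StInnH.{u}) (h2 : StField.{u}) (h3 : StHatAut.{u}) (h4 : StNotGamma.{u})
    (h5 : StTorusPres.{u}) (h6 : StFieldPres.{u}) : Cfsg.Agent.H78.StbG.StFinalG.{u} :=
  Cfsg.Agent.H35.StbG.finalG h1 h2 h3 h4 h5 h6

end Cfsg.Agent.H35.StbGFinalGCheck
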