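import Mathlib
import Cfsg.Agent.H78.SvDefs

set_option autoImplicit false

/-!
# Piece CP1 of S2425 (helper35, for helper78)

The characteristic polynomial of the restriction to invariant subspaces: direct sums, `⊥`, `⊤`.
-/

namespace Cfsg.Agent.H35.Sv

open Cfsg.Agent.H78.Sv
open scoped MatrixGroups

section inv
variable {F : Type*} [Field F] {V : Type*} [AddCommGroup V] [Module F V] [FiniteDimensional F V]

theorem cp_sup (T : Module.End F V) (U₁ U₂ : ↥(Module.End.invtSubmodule T)) (h : U₁ ⊓ U₂ = ⊥) :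
    cp T (U₁ ⊔ U₂) = cp T U₁ * cp T U₂ := by
  have hdis : U₁.1 ⊓ U₂.1 = ⊥ := congrArg Subtype.val h
  let f : (↥U₁.1 × ↥U₂.1) →ₗ[F] ↥(U₁ ⊔ U₂).1 :=
    (Submodule.inclusion (show U₁.1 ≤ (U₁ ⊔ U₂).1 from le_sup_left)).coprod
      (Submodule.inclusion (show U₂.1 ≤ (U₁ ⊔ U₂).1 from le_sup_right))
  have hf : ∀ p : ↥U₁.1 × ↥U₂.1, ((f p : ↥(U₁ ⊔ U₂).1) : V) = (p.1 : V) + (p.2 : V) :=
    fun p => rfl
  have hinj : Function.Injective f := by
    rw [← LinearMap.ker_eq_bot, LinearMap.ker_eq_bot']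
    rintro ⟨a, b⟩ hab
    have h1 : (a : V) + (b : V) = 0 := by
      have h2 := congrArg Subtype.val hab
      rw [hf] at h2
      exact h2
    have ha : (a : V) ∈ U₁.1 ⊓ U₂.1 := by
      refine ⟨a.2, ?_⟩
      rw [eq_neg_of_add_eq_zero_left h1]
      exact U₂.1.neg_mem b.2
    rw [hdis, Submodule.mem_bot] at ha
    have hb : (b : V) = 0 := by
      rw [ha, zero_add] at h1
      exact h1
    exact Prod.ext (Subtype.ext ha) (Subtype.ext hb)
  have hsurj : Function.Surjective f := by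
    rintro ⟨w, hw⟩
    obtain ⟨a, ha, b, hb, rfl⟩ := Submodule.mem_sup.1 hw
    exact ⟨(⟨a, ha⟩, ⟨b, hb⟩), Subtype.ext (hf _)⟩
  let e := LinearEquiv.ofBijective f ⟨hinj, hsurj⟩
  have hconj : e.conj ((resT T U₁).prodMap (resT T U₂)) = resT T (U₁ ⊔ U₂) := by
    apply LinearMap.ext
    intro w
    obtain ⟨p, rfl⟩ := e.surjective w
    rw [LinearEquiv.conj_apply, LinearMap.comp_apply, LinearMap.comp_apply]
    apply Subtype.ext
    have he : ∀ p, e p = f p := fun p => rfl
    simp only [LinearEquiv.coe_coe, LinearEquiv.symm_apply_apply]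
    rw [he, hf, resT_apply, he, hf, map_add]
    rfl
  unfold cp
  rw [← hconj, LinearEquiv.charpoly_conj, LinearMap.charpoly_prodMap]

theorem cp_bot (T : Module.End F V) : cp T ⊥ = 1 := by
  unfold cp
  have h1 : (resT T ⊥).charpoly.natDegree = 0 := by
    rw [LinearMap.charpoly_natDegree]
    exact finrank_bot F V
  exact Polynomial.eq_one_of_monic_natDegree_zero (LinearMap.charpoly_monic _) h1

theorem cp_top (T : Module.End F V) : cp T ⊤ = T.charpoly := by
  unfold cp
  let e : ↥(⊤ : ↥(Module.End.invtSubmodule T)).1 ≃ₗ[F] V := Submodule.topEquiv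
  have hconj : e.conj (resT T ⊤) = T := by
    apply LinearMap.ext
    intro w
    rw [LinearEquiv.conj_apply, LinearMap.comp_apply, LinearMap.comp_apply]
    rfl
  rw [← LinearEquiv.charpoly_conj e (resT T ⊤), hconj]

end inv

end Cfsg.Agent.H35.Sv

namespace Cfsg.Agent.H35.SvCP1Check

open Cfsg.Agent.H78.Sv
open scoped MatrixGroups

section inv
variable {F : Type*} [Field F] {V : Type*} [AddCommGroup V] [Module F V] [FiniteDimensional F V]

example (T : Module.End F V) (U₁ U₂ : ↥(Module.End.invtSubmodule T)) (h : U₁ ⊓ U₂ = ⊥) :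
    cp T (U₁ ⊔ U₂) = cp T U₁ * cp T U₂ := Cfsg.Agent.H35.Sv.cp_sup T U₁ U₂ h

example (T : Module.End F V) : cp T ⊥ = 1 := Cfsg.Agent.H35.Sv.cp_bot T

example (T : Module.End F V) : cp T ⊤ = T.charpoly := Cfsg.Agent.H35.Sv.cp_top T

end inv

end Cfsg.Agent.H35.SvCP1Check
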