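import Mathlib
import Cfsg.Agent.H78.SvDefs

set_option autoImplicit false

/-!
# Piece PHI of S2425 (helper35, for helper78)

Multiplying by a monic irreducible polynomial: the multiplicities and the function `phi`.
-/

namespace Cfsg.Agent.H35.Sv

open Cfsg.Agent.H78.Sv
open scoped MatrixGroups

theorem half_succ_identity (d m : ℕ) :
    d * (m + 1) * (m + 1 - 1) / 2 = d * m + d * m * (m - 1) / 2 := by
  obtain ⟨k, hk⟩ : 2 ∣ m * (m - 1) := (Nat.even_mul_pred_self m).two_dvd
  have h1 : d * m * (m - 1) = 2 * (d * k) := by
    rw [mul_assoc, hk]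
    ring
  have h3 : (m + 1) * m = 2 * m + m * (m - 1) := by
    cases m with
    | zero => simp
    | succ m =>
      simp only [Nat.add_sub_cancel]
      ring
  have h2 : d * (m + 1) * (m + 1 - 1) = 2 * (d * m + d * k) := by
    rw [Nat.add_sub_cancel, mul_assoc, h3, hk]
    ring
  rw [h1, h2, Nat.mul_div_cancel_left _ (by norm_num : 0 < 2),
    Nat.mul_div_cancel_left _ (by norm_num : 0 < 2)]

theorem phi_mul {F : Type*} [Field F] [DecidableEq F] (q : ℕ) (g f : Polynomial F) (hg : g.Monic)
    (hf : f.Monic) (hirr : Irreducible f) :
    (UniqueFactorizationMonoid.normalizedFactors (g * f)).count f =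
        (UniqueFactorizationMonoid.normalizedFactors g).count f + 1 ∧
      (∀ f' : Polynomial F, f' ≠ f → (UniqueFactorizationMonoid.normalizedFactors (g * f)).count f' =
        (UniqueFactorizationMonoid.normalizedFactors g).count f') ∧
      phi q (g * f) = (-1) ^ (f.natDegree - 1) *
        (q : ℤ) ^ (f.natDegree * (UniqueFactorizationMonoid.normalizedFactors g).count f) * phi q g := by
  have hnf : UniqueFactorizationMonoid.normalizedFactors (g * f)
      = UniqueFactorizationMonoid.normalizedFactors g + {f} := by
    rw [UniqueFactorizationMonoid.normalizedFactors_mul hg.ne_zero hf.ne_zero,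
      UniqueFactorizationMonoid.normalizedFactors_irreducible hirr, hf.normalize_eq_self]
  have h1 : (UniqueFactorizationMonoid.normalizedFactors (g * f)).count f =
        (UniqueFactorizationMonoid.normalizedFactors g).count f + 1 := by
    rw [hnf, Multiset.count_add, Multiset.count_singleton_self]
  have h2 : ∀ f' : Polynomial F, f' ≠ f →
      (UniqueFactorizationMonoid.normalizedFactors (g * f)).count f' =
        (UniqueFactorizationMonoid.normalizedFactors g).count f' := by
    intro f' hf'
    rw [hnf, Multiset.count_add, Multiset.count_singleton, if_neg hf', add_zero]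
  refine ⟨h1, h2, ?_⟩
  have hs' : (UniqueFactorizationMonoid.normalizedFactors (g * f)).toFinset
      = insert f (UniqueFactorizationMonoid.normalizedFactors g).toFinset := by
    rw [hnf, Multiset.toFinset_add, Multiset.toFinset_singleton, Finset.union_comm,
      ← Finset.insert_eq]
  unfold phi
  rw [hs', ← Finset.mul_prod_erase (insert f (UniqueFactorizationMonoid.normalizedFactors g).toFinset) _
    (Finset.mem_insert_self f _), Finset.erase_insert_eq_erase]
  have hR : ∏ x ∈ (UniqueFactorizationMonoid.normalizedFactors g).toFinset.erase f,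
      (-1 : ℤ) ^ ((x.natDegree - 1) * (UniqueFactorizationMonoid.normalizedFactors (g * f)).count x) *
        (q : ℤ) ^ (x.natDegree * (UniqueFactorizationMonoid.normalizedFactors (g * f)).count x *
          ((UniqueFactorizationMonoid.normalizedFactors (g * f)).count x - 1) / 2)
      = ∏ x ∈ (UniqueFactorizationMonoid.normalizedFactors g).toFinset.erase f,
      (-1 : ℤ) ^ ((x.natDegree - 1) * (UniqueFactorizationMonoid.normalizedFactors g).count x) *
        (q : ℤ) ^ (x.natDegree * (UniqueFactorizationMonoid.normalizedFactors g).count x *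
          ((UniqueFactorizationMonoid.normalizedFactors g).count x - 1) / 2) :=
    Finset.prod_congr rfl (fun x hx => by rw [h2 x (Finset.ne_of_mem_erase hx)])
  have hG : ∏ x ∈ (UniqueFactorizationMonoid.normalizedFactors g).toFinset,
      (-1 : ℤ) ^ ((x.natDegree - 1) * (UniqueFactorizationMonoid.normalizedFactors g).count x) *
        (q : ℤ) ^ (x.natDegree * (UniqueFactorizationMonoid.normalizedFactors g).count x *
          ((UniqueFactorizationMonoid.normalizedFactors g).count x - 1) / 2)
      = ((-1 : ℤ) ^ ((f.natDegree - 1) * (UniqueFactorizationMonoid.normalizedFactors g).count f) *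
        (q : ℤ) ^ (f.natDegree * (UniqueFactorizationMonoid.normalizedFactors g).count f *
          ((UniqueFactorizationMonoid.normalizedFactors g).count f - 1) / 2)) *
        ∏ x ∈ (UniqueFactorizationMonoid.normalizedFactors g).toFinset.erase f,
      (-1 : ℤ) ^ ((x.natDegree - 1) * (UniqueFactorizationMonoid.normalizedFactors g).count x) *
        (q : ℤ) ^ (x.natDegree * (UniqueFactorizationMonoid.normalizedFactors g).count x *
          ((UniqueFactorizationMonoid.normalizedFactors g).count x - 1) / 2) := by
    by_cases hfs : f ∈ (UniqueFactorizationMonoid.normalizedFactors g).toFinset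
    · exact (Finset.mul_prod_erase _ _ hfs).symm
    · have h0 : (UniqueFactorizationMonoid.normalizedFactors g).count f = 0 :=
        Multiset.count_eq_zero.2 (fun hmem => hfs (Multiset.mem_toFinset.2 hmem))
      rw [Finset.erase_eq_of_notMem hfs, h0]
      simp
  rw [hR, hG, h1, half_succ_identity, mul_add, mul_one, pow_add, pow_add]
  ring

end Cfsg.Agent.H35.Sv

namespace Cfsg.Agent.H35.SvPHICheck

open Cfsg.Agent.H78.Sv
open scoped MatrixGroups

example {F : Type*} [Field F] [DecidableEq F] (q : ℕ) (g f : Polynomial F) (hg : g.Monic)
    (hf : f.Monic) (hirr : Irreducible f) :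
    (UniqueFactorizationMonoid.normalizedFactors (g * f)).count f =
        (UniqueFactorizationMonoid.normalizedFactors g).count f + 1 ∧
      (∀ f' : Polynomial F, f' ≠ f → (UniqueFactorizationMonoid.normalizedFactors (g * f)).count f' =
        (UniqueFactorizationMonoid.normalizedFactors g).count f') ∧
      phi q (g * f) = (-1) ^ (f.natDegree - 1) *
        (q : ℤ) ^ (f.natDegree * (UniqueFactorizationMonoid.normalizedFactors g).count f) * phi q g :=
  Cfsg.Agent.H35.Sv.phi_mul q g f hg hf hirr

end Cfsg.Agent.H35.SvPHICheck
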