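import Mathlib
import Cfsg.Agent.H4.DecKum

set_option autoImplicit false

/-!
# Piece NSQ of S5979 (helper35, for helper99)

A matrix `x` with `x * x = z • 1`, `z` a non-square, is conjugate to `[0, z; 1, 0] ⊗ 1`.
-/

namespace Cfsg.Agent.H35.Ten

open scoped Kronecker

theorem exists_tensor_form_of_nonsq {F : Type*} [Field F] {n b : ℕ} (e : Fin n ≃ Fin 2 × Fin b)
    (x : Matrix (Fin n) (Fin n) F) (z : F) (hz : ∀ y : F, y ^ 2 ≠ z)
    (hx : x * x = z • (1 : Matrix (Fin n) (Fin n) F)) :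
    ∃ Q : Matrix (Fin n) (Fin n) F, IsUnit Q.det ∧
      x * Q = Q * Matrix.reindex e.symm e.symm
        ((!![0, z; 1, 0] : Matrix (Fin 2) (Fin 2) F) ⊗ₖ (1 : Matrix (Fin b) (Fin b) F)) := by
  classical
  rcases Nat.eq_zero_or_pos b with hb | hb
  · subst hb
    have : IsEmpty (Fin n) := e.isEmpty
    refine ⟨1, by simp, ?_⟩
    ext i
    exact isEmptyElim i
  have hcard : n = 2 * b := by
    have h := Fintype.card_congr e
    simpa using h
  have hT : (Matrix.toLin' x) ^ 2 = z • (1 : Module.End F (Fin n → F)) := by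
    rw [pow_two, Module.End.mul_eq_comp, ← Matrix.toLin'_mul, hx, map_smul, Matrix.toLin'_one]
    rfl
  have hκ : 2 * Fintype.card (Fin b) = Module.finrank F (Fin n → F) := by
    rw [Module.finrank_fin_fun, Fintype.card_fin, hcard]
  obtain ⟨ρ, c, β, hc, hLI, -, hTβ⟩ :=
    Cfsg.Agent.H4.Dec.exists_kummer_basis (Matrix.toLin' x) 2 Nat.prime_two z hz hT (Fin b) hκ
  have hTT : ∀ w : Fin n → F, Matrix.toLin' x (Matrix.toLin' x w) = z • w := by
    intro w
    have h := congrArg (fun f : Module.End F (Fin n → F) => f w) hT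
    simpa [pow_two] using h
  have hρ : ρ 0 = 1 := by
    by_contra h
    have h0 : ρ 0 = 0 := by
      have hfin : ∀ a : Fin 2, a ≠ 1 → a = 0 := by decide
      exact hfin _ h
    have h1 := hTβ 0 ⟨0, hb⟩
    rw [h0] at h1
    have h2 := hTT (β (0, ⟨0, hb⟩))
    rw [h1, map_smul, h1, smul_smul] at h2
    have h3 : (c 0 * c 0 - z) • β (0, ⟨0, hb⟩) = 0 := by rw [sub_smul, h2, sub_self]
    rcases smul_eq_zero.1 h3 with h4 | h4
    · exact hz (c 0) (by rw [pow_two]; exact sub_eq_zero.1 h4)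
    · exact hLI.ne_zero _ h4
  obtain ⟨v, hv⟩ : ∃ v : Fin 2 × Fin b → (Fin n → F),
      v = fun p => if p.1 = 0 then β (0, p.2) else Matrix.toLin' x (β (0, p.2)) := ⟨_, rfl⟩
  have hv0 : ∀ s, v (0, s) = β (0, s) := by
    intro s
    rw [hv]
    simp
  have hv1 : ∀ s, v (1, s) = Matrix.toLin' x (β (0, s)) := by
    intro s
    rw [hv]
    simp
  have hw : ∀ a : Fin 2, (if a = 0 then (1 : F) else c 0) ≠ 0 := by
    intro a
    split_ifs
    · exact one_ne_zero
    · exact hc 0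
  have hvLI : LinearIndependent F v := by
    have h := hLI.units_smul (fun p : Fin 2 × Fin b => Units.mk0 _ (hw p.1))
    have heq : v = (fun p : Fin 2 × Fin b => Units.mk0 _ (hw p.1)) • β := by
      funext p
      obtain ⟨a, s⟩ := p
      have ha : a = 0 ∨ a = 1 := by
        have hfin : ∀ a : Fin 2, a = 0 ∨ a = 1 := by decide
        exact hfin a
      rcases ha with rfl | rfl
      · rw [hv0]
        simp
      · rw [hv1, hTβ, hρ]
        simp [Units.smul_def]
    rw [heq]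
    exact h
  refine ⟨Matrix.of (fun i k => v (e k) i), ?_, ?_⟩
  · rw [← Matrix.isUnit_iff_isUnit_det, ← Matrix.linearIndependent_cols_iff_isUnit]
    exact hvLI.comp e e.injective
  · ext i k
    have hL : (x * Matrix.of (fun i k => v (e k) i)) i k = Matrix.toLin' x (v (e k)) i := by
      rw [Matrix.mul_apply, Matrix.toLin'_apply]
      rfl
    rw [hL, Matrix.mul_apply, ← Equiv.sum_comp e.symm]
    simp only [Matrix.of_apply, Equiv.apply_symm_apply, Matrix.reindex_apply,
      Matrix.submatrix_apply, Equiv.symm_symm]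
    rw [Fintype.sum_prod_type, Fin.sum_univ_two]
    simp only [Matrix.kroneckerMap_apply, Matrix.one_apply]
    obtain ⟨a, s, he⟩ : ∃ a s, e k = (a, s) := ⟨(e k).1, (e k).2, rfl⟩
    rw [he]
    simp only [mul_ite, mul_one, mul_zero, Finset.sum_ite_eq', Finset.mem_univ, if_true]
    have ha : a = 0 ∨ a = 1 := by
      have hfin : ∀ a : Fin 2, a = 0 ∨ a = 1 := by decide
      exact hfin a
    rcases ha with rfl | rfl
    · have h00 : (!![0, z; 1, 0] : Matrix (Fin 2) (Fin 2) F) 0 0 = 0 := rfl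
      have h10 : (!![0, z; 1, 0] : Matrix (Fin 2) (Fin 2) F) 1 0 = 1 := rfl
      rw [h00, h10, mul_zero, zero_add, mul_one, hv0, hv1]
    · have h01 : (!![0, z; 1, 0] : Matrix (Fin 2) (Fin 2) F) 0 1 = z := rfl
      have h11 : (!![0, z; 1, 0] : Matrix (Fin 2) (Fin 2) F) 1 1 = 0 := rfl
      rw [h01, h11, mul_zero, add_zero, hv1, hTT, hv0, Pi.smul_apply, smul_eq_mul, mul_comm]

end Cfsg.Agent.H35.Ten

namespace Cfsg.Agent.H35.TenCheck

open scoped Kronecker

example {F : Type*} [Field F] {n b : ℕ} (e : Fin n ≃ Fin 2 × Fin b)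
    (x : Matrix (Fin n) (Fin n) F) (z : F) (hz : ∀ y : F, y ^ 2 ≠ z)
    (hx : x * x = z • (1 : Matrix (Fin n) (Fin n) F)) :
    ∃ Q : Matrix (Fin n) (Fin n) F, IsUnit Q.det ∧
      x * Q = Q * Matrix.reindex e.symm e.symm
        ((!![0, z; 1, 0] : Matrix (Fin 2) (Fin 2) F) ⊗ₖ (1 : Matrix (Fin b) (Fin b) F)) :=
  Cfsg.Agent.H35.Ten.exists_tensor_form_of_nonsq e x z hz hx

end Cfsg.Agent.H35.TenCheck
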