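import Mathlib
import Cfsg.Agent.H83.UPDefs

/-!
# S6001-PCENT (piece for helper83)

Only the scalar matrices commute with all Pauli matrices (`2 ≠ 0`).
-/

set_option autoImplicit false

universe u

namespace Cfsg.Agent.H35.UP

open Matrix Cfsg.Agent.H83.UP

section

variable {F : Type u} [Field F]

theorem pcent_A1 : (A1 : Matrix (Fin 4) (Fin 4) F) = Matrix.diagonal ![1, 1, -1, -1] := by
  ext i j
  fin_cases i <;> fin_cases j <;> simp [A1]

theorem pcent_A2 : (A2 : Matrix (Fin 4) (Fin 4) F) = Matrix.diagonal ![1, -1, 1, -1] := by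
  ext i j
  fin_cases i <;> fin_cases j <;> simp [A2]

theorem pcent_single0 : (pauli (Pi.single 0 1) : Matrix (Fin 4) (Fin 4) F) = A1 := by
  have e1 : (1 : ZMod 2).val = 1 := rfl
  have e0 : (0 : ZMod 2).val = 0 := rfl
  simp [pauli, e1, e0]

theorem pcent_single1 : (pauli (Pi.single 1 1) : Matrix (Fin 4) (Fin 4) F) = B1 := by
  have e1 : (1 : ZMod 2).val = 1 := rfl
  have e0 : (0 : ZMod 2).val = 0 := rfl
  simp [pauli, e1, e0]

theorem pcent_single2 : (pauli (Pi.single 2 1) : Matrix (Fin 4) (Fin 4) F) = A2 := by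
  have e1 : (1 : ZMod 2).val = 1 := rfl
  have e0 : (0 : ZMod 2).val = 0 := rfl
  simp [pauli, e1, e0]

theorem pcent_single3 : (pauli (Pi.single 3 1) : Matrix (Fin 4) (Fin 4) F) = B2 := by
  have e1 : (1 : ZMod 2).val = 1 := rfl
  have e0 : (0 : ZMod 2).val = 0 := rfl
  simp [pauli, e1, e0]

theorem pcent_aux1 (h2 : (2 : F) ≠ 0) {a : F} (h : a * (-1) = 1 * a) : a = 0 := by
  have : (2 : F) * a = 2 * 0 := by linear_combination -h
  exact mul_left_cancel₀ h2 this

theorem pcent_aux2 (h2 : (2 : F) ≠ 0) {a : F} (h : a * 1 = (-1) * a) : a = 0 := by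
  have : (2 : F) * a = 2 * 0 := by linear_combination h
  exact mul_left_cancel₀ h2 this

end

theorem pcent : StPCent.{u} := by
  intro F _ M h2 hM
  have hA1 : M * A1 = A1 * M := by
    have := hM (Pi.single 0 1)
    rwa [pcent_single0] at this
  have hB1 : M * B1 = B1 * M := by
    have := hM (Pi.single 1 1)
    rwa [pcent_single1] at this
  have hA2 : M * A2 = A2 * M := by
    have := hM (Pi.single 2 1)
    rwa [pcent_single2] at this
  have hB2 : M * B2 = B2 * M := by
    have := hM (Pi.single 3 1)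
    rwa [pcent_single3] at this
  have key1 : ∀ i j, M i j * (![1, 1, -1, -1] : Fin 4 → F) j =
      (![1, 1, -1, -1] : Fin 4 → F) i * M i j := by
    intro i j
    have := congrFun (congrFun hA1 i) j
    rw [pcent_A1, Matrix.mul_diagonal, Matrix.diagonal_mul] at this
    exact this
  have key2 : ∀ i j, M i j * (![1, -1, 1, -1] : Fin 4 → F) j =
      (![1, -1, 1, -1] : Fin 4 → F) i * M i j := by
    intro i j
    have := congrFun (congrFun hA2 i) j
    rw [pcent_A2, Matrix.mul_diagonal, Matrix.diagonal_mul] at this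
    exact this
  have h01 : M 0 1 = 0 := pcent_aux1 h2 (key2 0 1)
  have h10 : M 1 0 = 0 := pcent_aux2 h2 (key2 1 0)
  have h02 : M 0 2 = 0 := pcent_aux1 h2 (key1 0 2)
  have h20 : M 2 0 = 0 := pcent_aux2 h2 (key1 2 0)
  have h03 : M 0 3 = 0 := pcent_aux1 h2 (key1 0 3)
  have h30 : M 3 0 = 0 := pcent_aux2 h2 (key1 3 0)
  have h12 : M 1 2 = 0 := pcent_aux1 h2 (key1 1 2)
  have h21 : M 2 1 = 0 := pcent_aux2 h2 (key1 2 1)
  have h13 : M 1 3 = 0 := pcent_aux1 h2 (key1 1 3)
  have h31 : M 3 1 = 0 := pcent_aux2 h2 (key1 3 1)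
  have h23 : M 2 3 = 0 := pcent_aux1 h2 (key2 2 3)
  have h32 : M 3 2 = 0 := pcent_aux2 h2 (key2 3 2)
  have d02 : M 0 0 = M 2 2 := by
    have := congrFun (congrFun hB1 0) 2
    simpa [B1, Matrix.mul_apply, Fin.sum_univ_four] using this
  have d13 : M 1 1 = M 3 3 := by
    have := congrFun (congrFun hB1 1) 3
    simpa [B1, Matrix.mul_apply, Fin.sum_univ_four] using this
  have d01 : M 0 0 = M 1 1 := by
    have := congrFun (congrFun hB2 0) 1
    simpa [B2, Matrix.mul_apply, Fin.sum_univ_four] using this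
  refine ⟨M 0 0, ?_⟩
  ext i j
  fin_cases i <;> fin_cases j <;>
    simp [h01, h10, h02, h20, h03, h30, h12, h21, h13, h31, h23, h32, ← d02, ← d13, ← d01]

end Cfsg.Agent.H35.UP

namespace Cfsg.Agent.H35.UPPCENTCheck

open Cfsg.Agent.H83.UP

example : StPCent.{u} := Cfsg.Agent.H35.UP.pcent

end Cfsg.Agent.H35.UPPCENTCheck
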