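import Mathlib
import Cfsg.Agent.H83.UPDefs
import Cfsg.Agent.H17.FiniteQuad

/-!
# S6001-TDET (piece for helper83)

Determinant corrections in the centralizers of the unitary normal forms, over the field with
`p ^ 2` elements, `p ≡ 3 (mod 4)`.
-/

set_option autoImplicit false

universe u

namespace Cfsg.Agent.H35.UP

open Matrix Cfsg.Agent.H83.UP

section

variable {F : Type u} [Field F]

theorem tdet_charP [Fintype F] {p : ℕ} (hp : p.Prime) (hc : Fintype.card F = p ^ 2) :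
    CharP F p := by
  obtain ⟨n, hq, hn⟩ := FiniteField.card F (ringChar F)
  have h1 : ringChar F ∣ p ^ 2 := by
    rw [← hc, hn]
    exact dvd_pow_self _ n.ne_zero
  have h2 : ringChar F ∣ p := hq.dvd_of_dvd_pow h1
  have h3 : ringChar F = p := (Nat.prime_dvd_prime_iff_eq hq hp).mp h2
  rw [← h3]
  exact ringChar.charP F

theorem tdet_frob2 [Fintype F] {p : ℕ} (hc : Fintype.card F = p ^ 2) (a : F) :
    (a ^ p) ^ p = a := by
  rw [← pow_mul, ← sq, ← hc]
  exact FiniteField.pow_card a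

/-- A nonzero element with `e ^ p = -e`. -/
theorem tdet_iota [Fintype F] {p : ℕ} (hc : Fintype.card F = p ^ 2) (hp4 : p % 4 = 3) :
    ∃ e : F, e ≠ 0 ∧ e ^ p = -e := by
  have hsq : IsSquare (-1 : F) := by
    rw [FiniteField.isSquare_neg_one_iff, hc]
    have h1 : p ^ 2 % 4 = 1 := by
      rw [pow_two, Nat.mul_mod, hp4]
    omega
  obtain ⟨e, he⟩ := hsq
  have he0 : e ≠ 0 := by
    rintro rfl
    simp at he
  refine ⟨e, he0, ?_⟩
  obtain ⟨k, hk⟩ : ∃ k, p = 2 * (2 * k + 1) + 1 := ⟨p / 4, by omega⟩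
  rw [hk, pow_succ, pow_mul, pow_two, ← he, Odd.neg_one_pow ⟨k, rfl⟩]
  ring

/-- Hilbert 90 for the norm-one elements. -/
theorem tdet_h90 [Fintype F] {p : ℕ} (hp : p.Prime) (hc : Fintype.card F = p ^ 2)
    (hp4 : p % 4 = 3) {δ : F} (hδ : δ ^ (p + 1) = 1) : ∃ n : F, n ≠ 0 ∧ n = δ * n ^ p := by
  have hchar : CharP F p := tdet_charP hp hc
  have : Fact p.Prime := ⟨hp⟩
  by_cases h : δ = -1
  · obtain ⟨e, he0, he⟩ := tdet_iota hc hp4
    exact ⟨e, he0, by rw [h, he]; ring⟩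
  · refine ⟨1 + δ, ?_, ?_⟩
    · intro h0
      apply h
      linear_combination h0
    · rw [add_pow_char, one_pow]
      rw [pow_succ] at hδ
      linear_combination -hδ

theorem tdet_diagB1 (p : ℕ) (hp0 : p ≠ 0) (a b : F) (hab : a * b ^ p = 1)
    (hba : b * a ^ p = 1) :
    (Matrix.diagonal ![a, 1, b, 1] : Matrix (Fin 4) (Fin 4) F)ᵀ * B1 *
      (Matrix.diagonal ![a, 1, b, 1] : Matrix (Fin 4) (Fin 4) F).map (fun a => a ^ p) = B1 := by
  ext i j
  fin_cases i <;> fin_cases j <;>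
    simp [B1, Matrix.mul_apply, Matrix.diagonal_apply, hab, hba, hp0]

theorem tdet_diagJ1 (p : ℕ) (hp0 : p ≠ 0) (b : F) (hb : b * b ^ p = 1) :
    (Matrix.diagonal ![1, 1, b, 1] : Matrix (Fin 4) (Fin 4) F)ᵀ * J1 *
      (Matrix.diagonal ![1, 1, b, 1] : Matrix (Fin 4) (Fin 4) F).map (fun a => a ^ p) = J1 := by
  ext i j
  fin_cases i <;> fin_cases j <;>
    simp [J1, Matrix.mul_apply, Matrix.diagonal_apply, hb, hp0]

theorem tdet_map (φ : F →+* F) (α β s a b s' n m : F) (hα : φ α = a) (hβ : φ β = b)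
    (hs : φ s = s') (ha : φ a = α) (hb : φ b = β) (hs' : φ s' = s)
    (hm : φ m = n) :
    (!![α, -β, 0, 0; β, α + β * s, 0, 0; 0, 0, (a + b * s') / m, -b / m; 0, 0, b / m, a / m] :
      Matrix (Fin 4) (Fin 4) F).map φ =
    !![a, -b, 0, 0; b, a + b * s', 0, 0; 0, 0, (α + β * s) / n, -β / n; 0, 0, β / n, α / n] := by
  ext i j
  fin_cases i <;> fin_cases j <;> simp [map_div₀, hα, hβ, hs, ha, hb, hs', hm]

theorem tdet_gram (α β s a b s' n m : F) (hn : n ≠ 0) (hm : m ≠ 0)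
    (hN : α ^ 2 + s * α * β + β ^ 2 = n) (hM : a ^ 2 + s' * a * b + b ^ 2 = m) :
    (!![α, -β, 0, 0; β, α + β * s, 0, 0; 0, 0, (a + b * s') / m, -b / m; 0, 0, b / m, a / m] :
      Matrix (Fin 4) (Fin 4) F)ᵀ * B1 *
    !![a, -b, 0, 0; b, a + b * s', 0, 0; 0, 0, (α + β * s) / n, -β / n; 0, 0, β / n, α / n] =
      B1 := by
  ext i j
  fin_cases i <;> fin_cases j <;>
    simp [B1, Matrix.mul_apply, Fin.sum_univ_four] <;>
    first
      | (field_simp; ring1)
      | (field_simp; linear_combination hN)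
      | (field_simp; linear_combination hM)

theorem tdet_comm (α β s a b s' m : F) :
    (!![α, -β, 0, 0; β, α + β * s, 0, 0; 0, 0, (a + b * s') / m, -b / m; 0, 0, b / m, a / m] :
      Matrix (Fin 4) (Fin 4) F) * K5 s s' =
    K5 s s' *
      !![α, -β, 0, 0; β, α + β * s, 0, 0; 0, 0, (a + b * s') / m, -b / m; 0, 0, b / m, a / m] := by
  ext i j
  fin_cases i <;> fin_cases j <;>
    simp [K5, Matrix.mul_apply, Fin.sum_univ_four] <;> ring

theorem tdet_det (α β s a b s' n m : F) (hm : m ≠ 0)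
    (hN : α ^ 2 + s * α * β + β ^ 2 = n) (hM : a ^ 2 + s' * a * b + b ^ 2 = m) :
    (!![α, -β, 0, 0; β, α + β * s, 0, 0; 0, 0, (a + b * s') / m, -b / m; 0, 0, b / m, a / m] :
      Matrix (Fin 4) (Fin 4) F).det = n / m := by
  have e1 : (!![α, -β, 0, 0; β, α + β * s, 0, 0; 0, 0, (a + b * s') / m, -b / m;
      0, 0, b / m, a / m] : Matrix (Fin 4) (Fin 4) F).det =
      (α * (α + β * s) + β * β) * ((a + b * s') / m * (a / m) + b / m * (b / m)) := by
    rw [Matrix.det_succ_row_zero]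
    simp [Fin.sum_univ_succ, Matrix.det_fin_three, Matrix.submatrix, Fin.succAbove]
    ring
  have e2 : α * (α + β * s) + β * β = n := by linear_combination hN
  have e3 : (a + b * s') / m * (a / m) + b / m * (b / m) = 1 / m := by
    field_simp
    linear_combination hM
  rw [e1, e2, e3]
  ring

end

theorem tdet : StTDet.{u} := by
  intro F _ _ p δ hp hc hp4 hδ
  have hchar : CharP F p := tdet_charP hp hc
  have hpf : Fact p.Prime := ⟨hp⟩
  obtain ⟨n, hn0, hn⟩ := tdet_h90 hp hc hp4 hδ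
  have hnp0 : n ^ p ≠ 0 := pow_ne_zero _ hn0
  have hδ' : δ * δ ^ p = 1 := by
    rw [pow_succ] at hδ
    linear_combination hδ
  have hdiv : n / n ^ p = δ := by
    rw [div_eq_iff hnp0]
    exact hn
  refine ⟨?_, ?_, ?_⟩
  · refine ⟨n, (n ^ p)⁻¹, ?_, ?_⟩
    · rw [Matrix.det_diagonal, Fin.prod_univ_four]
      simp only [Matrix.cons_val_zero, Matrix.cons_val_one, Matrix.cons_val_two,
        Matrix.cons_val_three, Matrix.head_cons, Matrix.tail_cons, mul_one]
      rw [← div_eq_mul_inv]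
      exact hdiv
    · apply tdet_diagB1 p hp.ne_zero
      · rw [inv_pow, tdet_frob2 hc]
        exact mul_inv_cancel₀ hn0
      · exact inv_mul_cancel₀ hnp0
  · refine ⟨δ, ?_, ?_⟩
    · rw [Matrix.det_diagonal, Fin.prod_univ_four]
      simp
    · exact tdet_diagJ1 p hp.ne_zero δ hδ'
  · intro s hs h5
    have h2 : (2 : F) ≠ 0 := by
      intro h
      have h' : ((2 : ℕ) : F) = 0 := by exact_mod_cast h
      have hd : p ∣ 2 := (CharP.cast_eq_zero_iff F p 2).mp h'
      have hle : p ≤ 2 := Nat.le_of_dvd (by norm_num) hd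
      have := hp.two_le
      omega
    have hκ : (4 - s ^ 2 : F) ≠ 0 := by
      intro h
      have e1 : s ^ 2 = 4 := by linear_combination -h
      apply h5
      linear_combination (1 + (s - 3)) * e1 - (s - 3) * hs
    obtain ⟨σ, τ, hστ⟩ :=
      Cfsg.Agent.H17.exists_sq_sum_eq h2 (one_ne_zero (α := F)) hκ (4 * n)
    obtain ⟨α, β, hN⟩ : ∃ α β : F, α ^ 2 + s * α * β + β ^ 2 = n := by
      refine ⟨(σ - s * τ) / 2, τ, ?_⟩
      field_simp
      linear_combination hστ
    have hM : (α ^ p) ^ 2 + s ^ p * α ^ p * β ^ p + (β ^ p) ^ 2 = n ^ p := by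
      have := congrArg (frobenius F p) hN
      simp only [map_add, map_mul, map_pow, frobenius_def] at this
      exact this
    have hφ : (fun a : F => a ^ p) = ⇑(frobenius F p) := by
      funext a
      rw [frobenius_def]
    refine ⟨!![α, -β, 0, 0; β, α + β * s, 0, 0;
      0, 0, (α ^ p + β ^ p * s ^ p) / n ^ p, -β ^ p / n ^ p;
      0, 0, β ^ p / n ^ p, α ^ p / n ^ p], ?_, ?_, ?_⟩
    · rw [tdet_det _ _ _ _ _ _ n (n ^ p) hnp0 hN hM]
      exact hdiv
    · rw [hφ, tdet_map (frobenius F p) _ _ _ _ _ _ n (n ^ p) (frobenius_def _ _)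
        (frobenius_def _ _) (frobenius_def _ _)
        (by rw [frobenius_def]; exact tdet_frob2 hc _)
        (by rw [frobenius_def]; exact tdet_frob2 hc _)
        (by rw [frobenius_def]; exact tdet_frob2 hc _)
        (by rw [frobenius_def]; exact tdet_frob2 hc _)]
      exact tdet_gram _ _ _ _ _ _ n (n ^ p) hn0 hnp0 hN hM
    · exact tdet_comm _ _ _ _ _ _ _

end Cfsg.Agent.H35.UP

namespace Cfsg.Agent.H35.UPTDETCheck

open Cfsg.Agent.H83.UP

example : StTDet.{u} := Cfsg.Agent.H35.UP.tdet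

end Cfsg.Agent.H35.UPTDETCheck
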