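import Mathlib
import Cfsg.Agent.H83.UPDefs

/-!
# S6001-UGLUE (piece for helper83)

Two matrices with the same normal form in bases with the same Gram matrix are conjugate under a
unitary matrix of determinant 1.
-/

set_option autoImplicit false

universe u

namespace Cfsg.Agent.H35.UP

open Matrix Cfsg.Agent.H83.UP

theorem uGlue : StUGlue.{u} := by
  intro F _ p _ hp J D x y E₁ E₂ t _ hE2 hG1 hG2 hx hy ht htJ hdet
  have : Fact p.Prime := ⟨hp⟩
  have hφ : (fun a : F => a ^ p) = ⇑(frobenius F p) := by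
    funext a
    rw [frobenius_def]
  rw [hφ] at hG1 hG2 htJ
  have h2 : E₂ * E₂⁻¹ = 1 := Matrix.mul_nonsing_inv E₂ hE2
  have h2' : E₂⁻¹ * E₂ = 1 := Matrix.nonsing_inv_mul E₂ hE2
  refine ⟨E₁ * t * E₂⁻¹, ?_, ?_, ?_⟩
  · rw [Matrix.det_mul, Matrix.det_mul, Matrix.det_nonsing_inv, mul_comm E₁.det, hdet]
    exact Ring.mul_inverse_cancel _ hE2
  · unfold IsU
    rw [hφ, Matrix.map_mul, Matrix.map_mul, Matrix.transpose_mul, Matrix.transpose_mul]
    have hJ2 : E₂⁻¹ᵀ * J * (E₂⁻¹).map (frobenius F p) = 1 := by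
      rw [← hG2]
      calc E₂⁻¹ᵀ * (E₂ᵀ * E₂.map (frobenius F p)) * (E₂⁻¹).map (frobenius F p)
          = (E₂ * E₂⁻¹)ᵀ * (E₂ * E₂⁻¹).map (frobenius F p) := by
            rw [Matrix.transpose_mul, Matrix.map_mul]
            simp only [Matrix.mul_assoc]
        _ = 1 := by
            rw [h2]
            simp
    calc E₂⁻¹ᵀ * (tᵀ * E₁ᵀ) *
          (E₁.map (frobenius F p) * t.map (frobenius F p) * (E₂⁻¹).map (frobenius F p))
        = E₂⁻¹ᵀ * (tᵀ * (E₁ᵀ * E₁.map (frobenius F p)) * t.map (frobenius F p)) *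
            (E₂⁻¹).map (frobenius F p) := by
          simp only [Matrix.mul_assoc]
      _ = 1 := by rw [hG1, htJ, hJ2]
  · have hD : D * E₂⁻¹ = E₂⁻¹ * y := by
      calc D * E₂⁻¹ = E₂⁻¹ * (E₂ * D) * E₂⁻¹ := by
            rw [← Matrix.mul_assoc E₂⁻¹, h2', Matrix.one_mul]
        _ = E₂⁻¹ * y * (E₂ * E₂⁻¹) := by
            rw [← hy]
            simp only [Matrix.mul_assoc]
        _ = E₂⁻¹ * y := by rw [h2, Matrix.mul_one]
    calc x * (E₁ * t * E₂⁻¹) = (x * E₁) * t * E₂⁻¹ := by simp only [Matrix.mul_assoc]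
      _ = E₁ * (D * t) * E₂⁻¹ := by
          rw [hx]
          simp only [Matrix.mul_assoc]
      _ = E₁ * t * (D * E₂⁻¹) := by
          rw [← ht]
          simp only [Matrix.mul_assoc]
      _ = E₁ * t * (E₂⁻¹ * y) := by rw [hD]
      _ = E₁ * t * E₂⁻¹ * y := by simp only [Matrix.mul_assoc]

end Cfsg.Agent.H35.UP

namespace Cfsg.Agent.H35.UPUGLUECheck

open Cfsg.Agent.H83.UP

example : StUGlue.{u} := Cfsg.Agent.H35.UP.uGlue

end Cfsg.Agent.H35.UPUGLUECheck
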