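import Mathlib

set_option autoImplicit false

/-!
# Non-squares in a finite field of odd order (helper35; shared by the S5982 pieces KUM2 and W2)
-/

namespace Cfsg.Agent.H35.Uni

variable {F : Type*} [Field F] [Fintype F]

theorem ringChar_ne_two_of_four_dvd (h4 : 4 ∣ Fintype.card F - 1) : ringChar F ≠ 2 := by
  intro h
  have h1 := FiniteField.even_card_iff_char_two.1 h
  have h2 := Fintype.one_lt_card (α := F)
  omega

theorem isSquare_neg_one_of_four_dvd (h4 : 4 ∣ Fintype.card F - 1) : IsSquare (-1 : F) := by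
  have hchar := ringChar_ne_two_of_four_dvd h4
  rw [FiniteField.isSquare_iff hchar (neg_ne_zero.2 one_ne_zero)]
  have h2 := Fintype.one_lt_card (α := F)
  obtain ⟨k, hk⟩ := h4
  have h3 : Fintype.card F / 2 = 2 * k := by omega
  rw [h3, pow_mul]
  simp

omit [Fintype F] in
theorem not_isSquare_of_forall (z : F) (hz : ∀ y : F, y ^ 2 ≠ z) : ¬ IsSquare z := by
  rintro ⟨y, hy⟩
  exact hz y (by rw [hy, pow_two])

omit [Fintype F] in
theorem forall_of_not_isSquare (z : F) (hz : ¬ IsSquare z) : ∀ y : F, y ^ 2 ≠ z :=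
  fun y hy => hz ⟨y, by rw [← hy, pow_two]⟩

theorem not_isSquare_neg (h4 : 4 ∣ Fintype.card F - 1) (z : F) (hz : ¬ IsSquare z) :
    ¬ IsSquare (-z) := by
  intro h
  apply hz
  have h1 := (isSquare_neg_one_of_four_dvd h4).mul h
  rwa [neg_one_mul, neg_neg] at h1

/-- If a power of a non-square is `1`, the exponent is divisible by the full power of `2` in
`q - 1`. -/
theorem two_pow_dvd_of_nonsquare (hchar : ringChar F ≠ 2) (w : F) (hw : ¬ IsSquare w) (b : ℕ)
    (hb : w ^ b = 1) : 2 ^ padicValNat 2 (Fintype.card F - 1) ∣ b := by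
  have hw0 : w ≠ 0 := by
    rintro rfl
    exact hw ⟨0, by simp⟩
  have hE : w ^ (Fintype.card F / 2) ≠ 1 := fun h => hw ((FiniteField.isSquare_iff hchar hw0).2 h)
  have hq : Fintype.card F % 2 = 1 := FiniteField.odd_card_of_char_ne_two hchar
  have hq1 := Fintype.one_lt_card (α := F)
  have ho : orderOf w ∣ Fintype.card F - 1 :=
    orderOf_dvd_of_pow_eq_one (FiniteField.pow_card_sub_one_eq_one w hw0)
  obtain ⟨c, hc⟩ := ho
  have hcodd : c % 2 = 1 := by
    by_contra hcon
    obtain ⟨c', hc'⟩ : ∃ c', c = 2 * c' := ⟨c / 2, by omega⟩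
    apply hE
    have h3 : Fintype.card F / 2 = orderOf w * c' := by
      rw [hc'] at hc
      have h4 : orderOf w * (2 * c') = 2 * (orderOf w * c') := by ring
      omega
    rw [h3, pow_mul, pow_orderOf_eq_one, one_pow]
  have ho0 : orderOf w ≠ 0 := by
    intro h0
    rw [h0, zero_mul] at hc
    omega
  have hc0 : c ≠ 0 := by
    rintro rfl
    simp at hcodd
  have hval : padicValNat 2 (Fintype.card F - 1) = padicValNat 2 (orderOf w) := by
    rw [hc, padicValNat.mul ho0 hc0, padicValNat.eq_zero_of_not_dvd (by omega : ¬ 2 ∣ c),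
      add_zero]
  rw [hval]
  exact pow_padicValNat_dvd.trans (orderOf_dvd_of_pow_eq_one hb)

/-- A non-square whose order is a power of two. -/
theorem exists_nonsquare_two_pow (hchar : ringChar F ≠ 2) :
    ∃ w : F, ¬ IsSquare w ∧ w ^ 2 ^ padicValNat 2 (Fintype.card F - 1) = 1 := by
  obtain ⟨u, hu⟩ := FiniteField.exists_nonsquare hchar
  have hu0 : u ≠ 0 := by
    rintro rfl
    exact hu ⟨0, by simp⟩
  have hq : Fintype.card F % 2 = 1 := FiniteField.odd_card_of_char_ne_two hchar
  have hq1 := Fintype.one_lt_card (α := F)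
  obtain ⟨t, ht⟩ : ∃ t, t = padicValNat 2 (Fintype.card F - 1) := ⟨_, rfl⟩
  rw [← ht]
  obtain ⟨m', hm'⟩ : 2 ^ t ∣ Fintype.card F - 1 := by
    rw [ht]
    exact pow_padicValNat_dvd
  have hm'odd : m' % 2 = 1 := by
    by_contra hcon
    obtain ⟨m'', hm''⟩ : ∃ m'', m' = 2 * m'' := ⟨m' / 2, by omega⟩
    have h1 : 2 ^ (t + 1) ∣ Fintype.card F - 1 :=
      ⟨m'', by rw [hm', hm'', pow_succ]; ring⟩
    have h2 := (padicValNat_dvd_iff_le (by omega : Fintype.card F - 1 ≠ 0)).1 h1
    omega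
  have hu' : u ^ (Fintype.card F / 2) = -1 := by
    rcases FiniteField.pow_dichotomy hchar hu0 with h | h
    · exact absurd ((FiniteField.isSquare_iff hchar hu0).2 h) hu
    · exact h
  refine ⟨u ^ m', ?_, ?_⟩
  · rw [FiniteField.isSquare_iff hchar (pow_ne_zero _ hu0), ← pow_mul, mul_comm, pow_mul, hu',
      Odd.neg_one_pow (Nat.odd_iff.2 hm'odd)]
    exact Ring.neg_one_ne_one_of_char_ne_two hchar
  · rw [← pow_mul, mul_comm, ← hm', FiniteField.pow_card_sub_one_eq_one u hu0]

end Cfsg.Agent.H35.Uni
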