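import Mathlib
import Cfsg.Agent.H35.UniNSq
import Cfsg.Agent.H99.ElKUM

set_option autoImplicit false

/-!
# Piece KUM2 of S5982 (helper35, for helper99)

No matrix of determinant `1` has a non-square scalar square when `v₂(n) ≤ v₂(q - 1)` and
`4 ∣ q - 1`.
-/

open scoped MatrixGroups

namespace Cfsg.Agent.H35.Uni

variable {F : Type*} [Field F] [Fintype F]

theorem no_nonsquare_of_val_le (n : ℕ) (hn : 0 < n) (h4 : 4 ∣ Fintype.card F - 1)
    (hv : padicValNat 2 n ≤ padicValNat 2 (Fintype.card F - 1))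
    (x : Matrix (Fin n) (Fin n) F) (hdet : x.det = 1) (z : F) (hz : ∀ y : F, y ^ 2 ≠ z)
    (hx : x ^ 2 = z • (1 : Matrix (Fin n) (Fin n) F)) : False := by
  have hchar : ringChar F ≠ 2 := ringChar_ne_two_of_four_dvd h4
  have hT : (Matrix.toLin' x) ^ 2 = z • (1 : Module.End F (Fin n → F)) := by
    rw [pow_two] at hx
    rw [pow_two, Module.End.mul_eq_comp, ← Matrix.toLin'_mul, hx, map_smul, Matrix.toLin'_one]
    rfl
  have h2n : 2 ∣ n := by
    have h1 := Cfsg.Agent.H99.Kum.kummer_dvd_finrank (Matrix.toLin' x) 2 Nat.prime_two z hz hT ⊤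
      (fun v _ => Submodule.mem_top)
    rwa [finrank_top, Module.finrank_fin_fun] at h1
  obtain ⟨b, rfl⟩ := h2n
  have hb0 : b ≠ 0 := by
    rintro rfl
    simp at hn
  have hdet' := Cfsg.Agent.H99.Kum.kummer_det (Matrix.toLin' x) 2 Nat.prime_two z hz hT
  rw [LinearMap.det_toLin', hdet, Module.finrank_fin_fun,
    Nat.mul_div_cancel_left b (by norm_num : 0 < 2)] at hdet'
  have hwb : (-z) ^ b = 1 := by
    rw [hdet']
    congr 1
    ring
  have hneg : ¬ IsSquare (-z) := not_isSquare_neg h4 z (not_isSquare_of_forall z hz)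
  have hdvd := two_pow_dvd_of_nonsquare hchar (-z) hneg b hwb
  have h1 : padicValNat 2 (Fintype.card F - 1) ≤ padicValNat 2 b :=
    (padicValNat_dvd_iff_le hb0).1 hdvd
  have h2 : padicValNat 2 (2 * b) = padicValNat 2 b + 1 := by
    rw [padicValNat.mul (by norm_num) hb0, padicValNat_self]
    ring
  omega

end Cfsg.Agent.H35.Uni

namespace Cfsg.Agent.H35.UniKUM2Check

open scoped MatrixGroups

variable {F : Type*} [Field F] [Fintype F]

example (n : ℕ) (hn : 0 < n) (h4 : 4 ∣ Fintype.card F - 1)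
    (hv : padicValNat 2 n ≤ padicValNat 2 (Fintype.card F - 1))
    (x : Matrix (Fin n) (Fin n) F) (hdet : x.det = 1) (z : F) (hz : ∀ y : F, y ^ 2 ≠ z)
    (hx : x ^ 2 = z • (1 : Matrix (Fin n) (Fin n) F)) : False :=
  Cfsg.Agent.H35.Uni.no_nonsquare_of_val_le n hn h4 hv x hdet z hz hx

end Cfsg.Agent.H35.UniKUM2Check
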