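import Mathlib
import Cfsg.Agent.H35.UniNSq

set_option autoImplicit false

/-!
# Piece W2 of S5982 (helper35, for helper99)

A matrix of determinant `1` whose square is a non-square scalar, when `v₂(q - 1) < v₂(n)`.
-/

open scoped MatrixGroups

namespace Cfsg.Agent.H35.Uni

open scoped Kronecker

variable {F : Type*} [Field F] [Fintype F]

theorem exists_nonsquare_witness (n : ℕ) (h4 : 4 ∣ Fintype.card F - 1)
    (hv : padicValNat 2 (Fintype.card F - 1) < padicValNat 2 n) :
    ∃ (M : Matrix (Fin n) (Fin n) F) (z : F), M.det = 1 ∧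
      M ^ 2 = z • (1 : Matrix (Fin n) (Fin n) F) ∧ ∀ y : F, y ^ 2 ≠ z := by
  have hchar : ringChar F ≠ 2 := ringChar_ne_two_of_four_dvd h4
  have hn0 : n ≠ 0 := by
    rintro rfl
    simp at hv
  have h2n : 2 ∣ n := by
    by_contra h
    rw [padicValNat.eq_zero_of_not_dvd h] at hv
    omega
  obtain ⟨b, rfl⟩ := h2n
  have hb0 : b ≠ 0 := by
    rintro rfl
    exact hn0 rfl
  have hvb : padicValNat 2 (2 * b) = padicValNat 2 b + 1 := by
    rw [padicValNat.mul (by norm_num) hb0, padicValNat_self]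
    ring
  have hdvd : 2 ^ padicValNat 2 (Fintype.card F - 1) ∣ b :=
    (padicValNat_dvd_iff_le hb0).2 (by omega)
  obtain ⟨w, hwns, hw2t⟩ := exists_nonsquare_two_pow hchar
  have hwb : w ^ b = 1 := by
    obtain ⟨c, hc⟩ := hdvd
    rw [hc, pow_mul, hw2t, one_pow]
  have hzns : ¬ IsSquare (-w) := not_isSquare_neg h4 w hwns
  have hCC : (!![0, -w; 1, 0] : Matrix (Fin 2) (Fin 2) F) * !![0, -w; 1, 0]
      = (-w) • (1 : Matrix (Fin 2) (Fin 2) F) := by
    ext i j
    fin_cases i <;> fin_cases j <;> simp [Matrix.mul_apply, Fin.sum_univ_two]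
  refine ⟨Matrix.reindex finProdFinEquiv finProdFinEquiv
    ((!![0, -w; 1, 0] : Matrix (Fin 2) (Fin 2) F) ⊗ₖ (1 : Matrix (Fin b) (Fin b) F)), -w, ?_, ?_,
    forall_of_not_isSquare _ hzns⟩
  · rw [Matrix.det_reindex_self, Matrix.det_kronecker, Matrix.det_fin_two_of, Matrix.det_one,
      one_pow, mul_one, Fintype.card_fin]
    have h1 : (0 : F) * 0 - -w * 1 = w := by ring
    rw [h1, hwb]
  · rw [pow_two, Matrix.reindex_apply, Matrix.submatrix_mul_equiv, ← Matrix.mul_kronecker_mul,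
      hCC, Matrix.mul_one, Matrix.smul_kronecker, Matrix.one_kronecker_one]
    ext i j
    simp only [Matrix.submatrix_apply, Matrix.smul_apply, Matrix.one_apply]
    by_cases hij : i = j
    · subst hij
      simp
    · have hne : (finProdFinEquiv (m := 2) (n := b)).symm i ≠ finProdFinEquiv.symm j :=
        fun h => hij (finProdFinEquiv.symm.injective h)
      rw [if_neg hne, if_neg hij]

end Cfsg.Agent.H35.Uni

namespace Cfsg.Agent.H35.UniW2Check

open scoped MatrixGroups

variable {F : Type*} [Field F] [Fintype F]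

example (n : ℕ) (h4 : 4 ∣ Fintype.card F - 1)
    (hv : padicValNat 2 (Fintype.card F - 1) < padicValNat 2 n) :
    ∃ (M : Matrix (Fin n) (Fin n) F) (z : F), M.det = 1 ∧
      M ^ 2 = z • (1 : Matrix (Fin n) (Fin n) F) ∧ ∀ y : F, y ^ 2 ≠ z :=
  Cfsg.Agent.H35.Uni.exists_nonsquare_witness n h4 hv

end Cfsg.Agent.H35.UniW2Check
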