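import Mathlib
import Cfsg.Agent.H58.UqDefs
import Cfsg.Agent.H12.SpConjG
import Cfsg.Agent.H51.JcNORM
import Cfsg.Agent.S2942

/-!
# UQ-END (S2950 team project, helper58): uniqueness of the maximal 2-local subgroup

helper35.  `U = ⟨W_K^ρ : ρ ∈ R⟩`, `R = ⟨N_L(J), N_{L'}(J)⟩`, is a nontrivial 2-group inside
`O₂(L) ∩ O₂(L')` normalized by `L` and `L'` (Frattini), so `L = N_G(U) = L'`.
-/

set_option autoImplicit false
open Cfsg

universe u

namespace Cfsg.Agent.H35.Uq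

open Cfsg.Agent.H58.Uq

theorem le_normalizer_of_conj_mem {G : Type u} [Group G] (X U : Subgroup G)
    (h : ∀ x ∈ X, ∀ u ∈ U, x * u * x⁻¹ ∈ U) : X ≤ Subgroup.normalizer (U : Set G) := by
  intro x hx
  rw [Subgroup.mem_normalizer_iff]
  intro u
  constructor
  · intro hu
    exact h x hx u hu
  · intro hu
    have h0 := h x⁻¹ (X.inv_mem hx) _ hu
    have e : x⁻¹ * (x * u * x⁻¹) * x⁻¹⁻¹ = u := by group
    rwa [e] at h0

theorem conj_mem_iSup {G : Type u} [Group G] {ι : Sort*} (W : ι → Subgroup G) (V : Subgroup G)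
    (x : G) (h : ∀ i, ∀ w ∈ W i, x * w * x⁻¹ ∈ V) : ∀ u ∈ ⨆ i, W i, x * u * x⁻¹ ∈ V := by
  intro u hu
  refine Subgroup.iSup_induction W (C := fun u => x * u * x⁻¹ ∈ V) hu h ?_ ?_
  · show x * 1 * x⁻¹ ∈ V
    simp
  · intro a b ha hb
    show x * (a * b) * x⁻¹ ∈ V
    have e : x * (a * b) * x⁻¹ = (x * a * x⁻¹) * (x * b * x⁻¹) := by group
    rw [e]; exact V.mul_mem ha hb

theorem endp (hOrb : StOrb.{u}) (hS : StS.{u}) (hF : StFrat.{u}) (hO : StO2SN.{u}) :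
    StEnd.{u} := by
  intro G _ _ hZN T hT hT1 L L' T₁ T₂ hLmax hL'max hLT hL'T hJ1 hJ2 K hK hKL hKL'
  have horb := hOrb hZN T hT hT1 L L' T₁ T₂ hLmax hL'max hLT hL'T hJ1 hJ2 K hK hKL hKL'
  obtain ⟨hchar, hN, hZ⟩ := id hZN
  obtain ⟨R, hRdef⟩ : ∃ R : Subgroup G,
      R = (L ⊓ Subgroup.normalizer (thompsonSubgroupOf 2 T : Set G)) ⊔
        (L' ⊓ Subgroup.normalizer (thompsonSubgroupOf 2 T : Set G)) := ⟨_, rfl⟩
  rw [← hRdef] at horb
  obtain ⟨U, hUdef⟩ : ∃ U : Subgroup G,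
      U = ⨆ ρ : ↥R, (wOf K).map (MulAut.conj (ρ : G)).toMonoidHom := ⟨_, rfl⟩
  have hWU : ∀ ρ ∈ R, (wOf K).map (MulAut.conj ρ).toMonoidHom ≤ U := by
    intro ρ hρ
    rw [hUdef]
    exact le_iSup (fun ρ : ↥R => (wOf K).map (MulAut.conj (ρ : G)).toMonoidHom) ⟨ρ, hρ⟩
  have hconj_mem : ∀ (g w : G) (W : Subgroup G), w ∈ W →
      g * w * g⁻¹ ∈ W.map (MulAut.conj g).toMonoidHom := by
    intro g w W hw
    exact Subgroup.mem_map.mpr ⟨w, hw, by simp [MulAut.conj_apply]⟩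
  have hKJ : IsJComponent T K := hK.1
  have hW4 : Nat.card ↥(wOf K) = 4 := hKJ.2.2.2.2.1
  have hWne : wOf K ≠ ⊥ := by
    intro h
    rw [h, Subgroup.card_bot] at hW4
    omega
  have hUne : U ≠ ⊥ := by
    intro h
    apply hWne
    rw [Subgroup.eq_bot_iff_forall]
    intro w hw
    have h1 := hWU 1 R.one_mem (hconj_mem 1 w _ hw)
    rw [h] at h1
    simpa using h1
  have hRnorm : R ≤ Subgroup.normalizer (U : Set G) := by
    apply le_normalizer_of_conj_mem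
    intro r hr u hu
    rw [hUdef] at hu
    refine conj_mem_iSup (fun ρ : ↥R => (wOf K).map (MulAut.conj (ρ : G)).toMonoidHom) U r ?_ u hu
    rintro ⟨ρ, hρ⟩ w hw
    obtain ⟨w0, hw0, rfl⟩ := Subgroup.mem_map.mp hw
    have h1 := hWU (r * ρ) (R.mul_mem hr hρ) (hconj_mem (r * ρ) w0 _ hw0)
    have e : r * ((MulAut.conj ρ).toMonoidHom w0) * r⁻¹ = r * ρ * w0 * (r * ρ)⁻¹ := by
      simp only [MulEquiv.coe_toMonoidHom, MulAut.conj_apply]
      group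
    rw [e]; exact h1
  have main : ∀ (Λ Tₛ : Subgroup G), IsMaximalTwoLocal Λ → Λ ∈ jOvergroups Tₛ →
      thompsonSubgroupOf 2 Tₛ = thompsonSubgroupOf 2 T →
      (∀ ρ ∈ R, K.map (MulAut.conj ρ).toMonoidHom ≤ Λ) →
      Λ ⊓ Subgroup.normalizer (thompsonSubgroupOf 2 T : Set G) ≤ R →
      Subgroup.normalizer (U : Set G) = Λ := by
    intro Λ Tₛ hΛmax hΛT hJs hKΛ hΛR
    have hsyl : IsSylowTwoIn Tₛ Λ := hΛT.1
    have hTs : IsPGroup 2 ↥Tₛ := hsyl.2.1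
    have hTs1 : Tₛ ≠ ⊥ := by
      intro h
      apply hΛT.2.1
      rw [h]
      have h0 : thompsonSubgroupOf 2 (⊥ : Subgroup G) ≤ ⊥ := by
        unfold thompsonSubgroupOf
        exact Subgroup.map_subtype_le _
      exact h0.trans bot_le
    obtain ⟨hk0, hkc⟩ := k0_congr T Tₛ hJs
    have hρ : ∀ ρ ∈ R, (wOf K).map (MulAut.conj ρ).toMonoidHom ≤ pCoreOf 2 Λ ∧
        ∀ l ∈ Λ, (thompsonSubgroupOf 2 Tₛ).map (MulAut.conj l).toMonoidHom ≤
          Subgroup.normalizer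
            (((wOf K).map (MulAut.conj ρ).toMonoidHom : Subgroup G) : Set G) := by
      intro ρ hρR
      obtain ⟨hρ0, -, -⟩ := horb ρ hρR
      have hρ0s : K.map (MulAut.conj ρ).toMonoidHom ∈ jComponentsZero Tₛ := by
        rw [hk0]; exact hρ0
      have hρJ : IsJComponent Tₛ (K.map (MulAut.conj ρ).toMonoidHom) := hρ0s.1
      have hsub := Cfsg.Agent.S2942.result hchar hN hZ Tₛ hTs hTs1 Λ hΛT _ hρJ (hKΛ ρ hρR)
      have hcore := hO _ Λ (hKΛ ρ hρR) hsub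
      rw [← Cfsg.Agent.H12.Sp.wOf_conj_map]
      refine ⟨(Cfsg.Agent.H51.Jc.wOf_le _).trans hcore, ?_⟩
      refine hS hZN Tₛ hTs hTs1 Λ hΛT _ hρJ (hKΛ ρ hρR) ⟨1, ?_⟩
      have e1 : Tₛ.map (MulAut.conj (1 : G)).toMonoidHom = Tₛ := by
        ext x
        simp [Subgroup.mem_map]
      rw [e1]; exact hρ0s
    have hUcore : U ≤ pCoreOf 2 Λ := by
      rw [hUdef]
      exact iSup_le (fun ρ => (hρ ρ.1 ρ.2).1)
    have hU2 : IsPGroup 2 ↥U := (Cfsg.Agent.H51.Jc.pCoreOf_facts Λ).2.2.to_le hUcore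
    have hloc : IsTwoLocal (Subgroup.normalizer (U : Set G)) := ⟨U, hU2, hUne, rfl⟩
    have hΛN : Λ ≤ Subgroup.normalizer (U : Set G) := by
      apply hF Tₛ Λ U hsyl
      · intro l hl
        apply le_normalizer_of_conj_mem
        intro x hx u hu
        rw [hUdef] at hu
        refine conj_mem_iSup (fun ρ : ↥R => (wOf K).map (MulAut.conj (ρ : G)).toMonoidHom) U x
          ?_ u hu
        rintro ⟨ρ, hρR⟩ w hw
        have hxN := (hρ ρ hρR).2 l hl hx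
        exact hWU ρ hρR (((Subgroup.mem_normalizer_iff).mp hxN w).mp hw)
      · rw [hJs]
        exact hΛR.trans hRnorm
    exact hΛmax.2 _ hloc hΛN
  have e1 := main L T₁ hLmax hLT hJ1 (fun ρ hρ => (horb ρ hρ).2.1)
    (by rw [hRdef]; exact le_sup_left)
  have e2 := main L' T₂ hL'max hL'T hJ2 (fun ρ hρ => (horb ρ hρ).2.2)
    (by rw [hRdef]; exact le_sup_right)
  exact e2.symm.trans e1

end Cfsg.Agent.H35.Uq

namespace Cfsg.Agent.H35.UqEndCheck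

open Cfsg.Agent.H58.Uq

example (hOrb : StOrb.{u}) (hS : StS.{u}) (hF : StFrat.{u}) (hO : StO2SN.{u}) : StEnd.{u} :=
  Cfsg.Agent.H35.Uq.endp hOrb hS hF hO

end Cfsg.Agent.H35.UqEndCheck
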