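import Mathlib
import Cfsg.Agent.H42.UtDefs
import Cfsg.Agent.H27.UnOrd

/-!
# UT-CNT and UT-CNTP (pieces of helper42's team project S5953)

Arithmetic consequences of the count of totally isotropic `m`-spaces of the standard hermitian
space (ports of helper72's `tiCnt`, `tiCntP`).
-/

set_option autoImplicit false

universe u

namespace Cfsg.Agent.H35.Ut

open Cfsg.Agent.H45 Cfsg.Agent.H42.Spd Cfsg.Agent.H42.Un Cfsg.Agent.H42.Ti Cfsg.Agent.H42.Ut Module

/-- The raw form of the count of totally isotropic `m`-spaces. -/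
theorem ut_count (h1 : StUtTuples.{u}) (h2 : StUtFib.{u}) (F : Type u) [Field F] [Fintype F]
    (q : ℕ) (hc : Fintype.card F = q ^ 2) (n m : ℕ) (hm : 2 * m ≤ n) :
    Nat.card {W : Submodule F (Fin n → F) // Module.finrank F ↥W = m ∧
        (∀ u ∈ W, ∀ v ∈ W, Cfsg.hermForm n F q u v = 0)} *
      ∏ j ∈ Finset.range m, (Fintype.card F ^ m - Fintype.card F ^ j) =
      ∏ j ∈ Finset.range m, q ^ (2 * j) * isoNum q (n - 2 * j) := by
  have e1 := h1 F q hc n m hm
  have e2 := h2 F q hc n m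
  rw [e1] at e2
  exact e2.symm

/-- The cancelled form of the count of totally isotropic `m`-spaces. -/
theorem ut_cancel (h1 : StUtTuples.{u}) (h2 : StUtFib.{u}) (F : Type u) [Field F] [Fintype F]
    (q : ℕ) (hc : Fintype.card F = q ^ 2) (n m : ℕ) (hm : 2 * m ≤ n) :
    Nat.card {W : Submodule F (Fin n → F) // Module.finrank F ↥W = m ∧
        (∀ u ∈ W, ∀ v ∈ W, Cfsg.hermForm n F q u v = 0)} *
      ∏ j ∈ Finset.range m, (Fintype.card F ^ (m - j) - 1) =
      ∏ j ∈ Finset.range m, isoNum q (n - 2 * j) := by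
  have e2 := ut_count h1 h2 F q hc n m hm
  have hQ0 : 0 < Fintype.card F := Fintype.card_pos
  have hA : ∏ j ∈ Finset.range m, (Fintype.card F ^ m - Fintype.card F ^ j) =
      (∏ j ∈ Finset.range m, Fintype.card F ^ j) *
        ∏ j ∈ Finset.range m, (Fintype.card F ^ (m - j) - 1) := by
    rw [← Finset.prod_mul_distrib]
    refine Finset.prod_congr rfl ?_
    intro j hj
    have hj' : j < m := Finset.mem_range.mp hj
    rw [Nat.mul_sub, mul_one, ← pow_add]
    congr 2
    omega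
  have hB : ∏ j ∈ Finset.range m, q ^ (2 * j) * isoNum q (n - 2 * j) =
      (∏ j ∈ Finset.range m, Fintype.card F ^ j) *
        ∏ j ∈ Finset.range m, isoNum q (n - 2 * j) := by
    rw [← Finset.prod_mul_distrib]
    refine Finset.prod_congr rfl ?_
    intro j _
    rw [hc, ← pow_mul]
  rw [hA, hB] at e2
  have hP : 0 < ∏ j ∈ Finset.range m, Fintype.card F ^ j :=
    Finset.prod_pos (fun j _ => pow_pos hQ0 j)
  have e3 : (∏ j ∈ Finset.range m, Fintype.card F ^ j) *
      (Nat.card {W : Submodule F (Fin n → F) // Module.finrank F ↥W = m ∧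
          (∀ u ∈ W, ∀ v ∈ W, Cfsg.hermForm n F q u v = 0)} *
        ∏ j ∈ Finset.range m, (Fintype.card F ^ (m - j) - 1)) =
      (∏ j ∈ Finset.range m, Fintype.card F ^ j) *
        ∏ j ∈ Finset.range m, isoNum q (n - 2 * j) := by
    rw [← e2]
    ring
  exact Nat.eq_of_mul_eq_mul_left hP e3

theorem utCntP (h1 : StUtTuples.{u}) (h2 : StUtFib.{u}) : StUtCntP.{u} := by
  intro F _ _ p _ _ q hc n m hm hdvd
  have hp : p.Prime := Fact.out
  have hcan := ut_cancel h1 h2 F q hc n m hm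
  have h3 : p ∣ ∏ j ∈ Finset.range m, isoNum q (n - 2 * j) := by
    rw [← hcan]
    exact Dvd.dvd.mul_right hdvd _
  obtain ⟨j, hj, hjd⟩ := (Prime.dvd_finsetProd_iff hp.prime _).mp h3
  have hj' : j < m := Finset.mem_range.mp hj
  obtain ⟨e, _, he⟩ := FiniteField.card F p
  have hpq : p ∣ q := by
    have h4 : p ∣ q ^ 2 := by
      rw [← hc, he]
      exact dvd_pow_self p e.pos.ne'
    exact hp.dvd_of_dvd_pow h4
  have hk2 : 2 ≤ n - 2 * j := by omega
  have key : ∀ t : ℕ, 1 ≤ t → p ∣ q ^ t := fun t ht => Dvd.dvd.trans hpq (dvd_pow_self _ (by omega))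
  have hq0 : 0 < q := by
    rcases Nat.eq_zero_or_pos q with h | h
    · rw [h] at hc
      simp at hc
    · exact h
  have no1 : ∀ t : ℕ, 1 ≤ t → ¬ p ∣ q ^ t - 1 := by
    intro t ht hd
    have hpos : 0 < q ^ t := pow_pos hq0 t
    have := Nat.dvd_sub (key t ht) hd
    rw [Nat.sub_sub_self hpos] at this
    exact hp.one_lt.ne' (Nat.dvd_one.mp this)
  have no2 : ∀ t : ℕ, 1 ≤ t → ¬ p ∣ q ^ t + 1 := by
    intro t ht hd
    have := (Nat.dvd_add_right (key t ht)).mp hd
    exact hp.one_lt.ne' (Nat.dvd_one.mp this)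
  unfold isoNum at hjd
  split_ifs at hjd with hev
  · rcases (Nat.Prime.dvd_mul hp).mp hjd with h | h
    · exact no1 _ (by omega) h
    · exact no2 _ (by omega) h
  · rcases (Nat.Prime.dvd_mul hp).mp hjd with h | h
    · exact no2 _ (by omega) h
    · exact no1 _ (by omega) h

theorem utCnt (h1 : StUtTuples.{u}) (h2 : StUtFib.{u}) : StUtCnt.{u} := by
  intro F _ _ q hc n m r hr hr2 hrF hm hdvd
  have hcnt := ut_count h1 h2 F q hc n m hm
  have h3 : r ∣ ∏ j ∈ Finset.range m, q ^ (2 * j) * isoNum q (n - 2 * j) := by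
    rw [← hcnt]
    exact Dvd.dvd.mul_right hdvd _
  obtain ⟨j, hj, hjd⟩ := (Prime.dvd_finsetProd_iff hr.prime _).mp h3
  have hj' : j < m := Finset.mem_range.mp hj
  have hrq : ¬ r ∣ q := by
    intro hrq
    obtain ⟨e, hp, he⟩ := FiniteField.card F (ringChar F)
    have h4 : r ∣ ringChar F ^ (e : ℕ) := by
      rw [← he, hc]
      exact Dvd.dvd.trans hrq (dvd_pow_self _ (by norm_num))
    have h5 : r ∣ ringChar F := hr.dvd_of_dvd_pow h4
    have h6 : r = ringChar F := (Nat.prime_dvd_prime_iff_eq hr hp).mp h5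
    apply hrF
    rw [h6]
    exact ringChar.Nat.cast_ringChar
  have hiso : r ∣ isoNum q (n - 2 * j) := by
    rcases (Nat.Prime.dvd_mul hr).mp hjd with h | h
    · exact absurd (hr.dvd_of_dvd_pow h) hrq
    · exact h
  have hk2 : 2 ≤ n - 2 * j := by omega
  unfold isoNum at hiso
  split_ifs at hiso with hev
  · rcases (Nat.Prime.dvd_mul hr).mp hiso with h | h
    · refine ⟨n - 2 * j, by omega, by omega, ?_⟩
      apply Cfsg.Agent.H27.Un.uOrd q r (n - 2 * j) hr hr2 hrq (by omega)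
      rw [if_pos hev]
      exact h
    · refine ⟨n - 2 * j - 1, by omega, by omega, ?_⟩
      have hodd : ¬ Even (n - 2 * j - 1) := by
        rw [Nat.not_even_iff_odd]
        obtain ⟨t, ht⟩ := hev
        exact ⟨t - 1, by omega⟩
      apply Cfsg.Agent.H27.Un.uOrd q r (n - 2 * j - 1) hr hr2 hrq (by omega)
      rw [if_neg hodd]
      exact h
  · rcases (Nat.Prime.dvd_mul hr).mp hiso with h | h
    · refine ⟨n - 2 * j, by omega, by omega, ?_⟩
      apply Cfsg.Agent.H27.Un.uOrd q r (n - 2 * j) hr hr2 hrq (by omega)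
      rw [if_neg hev]
      exact h
    · refine ⟨n - 2 * j - 1, by omega, by omega, ?_⟩
      have hev' : Even (n - 2 * j - 1) := by
        obtain ⟨t, ht⟩ := Nat.not_even_iff_odd.mp hev
        exact ⟨t, by omega⟩
      apply Cfsg.Agent.H27.Un.uOrd q r (n - 2 * j - 1) hr hr2 hrq (by omega)
      rw [if_pos hev']
      exact h

end Cfsg.Agent.H35.Ut

namespace Cfsg.Agent.H35.UtCntCheck

open Cfsg.Agent.H42.Ut

example (h1 : StUtTuples.{u}) (h2 : StUtFib.{u}) : StUtCntP.{u} := Cfsg.Agent.H35.Ut.utCntP h1 h2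

example (h1 : StUtTuples.{u}) (h2 : StUtFib.{u}) : StUtCnt.{u} := Cfsg.Agent.H35.Ut.utCnt h1 h2

end Cfsg.Agent.H35.UtCntCheck
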