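import Mathlib
import Cfsg.Agent.H42.UtDefs

/-!
# UT-HALF (piece of helper42's team project S5953)

A totally isotropic subspace of a nondegenerate subspace `K` has dimension at most `dim K / 2`
(hermitian version of helper72's `tiHalf`; the semilinear map `y ↦ B(·, y)` is handled by
counting).
-/

set_option autoImplicit false

universe u v

namespace Cfsg.Agent.H35.Ut

open Cfsg.Agent.H45 Cfsg.Agent.H42.Spd Cfsg.Agent.H42.Un Cfsg.Agent.H42.Ti Cfsg.Agent.H42.Ut Module

theorem utHalf : StUtHalf.{u, v} := by
  intro F _ _ σ V _ _ _ B T _ K U hK hUK hTI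
  let UK : Submodule F K := U.comap K.subtype
  have e : UK ≃ₗ[F] U := Submodule.comapSubtypeEquivOfLe hUK
  let R : U → Module.Dual F K := fun y => (B.flip (y : V)).comp K.subtype
  have hR : ∀ (y : U) (k : K), R y k = B (k : V) (y : V) := fun y k => rfl
  have hinj : Function.Injective R := by
    intro y₁ y₂ h
    have h1 : ((y₁ : V) - y₂) ∈ K ⊓ perp B K := by
      refine ⟨K.sub_mem (hUK y₁.2) (hUK y₂.2), ?_⟩
      intro k hk
      have := congrArg (fun ψ : Module.Dual F K => ψ ⟨k, hk⟩) h
      simp only [hR] at this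
      rw [map_sub, this, sub_self]
    rw [hK, Submodule.mem_bot, sub_eq_zero] at h1
    exact Subtype.ext h1
  have hmem : ∀ y : U, R y ∈ UK.dualAnnihilator := by
    intro y
    rw [Submodule.mem_dualAnnihilator]
    intro k hk
    rw [hR]
    exact hTI k hk y y.2
  let R' : U → UK.dualAnnihilator := fun y => ⟨R y, hmem y⟩
  have hinj' : Function.Injective R' := by
    intro y₁ y₂ h
    exact hinj (congrArg Subtype.val h)
  have hfin : Finite (UK.dualAnnihilator) := Module.finite_of_finite F
  have hle : Nat.card U ≤ Nat.card (UK.dualAnnihilator) :=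
    Nat.card_le_card_of_injective R' hinj'
  have hcU : Nat.card U = Nat.card F ^ Module.finrank F U :=
    Module.natCard_eq_pow_finrank (K := F) (V := U)
  have hcA : Nat.card (UK.dualAnnihilator) =
      Nat.card F ^ Module.finrank F (UK.dualAnnihilator) :=
    Module.natCard_eq_pow_finrank (K := F) (V := UK.dualAnnihilator)
  rw [hcU, hcA] at hle
  have hq : 1 < Nat.card F := Finite.one_lt_card
  have h1 : Module.finrank F U ≤ Module.finrank F (UK.dualAnnihilator) :=
    (Nat.pow_le_pow_iff_right hq).mp hle
  have h3 := Subspace.finrank_add_finrank_dualAnnihilator_eq UK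
  have h4 : Module.finrank F UK = Module.finrank F U := e.finrank_eq
  omega

end Cfsg.Agent.H35.Ut

namespace Cfsg.Agent.H35.UtHalfCheck

example : Cfsg.Agent.H42.Ut.StUtHalf.{u, v} := Cfsg.Agent.H35.Ut.utHalf

end Cfsg.Agent.H35.UtHalfCheck
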