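import Mathlib
import Cfsg.Agent.H42.UtDefs
import Cfsg.Agent.H27.UnCompl

/-!
# UT-PEEL (piece of helper42's team project S5953)

Port of helper72's `Cfsg.Agent.H72.Ti.tiPeel` to hermitian forms (`UIso`), with helper27's
`uCompl` in place of the symplectic complement lemma.
-/

set_option autoImplicit false

universe u v

namespace Cfsg.Agent.H35.Ut

open Cfsg.Agent.H45 Cfsg.Agent.H42.Spd Cfsg.Agent.H42.Un Cfsg.Agent.H42.Ti Cfsg.Agent.H42.Ut Module

theorem utPeel : StUtPeel.{u, v} := by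
  intro F _ _ σ V _ _ _ B T hI a τ W₁ hW₁ hyp j
  induction j generalizing W₁ with
  | zero =>
    intro _
    refine ⟨⊥, bot_le, ?_, ?_, ?_⟩
    · exact (Module.End.mem_invtSubmodule_iff_forall_mem_of_mem T).mpr (by
        intro x hx
        rw [Submodule.mem_bot] at hx ⊢
        rw [hx, map_zero])
    · intro u hu v _
      rw [(Submodule.mem_bot F).mp hu, map_zero, LinearMap.zero_apply]
    · simp
  | succ j ih =>
    intro hj
    have hlt : τ + 2 * a * j < Module.finrank F W₁ := by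
      rcases hj with h | h
      · omega
      · simpa using h
    obtain ⟨H, L, hHW, hH, hHr, hLH, hLinv, hLTI, hLr⟩ := hyp W₁ le_rfl hW₁ (by omega)
    obtain ⟨hW', _, hrk⟩ := Cfsg.Agent.H27.Un.uCompl F σ V B T hI H W₁ hH hW₁ hHW
    have hyp' : ∀ W : Submodule F V, W ≤ W₁ ⊓ perp B H → UNd B T W → τ < Module.finrank F W →
        UHypPair B T a W := fun W hW => hyp W (hW.trans inf_le_left)
    have hj' : j = 0 ∨ τ + 2 * a * (j - 1) < Module.finrank F ↥(W₁ ⊓ perp B H) := by
      rcases Nat.eq_zero_or_pos j with h0 | hpos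
      · exact Or.inl h0
      · right
        have e : 2 * a * j = 2 * a * (j - 1) + 2 * a := by
          obtain ⟨k, rfl⟩ : ∃ k, j = k + 1 := ⟨j - 1, by omega⟩
          simp [mul_add]
        omega
    obtain ⟨U', hU'W, hU'inv, hU'TI, hU'r⟩ := ih (W₁ ⊓ perp B H) hW' hyp' hj'
    have hdisj : L ⊓ U' = ⊥ := by
      rw [eq_bot_iff]
      intro x hx
      have : x ∈ H ⊓ perp B H := ⟨hLH hx.1, (hU'W hx.2).2⟩
      rw [hH.2] at this
      exact this
    refine ⟨L ⊔ U', sup_le (hLH.trans hHW) (hU'W.trans inf_le_left), ?_, ?_, ?_⟩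
    · exact T.invtSubmodule.sup_mem hLinv hU'inv
    · intro u hu v hv
      obtain ⟨l, hl, u', hu', rfl⟩ := Submodule.mem_sup.mp hu
      obtain ⟨l', hl', u'', hu'', rfl⟩ := Submodule.mem_sup.mp hv
      have e1 : B l l' = 0 := hLTI l hl l' hl'
      have e2 : B l u'' = 0 := (hU'W hu'').2 l (hLH hl)
      have e3 : B u' l' = 0 := by
        rw [hI.herm, (hU'W hu').2 l' (hLH hl'), map_zero]
      have e4 : B u' u'' = 0 := hU'TI u' hu' u'' hu''
      simp only [map_add, LinearMap.add_apply, e1, e2, e3, e4, add_zero]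
    · have h := Submodule.finrank_sup_add_finrank_inf_eq L U'
      rw [hdisj, finrank_bot, add_zero] at h
      rw [h, hLr, hU'r]
      ring

end Cfsg.Agent.H35.Ut

namespace Cfsg.Agent.H35.UtPeelCheck

example : Cfsg.Agent.H42.Ut.StUtPeel.{u, v} := Cfsg.Agent.H35.Ut.utPeel

end Cfsg.Agent.H35.UtPeelCheck
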